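import Cfsg.Agent.H52.SrDefs

/-!
# SR-FIX (helper52's mini-project SR for S2951 / S2952), helper56

A 2-group `T` normalizing a nontrivial 2-group `U` centralizes a nontrivial element of `U`: `T` acts on `U` by
conjugation, `|U|` is even and `1` is a fixed point, so there is a second fixed point.
-/

set_option autoImplicit false

namespace Cfsg.Agent.H56.Sr

open Cfsg.Agent.H52.Sr

universe u

/-- **SR-FIX**. -/
theorem fix : StFix.{u} := by
  intro X _ _ T U hT hU hN hne
  classical
  have hp2 : Fact (Nat.Prime 2) := ⟨Nat.prime_two⟩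
  let act : MulAction ↥T ↥U :=
    { smul := fun t u => ⟨(t : X) * u * (t : X)⁻¹, ((Subgroup.mem_normalizer_iff.1 (hN t.2)) u).1 u.2⟩
      one_smul := fun u => Subtype.ext (by
        show ((1 : ↥T) : X) * u * ((1 : ↥T) : X)⁻¹ = u
        simp)
      mul_smul := fun s t u => Subtype.ext (by
        show ((s * t : ↥T) : X) * u * ((s * t : ↥T) : X)⁻¹ =
          (s : X) * ((t : X) * u * (t : X)⁻¹) * (s : X)⁻¹
        simp [mul_assoc]) }
  have h2 : 2 ∣ Nat.card ↥U := by
    obtain ⟨n, hn⟩ := IsPGroup.iff_card.1 hU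
    rw [hn]
    cases n with
    | zero =>
      exfalso
      apply hne
      rw [pow_zero] at hn
      exact Subgroup.eq_bot_of_card_eq U hn
    | succ n => exact dvd_pow_self 2 (Nat.succ_ne_zero n)
  have h1 : (1 : ↥U) ∈ MulAction.fixedPoints ↥T ↥U := by
    intro t
    apply Subtype.ext
    show (t : X) * ((1 : ↥U) : X) * (t : X)⁻¹ = ((1 : ↥U) : X)
    simp
  obtain ⟨b, hb, hb1⟩ := hT.exists_fixed_point_of_prime_dvd_card_of_fixed_point (α := ↥U) h2 h1
  refine ⟨b, b.2, fun h => hb1 (Subtype.ext h.symm), ?_⟩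
  rw [Subgroup.mem_centralizer_iff]
  intro t ht
  have h3 : t * (b : X) * t⁻¹ = b := congrArg Subtype.val (hb ⟨t, ht⟩)
  exact mul_inv_eq_iff_eq_mul.1 h3

example : Cfsg.Agent.H52.Sr.StFix.{u} := fix

end Cfsg.Agent.H56.Sr

#print axioms Cfsg.Agent.H56.Sr.fix
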