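import Cfsg.Agent.H46.OSDefs
import Cfsg.Agent.H23.Graph
import Cfsg.Agent.H23.TblD4
import Cfsg.Agent.H23.Gen.D4.Tbl0

/-!
# S2159 (helper46's project OS), piece OS-D4T: a graph automorphism of `D₄(F)` for a transposition of the
diagram (helper56)

The transposition exchanges the outer nodes `0` and `2` (`sig = [2, 1, 0, 3]`).  The signed permutation
matrix `P e_s = ε_s e_{ρ s}`, `P h_i = h_{sig i}` is an automorphism of the Lie algebra (table `rhoD4t` of the
permutation `ρ` of the 24 roots, sign bits `gamD4t`; `P` is an involution); the checks are those of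
`Cfsg.Agent.H23.GraphOK`, as for the triality in `Cfsg/Agent/H23/GraphD4.lean`.
-/

set_option autoImplicit false
set_option maxRecDepth 100000

namespace Cfsg.Agent.H56.OS

open Cfsg Cfsg.Lie Cfsg.Agent.H23 Cfsg.Agent.H46.OS

universe u

def sigD4t : List ℕ := [2, 1, 0, 3]
def rhoD4t : ℕ := 566073422377303333367409720947596762245806945156242473216
def gamD4t : ℕ := 1769688

theorem graph_D4t_conj : ∀ s < chevD4.nroots, checkCols false [(pEnt chevD4.nroots chevD4.rank rhoD4t gamD4t sigD4t, pone), compileL chevD4 tblD4 (s, pT)]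
    [compileL chevD4 tblD4 (rlk rhoD4t s, [(etaBit gamD4t s, 1, 0)]), (pEnt chevD4.nroots chevD4.rank rhoD4t gamD4t sigD4t, pone)]
    (chevD4.nroots + chevD4.rank) = true := by decide +kernel

theorem graph_D4t_inv : checkCols false [(pEnt chevD4.nroots chevD4.rank rhoD4t gamD4t sigD4t, pone), (pEnt chevD4.nroots chevD4.rank rhoD4t gamD4t sigD4t, pone)] [] (chevD4.nroots + chevD4.rank) = true := by
  decide +kernel

theorem graph_D4t_rho_lt : ∀ s < chevD4.nroots, rlk rhoD4t s < chevD4.nroots := by decide +kernel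

theorem graph_D4t_rhoI : ∀ r < chevD4.nroots, rlk rhoD4t r < chevD4.nroots ∧ rlk rhoD4t (rlk rhoD4t r) = r := by
  decide +kernel

theorem graph_D4t_simple : ∀ i < chevD4.rank,
    (rlk rhoD4t (chevD4.simple i) = chevD4.simple (sigD4t.getD i 0) ∧ etaBit gamD4t (chevD4.simple i) = 1) ∧
    (rlk rhoD4t (chevD4.neg (chevD4.simple i)) = chevD4.neg (chevD4.simple (sigD4t.getD i 0)) ∧
      etaBit gamD4t (chevD4.neg (chevD4.simple i)) = 1) := by decide +kernel

theorem graph_D4t_simple_lt : ∀ i < chevD4.rank, chevD4.simple i < chevD4.nroots ∧ chevD4.neg (chevD4.simple i) < chevD4.nroots := by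
  decide +kernel

/-- The checks for the graph automorphism `[2, 1, 0, 3]` (a transposition) of type D4. -/
theorem graphOK_D4t : GraphOK chevD4 tblD4 sigD4t sigD4t rhoD4t gamD4t rhoD4t gamD4t where
  conj := graph_D4t_conj
  inv1 := graph_D4t_inv
  inv2 := graph_D4t_inv
  rho_lt := graph_D4t_rho_lt
  rhoI := graph_D4t_rhoI
  simple := graph_D4t_simple
  simple_lt := graph_D4t_simple_lt

/-- The transposition of the nodes `0` and `2`. -/
def piD4t : Equiv.Perm (Fin chevD4.rank) := Equiv.swap ⟨0, by decide⟩ ⟨2, by decide⟩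

theorem piD4t_val : ∀ i : Fin chevD4.rank, ((piD4t i : Fin chevD4.rank) : ℕ) = sigD4t.getD i.val 0 := by
  decide

theorem piD4t_ne_one : piD4t ≠ 1 := by
  intro h
  have h0 : ((piD4t ⟨0, by decide⟩ : Fin chevD4.rank) : ℕ) = 0 := by rw [h]; rfl
  revert h0
  decide

theorem piD4t_sq : piD4t * piD4t = 1 := Equiv.swap_mul_self _ _

theorem piD4t_sym : chevD4.IsDiagramSymmetry piD4t := by
  unfold ChevalleyDatum.IsDiagramSymmetry
  decide

/-- **OS-D4T**: `D₄(F)` has a graph automorphism for a transposition of the diagram. -/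
theorem d4T : StD4T.{u} := by
  intro F _
  have hT : TblOK chevD4 tblD4 := all_of_allFrom _ 24 tbl_D4_file0
  obtain ⟨α, hα⟩ := graph_aut hT graphOK_D4t F
  refine ⟨piD4t, α, ⟨piD4t_ne_one, piD4t_sq⟩, piD4t_sym, fun g i t => ?_⟩
  have h := hα g i.val t i.isLt
  rw [← piD4t_val i] at h
  exact h

example : Cfsg.Agent.H46.OS.StD4T.{u} := d4T

end Cfsg.Agent.H56.OS

#print axioms Cfsg.Agent.H56.OS.d4T
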