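import Cfsg.Agent.H23.Graph
import Cfsg.Agent.H23.StbDefs

/-!
# S2123 (helper78's project): graph automorphisms with their action on all root elements

`graph_aut_all` is `Cfsg.Agent.H23.graph_aut` exporting the signed permutation matrix and its
action on every root element; `graph_aut_pres` adds that the automorphism preserves `U` and `V`
when the permutation of the roots preserves positivity.
-/

set_option autoImplicit false

namespace Cfsg.Agent.H56.StbG

open Cfsg.Lie Cfsg.Agent.H23 Cfsg.Agent.H23.Stb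

universe u

variable {D : ChevalleyDatum} {F : Type u} [Field F] {z : ℕ → ℕ → ℤ}

/-- The signed permutation matrix of a graph automorphism: it normalizes the Chevalley group and
acts on all root elements through the tables. -/
theorem graph_matrix {tbl sig sigI : List ℕ} {rho gam rhoI gamI : ℕ} (hT : TblOK D tbl)
    (hG : GraphOK D tbl sig sigI rho gam rhoI gamI) (hS : Sem D F z) :
    ∃ P : GL D.Idx F,
      (∀ g ∈ D.group F, P * g * P⁻¹ ∈ D.group F) ∧ (∀ g ∈ D.group F, P⁻¹ * g * P ∈ D.group F) ∧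
      (∀ s < D.nroots, ∀ t : F,
        P * xU hS s t * P⁻¹ = xU hS (rlk rho s) (((etaBit gam s : ℤ) : F) * t)) ∧
      (∀ r < D.nroots, ∀ t : F,
        P⁻¹ * xU hS r t * P = xU hS (rlk rhoI r) (((etaBit gam (rlk rhoI r) : ℤ) : F) * t)) := by
  set cP := pEnt D.nroots D.rank rho gam sig with hcP
  set cQ := pEnt D.nroots D.rank rhoI gamI sigI with hcQ
  have okP : ∀ t u : F, LetterOK D t u (cP, pone) (colMat D F cP) :=
    fun t u => colMat_ok cP (fun c hc => pEnt_ge _ _ _ _ _ c hc) t u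
  have okQ : ∀ t u : F, LetterOK D t u (cQ, pone) (colMat D F cQ) :=
    fun t u => colMat_ok cQ (fun c hc => pEnt_ge _ _ _ _ _ c hc) t u
  have hPQ : colMat D F cP * colMat D F cQ = 1 := by
    have := checkCols_matrix D false (1 : F) 1 (by simp) [(cP, pone), (cQ, pone)] []
      [colMat D F cP, colMat D F cQ] []
      (List.Forall₂.cons (okP 1 1) (List.Forall₂.cons (okQ 1 1) List.Forall₂.nil)) List.Forall₂.nil hG.inv1
    simpa using this
  have hQP : colMat D F cQ * colMat D F cP = 1 := by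
    have := checkCols_matrix D false (1 : F) 1 (by simp) [(cQ, pone), (cP, pone)] []
      [colMat D F cQ, colMat D F cP] []
      (List.Forall₂.cons (okQ 1 1) (List.Forall₂.cons (okP 1 1) List.Forall₂.nil)) List.Forall₂.nil hG.inv2
    simpa using this
  have hconj : ∀ s < D.nroots, ∀ t : F,
      colMat D F cP * D.x F s t = D.x F (rlk rho s) (((etaBit gam s : ℤ) : F) * t) * colMat D F cP := by
    intro s hs t
    have h1 := compileL_ok D tbl hT t (1 : F) (s, pT)
    have h2 := compileL_ok D tbl hT t (1 : F) (rlk rho s, [(etaBit gam s, 1, 0)])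
    have := checkCols_matrix D false t (1 : F) (by simp) _ _
      [colMat D F cP, D.x F s (evalP t 1 pT)]
      [D.x F (rlk rho s) (evalP t 1 [(etaBit gam s, 1, 0)]), colMat D F cP]
      (List.Forall₂.cons (okP t 1) (List.Forall₂.cons h1 List.Forall₂.nil))
      (List.Forall₂.cons h2 (List.Forall₂.cons (okP t 1) List.Forall₂.nil)) (hG.conj s hs)
    simpa [evalP_pT, evalP_mon] using this
  let Pu : GL D.Idx F := ⟨colMat D F cP, colMat D F cQ, hPQ, hQP⟩
  have hPu : ((Pu : GL D.Idx F) : Matrix D.Idx D.Idx F) = colMat D F cP := rfl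
  have hPu' : ((Pu⁻¹ : GL D.Idx F) : Matrix D.Idx D.Idx F) = colMat D F cQ := rfl
  have hval : ∀ (g : GL D.Idx F) (s : ℕ) (t : F), s < D.nroots → (g : Matrix D.Idx D.Idx F) = D.x F s t →
      ((Pu * g * Pu⁻¹ : GL D.Idx F) : Matrix D.Idx D.Idx F) = D.x F (rlk rho s) (((etaBit gam s : ℤ) : F) * t) := by
    intro g s t hs hg
    rw [Units.val_mul, Units.val_mul, hPu, hPu', hg, hconj s hs t, mul_assoc, hPQ, mul_one]
  have hval' : ∀ (g : GL D.Idx F) (r : ℕ) (t : F), r < D.nroots → (g : Matrix D.Idx D.Idx F) = D.x F r t →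
      ((Pu⁻¹ * g * Pu : GL D.Idx F) : Matrix D.Idx D.Idx F) =
        D.x F (rlk rhoI r) (((etaBit gam (rlk rhoI r) : ℤ) : F) * t) := by
    intro g r t hr hg
    obtain ⟨hs, hrs⟩ := hG.rhoI r hr
    have h := hconj (rlk rhoI r) hs (((etaBit gam (rlk rhoI r) : ℤ) : F) * t)
    rw [hrs, ← mul_assoc, etaBit_mul_self, one_mul] at h
    rw [Units.val_mul, Units.val_mul, hPu, hPu', hg, mul_assoc, ← h, ← mul_assoc, hQP, one_mul]
  have hmem : ∀ (g : GL D.Idx F) (s : ℕ) (t : F), s < D.nroots → (g : Matrix D.Idx D.Idx F) = D.x F s t →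
      g ∈ D.group F := by
    intro g s t hs hg
    apply Subgroup.subset_closure
    refine ⟨⟨s, hs⟩, t, ?_⟩
    rw [hg, ChevalleyDatum.x, dif_pos hs]
  have h1 : ∀ g ∈ D.group F, Pu * g * Pu⁻¹ ∈ D.group F := by
    apply conj_mem_of_closure
    rintro x ⟨r, t, hx⟩
    have hx' : (x : Matrix D.Idx D.Idx F) = D.x F r.val t := by rw [hx, ChevalleyDatum.x, dif_pos r.isLt]
    exact hmem _ _ _ (hG.rho_lt r.val r.isLt) (hval x r.val t r.isLt hx')
  have h2 : ∀ g ∈ D.group F, Pu⁻¹ * g * Pu ∈ D.group F := by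
    have := conj_mem_of_closure {g : GL D.Idx F | ∃ (r : Fin D.nroots) (t : F),
      (g : Matrix D.Idx D.Idx F) = D.xMat F r t} (D.group F) Pu⁻¹ ?_
    · intro g hg
      have h3 := this g hg
      rw [inv_inv] at h3
      exact h3
    · rintro x ⟨r, t, hx⟩
      have hx' : (x : Matrix D.Idx D.Idx F) = D.x F r.val t := by rw [hx, ChevalleyDatum.x, dif_pos r.isLt]
      rw [inv_inv]
      exact hmem _ _ _ (hG.rhoI r.val r.isLt).1 (hval' x r.val t r.isLt hx')
  refine ⟨Pu, h1, h2, ?_, ?_⟩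
  · intro s hs t
    apply Units.ext
    rw [hval (xU hS s t) s t hs rfl]
    rfl
  · intro r hr t
    apply Units.ext
    rw [hval' (xU hS r t) r t hr rfl]
    rfl

/-- A graph automorphism given by tables, with its action on all root elements; it preserves
`U` and `V` when the permutation of the roots preserves positivity. -/
theorem graph_aut_pres {tbl sig sigI : List ℕ} {rho gam rhoI gamI : ℕ} (hT : TblOK D tbl)
    (hG : GraphOK D tbl sig sigI rho gam rhoI gamI) (hS : Sem D F z)
    (hpos : ∀ s, D.IsPosRoot s → D.IsPosRoot (rlk rho s) ∧ D.IsPosRoot (rlk rhoI s))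
    (hneg : ∀ s, D.IsNegRoot s → D.IsNegRoot (rlk rho s) ∧ D.IsNegRoot (rlk rhoI s)) :
    ∃ γ : ↥(D.group F) ≃* ↥(D.group F),
      (∀ i < D.rank, ∀ t : F,
        γ (xG hS (D.simple i) t) = xG hS (D.simple (sig.getD i 0)) t ∧
        γ (xG hS (D.neg (D.simple i)) t) = xG hS (D.neg (D.simple (sig.getD i 0))) t) ∧
      Pres γ (D.posUnipotent F) (D.posUnipotent F) ∧
      Pres γ (D.negUnipotent F) (D.negUnipotent F) ∧
      (∀ s < D.nroots, ∀ t : F,
        γ (xG hS s t) = xG hS (rlk rho s) (((etaBit gam s : ℤ) : F) * t)) := by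
  obtain ⟨P, h1, h2, hP, hP'⟩ := graph_matrix (F := F) hT hG hS
  have hγ : ∀ s < D.nroots, ∀ t : F,
      conjRestrict (D.group F) P h1 h2 (xG hS s t) =
        xG hS (rlk rho s) (((etaBit gam s : ℤ) : F) * t) := by
    intro s hs t
    apply Subtype.ext
    exact hP s hs t
  -- `P` and `P⁻¹` map the root groups of positive (negative) roots into themselves
  have key : ∀ (Q : ℕ → Prop), (∀ s, Q s → s < D.nroots) →
      (∀ s, Q s → Q (rlk rho s) ∧ Q (rlk rhoI s)) →
      ∀ g : GL D.Idx F, (P * g * P⁻¹ ∈ rootGen D F Q ↔ g ∈ rootGen D F Q) := by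
    intro Q hQlt hQ
    have ha : rootGen D F Q ≤ (rootGen D F Q).comap (MulAut.conj P).toMonoidHom := by
      apply rootGen_le hS
      intro r hr t
      rw [Subgroup.mem_comap]
      show P * xU hS r t * P⁻¹ ∈ rootGen D F Q
      rw [hP r (hQlt r hr) t]
      exact xU_mem_rootGen hS Q _ (hQ r hr).1 _
    have hb : rootGen D F Q ≤ (rootGen D F Q).comap (MulAut.conj P⁻¹).toMonoidHom := by
      apply rootGen_le hS
      intro r hr t
      rw [Subgroup.mem_comap]
      show P⁻¹ * xU hS r t * P⁻¹⁻¹ ∈ rootGen D F Q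
      rw [inv_inv, hP' r (hQlt r hr) t]
      exact xU_mem_rootGen hS Q _ (hQ r hr).2 _
    intro g
    constructor
    · intro hg
      have h3 := hb hg
      rw [Subgroup.mem_comap] at h3
      have h4 : P⁻¹ * (P * g * P⁻¹) * P⁻¹⁻¹ ∈ rootGen D F Q := h3
      have e : P⁻¹ * (P * g * P⁻¹) * P⁻¹⁻¹ = g := by group
      rwa [e] at h4
    · intro hg
      exact ha hg
  refine ⟨conjRestrict (D.group F) P h1 h2, ?_, ?_, ?_, hγ⟩
  · intro i hi t
    obtain ⟨⟨e1, e2⟩, ⟨e3, e4⟩⟩ := hG.simple i hi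
    obtain ⟨l1, l2⟩ := hG.simple_lt i hi
    constructor
    · rw [hγ _ l1 t, e1, e2, Int.cast_one, one_mul]
    · rw [hγ _ l2 t, e3, e4, Int.cast_one, one_mul]
  · intro g
    rw [posUnipotent_eq]
    exact key D.IsPosRoot (fun s hs => hs.1) hpos (g : GL D.Idx F)
  · intro g
    rw [negUnipotent_eq]
    exact key D.IsNegRoot (fun s hs => hs.1) hneg (g : GL D.Idx F)

end Cfsg.Agent.H56.StbG
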