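import Cfsg.Agent.H56.StbCoordE8Defs

/-!
# The coordinate functions of type `E₈`: admissibility checks for the nodes 4, 5 (helper56)
-/

set_option autoImplicit false
set_option maxRecDepth 100000

namespace Cfsg.Agent.H56.StbG

open Cfsg.Lie Cfsg.Agent.H23

theorem coordAdm_E8_4_0 : allFrom (checkAdm chevE8 tblE8 (mTabE8.getD 4 0)) 0 74 = true := by
  decide +kernel
theorem coordAdm_E8_4_74 : allFrom (checkAdm chevE8 tblE8 (mTabE8.getD 4 0)) 74 74 = true := by
  decide +kernel
theorem coordAdm_E8_4_148 : allFrom (checkAdm chevE8 tblE8 (mTabE8.getD 4 0)) 148 74 = true := by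
  decide +kernel
theorem coordAdm_E8_4_222 : allFrom (checkAdm chevE8 tblE8 (mTabE8.getD 4 0)) 222 18 = true := by
  decide +kernel
theorem coordAdm_E8_4 : allFrom (checkAdm chevE8 tblE8 (mTabE8.getD 4 0)) 0 240 = true :=
  (allFrom_append _ 0 74 166 coordAdm_E8_4_0 (allFrom_append _ 74 74 92 coordAdm_E8_4_74 (allFrom_append _ 148 74 18 coordAdm_E8_4_148 coordAdm_E8_4_222)))

theorem coordAdm_E8_5_0 : allFrom (checkAdm chevE8 tblE8 (mTabE8.getD 5 0)) 0 74 = true := by
  decide +kernel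
theorem coordAdm_E8_5_74 : allFrom (checkAdm chevE8 tblE8 (mTabE8.getD 5 0)) 74 74 = true := by
  decide +kernel
theorem coordAdm_E8_5_148 : allFrom (checkAdm chevE8 tblE8 (mTabE8.getD 5 0)) 148 74 = true := by
  decide +kernel
theorem coordAdm_E8_5_222 : allFrom (checkAdm chevE8 tblE8 (mTabE8.getD 5 0)) 222 18 = true := by
  decide +kernel
theorem coordAdm_E8_5 : allFrom (checkAdm chevE8 tblE8 (mTabE8.getD 5 0)) 0 240 = true :=
  (allFrom_append _ 0 74 166 coordAdm_E8_5_0 (allFrom_append _ 74 74 92 coordAdm_E8_5_74 (allFrom_append _ 148 74 18 coordAdm_E8_5_148 coordAdm_E8_5_222)))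

end Cfsg.Agent.H56.StbG
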