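import Cfsg.Agent.H23.StbHatDefs
import Cfsg.Agent.H23.Gen.E8.Tbl0
import Cfsg.Agent.H23.Gen.E8.Tbl1
import Cfsg.Agent.H56.StbCoordE8a
import Cfsg.Agent.H56.StbCoordE8b
import Cfsg.Agent.H56.StbCoordE8c
import Cfsg.Agent.H56.StbCoordE8d

/-!
# S2156 / S2159 (projects SD of helper23 and OS of helper46): the coordinate functions of type `E₈` (helper56)

`mCE8 i c` is the coefficient of the `i`-th fundamental root in the root of index `c` (zero on the
Cartan indices); `e8_coord : Coord chevE8 mCE8`.
-/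

set_option autoImplicit false
set_option maxRecDepth 100000

namespace Cfsg.Agent.H56.StbG

open Cfsg.Lie Cfsg.Agent.H23 Cfsg.Agent.H23.Stb

theorem e8_coord_simple : ∀ i < chevE8.rank, ∀ j < chevE8.rank,
    mCE8 i (chevE8.simple j) = if i = j then 1 else 0 := by decide +kernel

theorem e8_coord_neg : ∀ i < chevE8.rank, ∀ j < chevE8.rank,
    mCE8 i (chevE8.neg (chevE8.simple j)) = if i = j then -1 else 0 := by decide +kernel

theorem e8_coord_cartan : ∀ i < chevE8.rank, ∀ k < chevE8.rank, mCE8 i (chevE8.nroots + k) = 0 := by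
  decide +kernel

/-- The coordinate functions of type `E₈`. -/
theorem e8_coord : Coord chevE8 mCE8 where
  adm := by
    intro i hi
    have hT : TblOK chevE8 tblE8 := all_of_allFrom _ 240 (allFrom_append _ 0 153 87 tbl_E8_file0 tbl_E8_file1)
    have hi' : i < 8 := hi
    interval_cases i
    · exact checkAdm_sound chevE8 tblE8 hT _ (all_of_allFrom _ 240 coordAdm_E8_0)
    · exact checkAdm_sound chevE8 tblE8 hT _ (all_of_allFrom _ 240 coordAdm_E8_1)
    · exact checkAdm_sound chevE8 tblE8 hT _ (all_of_allFrom _ 240 coordAdm_E8_2)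
    · exact checkAdm_sound chevE8 tblE8 hT _ (all_of_allFrom _ 240 coordAdm_E8_3)
    · exact checkAdm_sound chevE8 tblE8 hT _ (all_of_allFrom _ 240 coordAdm_E8_4)
    · exact checkAdm_sound chevE8 tblE8 hT _ (all_of_allFrom _ 240 coordAdm_E8_5)
    · exact checkAdm_sound chevE8 tblE8 hT _ (all_of_allFrom _ 240 coordAdm_E8_6)
    · exact checkAdm_sound chevE8 tblE8 hT _ (all_of_allFrom _ 240 coordAdm_E8_7)
  simple := e8_coord_simple
  neg := e8_coord_neg
  cartan := e8_coord_cartan

end Cfsg.Agent.H56.StbG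

#print axioms Cfsg.Agent.H56.StbG.e8_coord
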