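import Cfsg.Prelude.Def_LieTypeChar

/-!
# S2363 team project: the statements of the pieces

`Good p X`: with `v` the exponent of `p` in `#X`, `#X < p ^ (3 v)` and `#X ^ 3 < p ^ (8 v)`.
Each piece says that the model group of one Lie family in characteristic `p` is `Good p`
(for `PSL₂` only the first inequality, together with `#F = p ^ v`).
-/

set_option autoImplicit false

namespace Cfsg.Agent.H56.Ord

open Cfsg

/-- The two order bounds of S2363 for a group `X` and a prime `p`. -/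
def Good (p : ℕ) (X : Type*) [Group X] : Prop :=
  Nat.card X < p ^ (3 * (Nat.card X).factorization p) ∧
    Nat.card X ^ 3 < p ^ (8 * (Nat.card X).factorization p)

/-- Arithmetic core: if `c * n = p ^ a * M` with `p ∤ c`, `p ∤ M`, `c ≠ 0`, then the exponent of `p`
in `n` is `a`. -/
theorem factorization_of_eq {p a c n M : ℕ} (hp : p.Prime) (h : c * n = p ^ a * M)
    (hc : ¬ p ∣ c) (hM : ¬ p ∣ M) : n.factorization p = a := by
  have hc0 : c ≠ 0 := fun h0 => hc (h0 ▸ dvd_zero p)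
  have hM0 : M ≠ 0 := fun h0 => hM (h0 ▸ dvd_zero p)
  have hn0 : n ≠ 0 := by
    rintro rfl
    have : p ^ a * M = 0 := by rw [← h, mul_zero]
    rcases Nat.mul_eq_zero.1 this with h1 | h1
    · exact (pow_ne_zero a hp.ne_zero) h1
    · exact hM0 h1
  have h1 : (c * n).factorization p = (p ^ a * M).factorization p := by rw [h]
  rw [Nat.factorization_mul hc0 hn0, Nat.factorization_mul (pow_ne_zero a hp.ne_zero) hM0] at h1
  simp only [Finsupp.coe_add, Pi.add_apply] at h1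
  rw [Nat.factorization_eq_zero_of_not_dvd hc, Nat.factorization_eq_zero_of_not_dvd hM,
    hp.factorization_pow] at h1
  simpa using h1

/-- Arithmetic core: the two bounds from `c * n = p ^ a * M` with `p ∤ c`, `p ∤ M`,
`M < p ^ (2 a)` and `M ^ 3 < p ^ (5 a)`. -/
theorem good_of_eq {X : Type*} [Group X] {p a c M : ℕ} (hp : p.Prime)
    (h : c * Nat.card X = p ^ a * M) (hc : ¬ p ∣ c) (hM : ¬ p ∣ M)
    (h2 : M < p ^ (2 * a)) (h5 : M ^ 3 < p ^ (5 * a)) : Good p X := by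
  have hv := factorization_of_eq hp h hc hM
  have hc0 : 0 < c := Nat.pos_of_ne_zero fun h0 => hc (h0 ▸ dvd_zero p)
  have hle : Nat.card X ≤ p ^ a * M := by
    rw [← h]; exact Nat.le_mul_of_pos_left _ hc0
  have hpa : 0 < p ^ a := pow_pos hp.pos a
  unfold Good
  rw [hv]
  constructor
  · calc Nat.card X ≤ p ^ a * M := hle
      _ < p ^ a * p ^ (2 * a) := Nat.mul_lt_mul_of_pos_left h2 hpa
      _ = p ^ (3 * a) := by rw [← pow_add]; congr 1; ring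
  · calc Nat.card X ^ 3 ≤ (p ^ a * M) ^ 3 := Nat.pow_le_pow_left hle 3
      _ = p ^ (3 * a) * M ^ 3 := by rw [mul_pow, ← pow_mul]; congr 2; ring
      _ < p ^ (3 * a) * p ^ (5 * a) := Nat.mul_lt_mul_of_pos_left h5 (pow_pos hp.pos _)
      _ = p ^ (8 * a) := by rw [← pow_add]; congr 1; ring

/-- A finite field of characteristic `p` has `p ^ f` elements with `f ≠ 0`. -/
theorem card_eq_pow (p : ℕ) (F : Type*) [Field F] [Fintype F] [CharP F p] :
    ∃ f : ℕ, f ≠ 0 ∧ Fintype.card F = p ^ f := by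
  obtain ⟨n, -, hn⟩ := FiniteField.card F p
  exact ⟨n, n.ne_zero, hn⟩

/-- `q` is coprime to `q ^ d - 1` for `q ≠ 0`, `d ≠ 0`. -/
theorem coprime_pow_sub_one {q : ℕ} (hq : q ≠ 0) {d : ℕ} (hd : d ≠ 0) :
    Nat.Coprime q (q ^ d - 1) := by
  have h1 : 1 ≤ q ^ d := Nat.one_le_pow _ _ (Nat.pos_of_ne_zero hq)
  have h2 : Nat.Coprime (q ^ d) (q ^ d - 1) := by
    have h3 : Nat.Coprime (q ^ d - 1 + 1) (q ^ d - 1) := by simp
    rwa [Nat.sub_add_cancel h1] at h3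
  exact Nat.Coprime.coprime_dvd_left (dvd_pow_self q hd) h2

/-- `q` is coprime to `q ^ d + 1` for `d ≠ 0`. -/
theorem coprime_pow_add_one (q : ℕ) {d : ℕ} (hd : d ≠ 0) : Nat.Coprime q (q ^ d + 1) := by
  have h2 : Nat.Coprime (q ^ d) (q ^ d + 1) := by simp
  exact Nat.Coprime.coprime_dvd_left (dvd_pow_self q hd) h2

/-- The form of `good_of_eq` in terms of `q = p ^ f`: from `c * #X = q ^ N * M` with `c`, `M`
coprime to `q`, `M < q ^ (2 N)` and `M ^ 3 < q ^ (5 N)`. -/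
theorem good_of_eq_q {X : Type*} [Group X] {p f q N c M : ℕ} (hp : p.Prime) (hq : q = p ^ f)
    (hf : f ≠ 0) (h : c * Nat.card X = q ^ N * M) (hc : Nat.Coprime q c) (hM : Nat.Coprime q M)
    (h2 : M < q ^ (2 * N)) (h5 : M ^ 3 < q ^ (5 * N)) : Good p X := by
  have hpq : p ∣ q := hq ▸ dvd_pow_self p hf
  have hnd : ∀ {x : ℕ}, Nat.Coprime q x → ¬ p ∣ x := fun hx hpx =>
    hp.one_lt.ne' (Nat.eq_one_of_dvd_coprimes hx hpq hpx)
  refine good_of_eq (a := f * N) hp ?_ (hnd hc) (hnd hM) ?_ ?_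
  · rw [pow_mul, ← hq]; exact h
  · calc M < q ^ (2 * N) := h2
      _ = p ^ (2 * (f * N)) := by rw [hq, ← pow_mul]; congr 1; ring
  · calc M ^ 3 < q ^ (5 * N) := h5
      _ = p ^ (5 * (f * N)) := by rw [hq, ← pow_mul]; congr 1; ring

/-- PSL_n(F), n ≥ 3. -/
def PSLStmt : Prop :=
  ∀ (p : ℕ), p.Prime → ∀ (F : Type) [Field F] [Fintype F] [CharP F p] (n : ℕ), 3 ≤ n →
    Good p (Matrix.ProjectiveSpecialLinearGroup (Fin n) F)

/-- PSL_2(F), |F| ≥ 4: the first bound, and `#F = p ^ v`. -/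
def PSL2Stmt : Prop :=
  ∀ (p : ℕ), p.Prime → ∀ (F : Type) [Field F] [Fintype F] [CharP F p], 4 ≤ Fintype.card F →
    Nat.card (Matrix.ProjectiveSpecialLinearGroup (Fin 2) F) <
        p ^ (3 * (Nat.card (Matrix.ProjectiveSpecialLinearGroup (Fin 2) F)).factorization p) ∧
      Fintype.card F = p ^ (Nat.card (Matrix.ProjectiveSpecialLinearGroup (Fin 2) F)).factorization p

/-- PSp_{2m}(F), m ≥ 2. -/
def PSpStmt : Prop :=
  ∀ (p : ℕ), p.Prime → ∀ (F : Type) [Field F] [Fintype F] [CharP F p] (m : ℕ), 2 ≤ m →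
    Good p (PSp m F)

/-- PSU_n(q), n ≥ 3. -/
def PSUStmt : Prop :=
  ∀ (p : ℕ), p.Prime → ∀ (F : Type) [Field F] [Fintype F] [CharP F p] (n q : ℕ),
    Fintype.card F = q ^ 2 → 3 ≤ n → Good p (PSU n F q)

/-- PΩ_{2m+1}(F), |F| odd, m ≥ 3. -/
def POddStmt : Prop :=
  ∀ (p : ℕ), p.Prime → ∀ (F : Type) [Field F] [Fintype F] [CharP F p] (m : ℕ), 3 ≤ m →
    Odd (Fintype.card F) → Good p (POmega F (quadFormOdd m F))

/-- PΩ⁺_{2m}(F), m ≥ 4. -/
def PPlusStmt : Prop :=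
  ∀ (p : ℕ), p.Prime → ∀ (F : Type) [Field F] [Fintype F] [CharP F p] (m : ℕ), 4 ≤ m →
    Good p (POmega F (quadFormPlus m F))

/-- PΩ⁻_{2m}(F), m ≥ 4. -/
def PMinusStmt : Prop :=
  ∀ (p : ℕ), p.Prime → ∀ (F : Type) [Field F] [Fintype F] [CharP F p] (m : ℕ) (a b : F), 4 ≤ m →
    (∀ z₁ z₂ : F, z₁ ^ 2 + a * z₁ * z₂ + b * z₂ ^ 2 = 0 → z₁ = 0 ∧ z₂ = 0) →
    Good p (POmega F (quadFormMinus (m - 1) F a b))

/-- G₂(F), |F| ≥ 3. -/
def G2Stmt : Prop :=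
  ∀ (p : ℕ), p.Prime → ∀ (F : Type) [Field F] [Fintype F] [CharP F p], 3 ≤ Fintype.card F →
    Good p (Lie.chevG2.group F)

/-- F₄(F). -/
def F4Stmt : Prop :=
  ∀ (p : ℕ), p.Prime → ∀ (F : Type) [Field F] [Fintype F] [CharP F p], Good p (Lie.chevF4.group F)

/-- E₆(F). -/
def E6Stmt : Prop :=
  ∀ (p : ℕ), p.Prime → ∀ (F : Type) [Field F] [Fintype F] [CharP F p], Good p (Lie.chevE6.group F)

/-- E₇(F). -/
def E7Stmt : Prop :=
  ∀ (p : ℕ), p.Prime → ∀ (F : Type) [Field F] [Fintype F] [CharP F p], Good p (Lie.chevE7.group F)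

/-- E₈(F). -/
def E8Stmt : Prop :=
  ∀ (p : ℕ), p.Prime → ∀ (F : Type) [Field F] [Fintype F] [CharP F p], Good p (Lie.chevE8.group F)

/-- ²E₆(q). -/
def TwE6Stmt : Prop :=
  ∀ (p : ℕ), p.Prime → ∀ (K : Type) [Field K] [Fintype K] [CharP K p] (q : ℕ), IsPrimePow q →
    Fintype.card K = q ^ 2 → Good p (Lie.twistedE6 K q)

/-- ³D₄(q). -/
def TwD4Stmt : Prop :=
  ∀ (p : ℕ), p.Prime → ∀ (K : Type) [Field K] [Fintype K] [CharP K p] (q : ℕ), IsPrimePow q →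
    Fintype.card K = q ^ 3 → Good p (Lie.twistedD4 K q)

/-- Sz(q), q = 2^(2m+1) ≥ 8. -/
def SzStmt : Prop :=
  ∀ (F : Type) [Field F] [Fintype F] (m : ℕ), 1 ≤ m → Fintype.card F = 2 ^ (2 * m + 1) →
    Good 2 (Lie.Sz F (2 ^ (m + 1)))

/-- ²F₄(q), q = 2^(2m+1) ≥ 8. -/
def TwF4Stmt : Prop :=
  ∀ (K : Type) [Field K] [Fintype K] (m : ℕ), 1 ≤ m → Fintype.card K = 2 ^ (2 * m + 1) →
    Good 2 (Lie.twistedF4 K (2 ^ m))

/-- ²G₂(q), q = 3^(2m+1) ≥ 27. -/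
def ReeStmt : Prop :=
  ∀ (K : Type) [Field K] [Fintype K] (m : ℕ), 1 ≤ m → Fintype.card K = 3 ^ (2 * m + 1) →
    Good 3 (Lie.twistedG2 K (3 ^ m))

end Cfsg.Agent.H56.Ord
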