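import Mathlib

set_option autoImplicit false

/-!
Abstract lemmas on central extensions of perfect groups (pieces S2398-EXT for helper46).
-/

namespace Cfsg.Agent.H56.Univ

open scoped commutatorElement

/-- Commutators only depend on the factors modulo the centre. -/
theorem comm_eq_of_central {E : Type*} [Group E] (a b z w : E)
    (hz : z ∈ Subgroup.center E) (hw : w ∈ Subgroup.center E) :
    (a * z) * (b * w) * (a * z)⁻¹ * (b * w)⁻¹ = a * b * a⁻¹ * b⁻¹ := by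
  have hzb : z * b = b * z := (Subgroup.mem_center_iff.1 hz b).symm
  have hwz : w * z⁻¹ = z⁻¹ * w := Subgroup.mem_center_iff.1 hw z⁻¹ |>.symm
  have hwa : w * a⁻¹ = a⁻¹ * w := Subgroup.mem_center_iff.1 hw a⁻¹ |>.symm
  calc (a * z) * (b * w) * (a * z)⁻¹ * (b * w)⁻¹
      = a * (z * b) * (w * z⁻¹) * a⁻¹ * w⁻¹ * b⁻¹ := by group
    _ = a * (b * z) * (z⁻¹ * w) * a⁻¹ * w⁻¹ * b⁻¹ := by rw [hzb, hwz]
    _ = a * b * (w * a⁻¹) * w⁻¹ * b⁻¹ := by group
    _ = a * b * (a⁻¹ * w) * w⁻¹ * b⁻¹ := by rw [hwa]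
    _ = a * b * a⁻¹ * b⁻¹ := by group

theorem ker_comp_central {Δ G E : Type*} [Group Δ] [Group G] [Group E] (π : Δ →* G)
    (hπ : π.ker ≤ Subgroup.center Δ) (ψ : E →* Δ) (hψs : Function.Surjective ψ)
    (hψ : ψ.ker ≤ Subgroup.center E) (hperf : commutator Δ = ⊤) :
    (π.comp ψ).ker ≤ Subgroup.center E := by
  intro e he
  have hψe : ψ e ∈ Subgroup.center Δ := hπ (by
    rw [MonoidHom.mem_ker] at he ⊢
    exact he)
  -- `x⁻¹ * e⁻¹ * x * e` is central for every `x`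
  have hcen : ∀ x : E, x⁻¹ * e⁻¹ * x * e ∈ Subgroup.center E := by
    intro x
    apply hψ
    rw [MonoidHom.mem_ker]
    have h1 : ψ x * ψ e = ψ e * ψ x := Subgroup.mem_center_iff.1 hψe (ψ x)
    simp only [map_mul, map_inv]
    calc (ψ x)⁻¹ * (ψ e)⁻¹ * ψ x * ψ e = (ψ x)⁻¹ * (ψ e)⁻¹ * (ψ x * ψ e) := by group
      _ = (ψ x)⁻¹ * (ψ e)⁻¹ * (ψ e * ψ x) := by rw [h1]
      _ = 1 := by group
  -- `e` commutes with all commutators
  have hcomm : commutator E ≤ Subgroup.centralizer ({e} : Set E) := by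
    rw [commutator_def, Subgroup.commutator_le]
    intro x _ y _
    rw [Subgroup.mem_centralizer_singleton_iff, commutatorElement_def]
    have key : e⁻¹ * (x * y * x⁻¹ * y⁻¹) * e = x * y * x⁻¹ * y⁻¹ := by
      have e1 : e⁻¹ * (x * y * x⁻¹ * y⁻¹) * e
          = (x * (x⁻¹ * e⁻¹ * x * e)) * (y * (y⁻¹ * e⁻¹ * y * e))
            * (x * (x⁻¹ * e⁻¹ * x * e))⁻¹ * (y * (y⁻¹ * e⁻¹ * y * e))⁻¹ := by group
      rw [e1]
      exact comm_eq_of_central x y _ _ (hcen x) (hcen y)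
    calc x * y * x⁻¹ * y⁻¹ * e = e * (e⁻¹ * (x * y * x⁻¹ * y⁻¹) * e) := by group
      _ = e * (x * y * x⁻¹ * y⁻¹) := by rw [key]
  have hker : ψ.ker ≤ Subgroup.centralizer ({e} : Set E) := by
    intro x hx
    rw [Subgroup.mem_centralizer_singleton_iff]
    exact Subgroup.mem_center_iff.1 (hψ hx) e |>.symm
  have hmap : (commutator E).map ψ = ⊤ := by
    rw [commutator_def, Subgroup.map_commutator, Subgroup.map_top_of_surjective ψ hψs,
      ← commutator_def, hperf]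
  rw [Subgroup.mem_center_iff]
  intro x
  have hx : ψ x ∈ (commutator E).map ψ := hmap ▸ Subgroup.mem_top _
  obtain ⟨c, hc, hcx⟩ := hx
  have h1 : c⁻¹ * x ∈ ψ.ker := by
    rw [MonoidHom.mem_ker, map_mul, map_inv, hcx]; group
  have h2 : x ∈ Subgroup.centralizer ({e} : Set E) := by
    have := Subgroup.mul_mem _ (hcomm hc) (hker h1)
    simpa using this
  exact Subgroup.mem_centralizer_singleton_iff.1 h2

theorem lift_unique {Δ G₁ E : Type*} [Group Δ] [Group G₁] [Group E] (hperf : commutator Δ = ⊤)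
    (π₁ : E →* G₁) (hπ₁ : π₁.ker ≤ Subgroup.center E) (τ τ' : Δ →* E) (h : π₁.comp τ = π₁.comp τ') :
    τ = τ' := by
  have hcen : ∀ x : Δ, (τ x)⁻¹ * τ' x ∈ Subgroup.center E := by
    intro x
    apply hπ₁
    rw [MonoidHom.mem_ker, map_mul, map_inv]
    have := congrArg (fun f : Δ →* G₁ => f x) h
    simp only [MonoidHom.comp_apply] at this
    rw [← this]; group
  have hle : commutator Δ ≤ MonoidHom.eqLocus τ τ' := by
    rw [commutator_def, Subgroup.commutator_le]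
    intro x _ y _
    show τ ⁅x, y⁆ = τ' ⁅x, y⁆
    rw [commutatorElement_def]
    simp only [map_mul, map_inv]
    have e1 : τ' x * τ' y * (τ' x)⁻¹ * (τ' y)⁻¹
        = (τ x * ((τ x)⁻¹ * τ' x)) * (τ y * ((τ y)⁻¹ * τ' y))
          * (τ x * ((τ x)⁻¹ * τ' x))⁻¹ * (τ y * ((τ y)⁻¹ * τ' y))⁻¹ := by group
    rw [e1]
    exact (comm_eq_of_central (τ x) (τ y) _ _ (hcen x) (hcen y)).symm
  rw [hperf] at hle
  exact MonoidHom.eq_of_eqOn_top (fun x _ => hle (Subgroup.mem_top x))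

universe u v w

theorem lift_of_split {Δ : Type u} {E : Type v} {G₁ : Type w} [Group Δ] [Group E] [Group G₁]
    (hsplit : ∀ (E' : Type (max u v)) [Group E'] (ψ : E' →* Δ), Function.Surjective ψ →
      ψ.ker ≤ Subgroup.center E' → ∃ θ : Δ →* E', ψ.comp θ = MonoidHom.id Δ)
    (π₁ : E →* G₁) (hπs : Function.Surjective π₁) (hπ₁ : π₁.ker ≤ Subgroup.center E) (σ : Δ →* G₁) :
    ∃ τ : Δ →* E, π₁.comp τ = σ := by
  let P : Subgroup (E × Δ) :=
    MonoidHom.eqLocus (π₁.comp (MonoidHom.fst E Δ)) (σ.comp (MonoidHom.snd E Δ))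
  have hP : ∀ p : ↥P, π₁ (p : E × Δ).1 = σ (p : E × Δ).2 := fun p => p.2
  let ψ : ↥P →* Δ := (MonoidHom.snd E Δ).comp P.subtype
  have hψs : Function.Surjective ψ := by
    intro d
    obtain ⟨e, he⟩ := hπs (σ d)
    exact ⟨⟨(e, d), he⟩, rfl⟩
  have hψk : ψ.ker ≤ Subgroup.center ↥P := by
    intro p hp
    have hp2 : (p : E × Δ).2 = 1 := hp
    have hp1 : (p : E × Δ).1 ∈ Subgroup.center E := by
      apply hπ₁
      rw [MonoidHom.mem_ker, hP p, hp2, map_one]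
    rw [Subgroup.mem_center_iff]
    intro q
    apply Subtype.ext
    apply Prod.ext
    · exact Subgroup.mem_center_iff.1 hp1 (q : E × Δ).1
    · show (q : E × Δ).2 * (p : E × Δ).2 = (p : E × Δ).2 * (q : E × Δ).2
      rw [hp2, mul_one, one_mul]
  obtain ⟨θ, hθ⟩ := hsplit ↥P ψ hψs hψk
  refine ⟨(MonoidHom.fst E Δ).comp (P.subtype.comp θ), ?_⟩
  ext x
  have h1 : ψ (θ x) = x := by
    have := congrArg (fun f : Δ →* Δ => f x) hθ
    simpa using this
  show π₁ ((θ x : E × Δ)).1 = σ x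
  rw [hP (θ x)]
  exact congrArg σ h1

end Cfsg.Agent.H56.Univ
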