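import Cfsg.Agent.H23.StbHatDefs
import Cfsg.Agent.H23.Gen.B2.Tbl0

/-!
# S2156 (helper23's project SD): the coordinate functions of type `B₂` (helper56)

`mCB2 i c` is the coefficient of the `i`-th fundamental root in the root of index `c` (zero on the
Cartan indices); `b2_coord : Coord chevB2 mCB2`.
-/

set_option autoImplicit false
set_option maxRecDepth 100000

namespace Cfsg.Agent.H56.StbG

open Cfsg.Lie Cfsg.Agent.H23 Cfsg.Agent.H23.Stb

/-- The packed tables (4 bits per root, offset 8) of the coefficients of the fundamental roots. -/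
def mTabB2 : List ℕ :=
  [2845345654,
   2575923319]

/-- The coefficient of the `i`-th fundamental root in the weight of the index `c`. -/
def mCB2 (i c : ℕ) : ℤ := zS (mTabB2.getD i 0) chevB2.nroots c

theorem coordAdm_B2_0_0 : allFrom (checkAdm chevB2 tblB2 (mTabB2.getD 0 0)) 0 8 = true := by
  decide +kernel
theorem coordAdm_B2_0 : allFrom (checkAdm chevB2 tblB2 (mTabB2.getD 0 0)) 0 8 = true :=
  coordAdm_B2_0_0
theorem coordAdm_B2_1_0 : allFrom (checkAdm chevB2 tblB2 (mTabB2.getD 1 0)) 0 8 = true := by
  decide +kernel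
theorem coordAdm_B2_1 : allFrom (checkAdm chevB2 tblB2 (mTabB2.getD 1 0)) 0 8 = true :=
  coordAdm_B2_1_0

theorem b2_coord_simple : ∀ i < chevB2.rank, ∀ j < chevB2.rank,
    mCB2 i (chevB2.simple j) = if i = j then 1 else 0 := by decide +kernel

theorem b2_coord_neg : ∀ i < chevB2.rank, ∀ j < chevB2.rank,
    mCB2 i (chevB2.neg (chevB2.simple j)) = if i = j then -1 else 0 := by decide +kernel

theorem b2_coord_cartan : ∀ i < chevB2.rank, ∀ k < chevB2.rank, mCB2 i (chevB2.nroots + k) = 0 := by
  decide +kernel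

/-- The coordinate functions of type `B₂`. -/
theorem b2_coord : Coord chevB2 mCB2 where
  adm := by
    intro i hi
    have hT : TblOK chevB2 tblB2 := all_of_allFrom _ 8 tbl_B2_file0
    have hi' : i < 2 := hi
    interval_cases i
    · exact checkAdm_sound chevB2 tblB2 hT _ (all_of_allFrom _ 8 coordAdm_B2_0)
    · exact checkAdm_sound chevB2 tblB2 hT _ (all_of_allFrom _ 8 coordAdm_B2_1)
  simple := b2_coord_simple
  neg := b2_coord_neg
  cartan := b2_coord_cartan

end Cfsg.Agent.H56.StbG

#print axioms Cfsg.Agent.H56.StbG.b2_coord
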