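import Cfsg.Agent.H23.StbHatDefs
import Cfsg.Agent.H23.Gen.D4.Tbl0

/-!
# S2156 (helper23's project SD): the coordinate functions of type `D₄` (helper56)

`mCD4 i c` is the coefficient of the `i`-th fundamental root in the root of index `c` (zero on the
Cartan indices); `d4_coord : Coord chevD4 mCD4`.
-/

set_option autoImplicit false
set_option maxRecDepth 100000

namespace Cfsg.Agent.H56.StbG

open Cfsg.Lie Cfsg.Agent.H23 Cfsg.Agent.H23.Stb

/-- The packed tables (4 bits per root, offset 8) of the coefficients of the fundamental roots. -/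
def mTabD4 : List ℕ :=
  [47536897193734170364815570807,
   52488652943328836873175398262,
   47535608301283498704566257527,
   47517474396691218076491348087]

/-- The coefficient of the `i`-th fundamental root in the weight of the index `c`. -/
def mCD4 (i c : ℕ) : ℤ := zS (mTabD4.getD i 0) chevD4.nroots c

theorem coordAdm_D4_0_0 : allFrom (checkAdm chevD4 tblD4 (mTabD4.getD 0 0)) 0 24 = true := by
  decide +kernel
theorem coordAdm_D4_0 : allFrom (checkAdm chevD4 tblD4 (mTabD4.getD 0 0)) 0 24 = true :=
  coordAdm_D4_0_0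
theorem coordAdm_D4_1_0 : allFrom (checkAdm chevD4 tblD4 (mTabD4.getD 1 0)) 0 24 = true := by
  decide +kernel
theorem coordAdm_D4_1 : allFrom (checkAdm chevD4 tblD4 (mTabD4.getD 1 0)) 0 24 = true :=
  coordAdm_D4_1_0
theorem coordAdm_D4_2_0 : allFrom (checkAdm chevD4 tblD4 (mTabD4.getD 2 0)) 0 24 = true := by
  decide +kernel
theorem coordAdm_D4_2 : allFrom (checkAdm chevD4 tblD4 (mTabD4.getD 2 0)) 0 24 = true :=
  coordAdm_D4_2_0
theorem coordAdm_D4_3_0 : allFrom (checkAdm chevD4 tblD4 (mTabD4.getD 3 0)) 0 24 = true := by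
  decide +kernel
theorem coordAdm_D4_3 : allFrom (checkAdm chevD4 tblD4 (mTabD4.getD 3 0)) 0 24 = true :=
  coordAdm_D4_3_0

theorem d4_coord_simple : ∀ i < chevD4.rank, ∀ j < chevD4.rank,
    mCD4 i (chevD4.simple j) = if i = j then 1 else 0 := by decide +kernel

theorem d4_coord_neg : ∀ i < chevD4.rank, ∀ j < chevD4.rank,
    mCD4 i (chevD4.neg (chevD4.simple j)) = if i = j then -1 else 0 := by decide +kernel

theorem d4_coord_cartan : ∀ i < chevD4.rank, ∀ k < chevD4.rank, mCD4 i (chevD4.nroots + k) = 0 := by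
  decide +kernel

/-- The coordinate functions of type `D₄`. -/
theorem d4_coord : Coord chevD4 mCD4 where
  adm := by
    intro i hi
    have hT : TblOK chevD4 tblD4 := all_of_allFrom _ 24 tbl_D4_file0
    have hi' : i < 4 := hi
    interval_cases i
    · exact checkAdm_sound chevD4 tblD4 hT _ (all_of_allFrom _ 24 coordAdm_D4_0)
    · exact checkAdm_sound chevD4 tblD4 hT _ (all_of_allFrom _ 24 coordAdm_D4_1)
    · exact checkAdm_sound chevD4 tblD4 hT _ (all_of_allFrom _ 24 coordAdm_D4_2)
    · exact checkAdm_sound chevD4 tblD4 hT _ (all_of_allFrom _ 24 coordAdm_D4_3)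
  simple := d4_coord_simple
  neg := d4_coord_neg
  cartan := d4_coord_cartan

end Cfsg.Agent.H56.StbG

#print axioms Cfsg.Agent.H56.StbG.d4_coord
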