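import Cfsg.Agent.H23.StbHatDefs
import Cfsg.Agent.H23.Gen.E6.Tbl0

/-!
# S2123 (helper78's project): the coordinate functions of type `E₆` (helper56)

`m6 i c` is the coefficient of the `i`-th fundamental root in the root of index `c` (zero on the
Cartan indices); `e6_coord : Coord chevE6 m6`.
-/

set_option autoImplicit false
set_option maxRecDepth 100000

namespace Cfsg.Agent.H56.StbG

open Cfsg.Lie Cfsg.Agent.H23 Cfsg.Agent.H23.Stb

/-- The packed tables (4 bits per root, offset 8) of the coefficients of the fundamental roots. -/
def mE6 : List ℕ :=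
  [298393941845871985291432019110282461407295889472607321752702576507725096925841537333111,
   329476644121481765792868972231792325706952284847845039961545406022960800321367512151926,
   331548792654231260340152454993818712252960324946492312585316473161824998573482087704166,
   364574195433309015903542402453985009331868763170955778988721932322751281739696060130901,
   331540759462220055407321796885384986505371559889278958411500922444160517594914115516006,
   298393467445201679819143379856104923753039085013125730722303697847485807812229669091191]

/-- The coefficient of the `i`-th fundamental root in the weight of the index `c`. -/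
def m6 (i c : ℕ) : ℤ := zS (mE6.getD i 0) chevE6.nroots c

theorem coordAdm_E6_0 : allFrom (checkAdm chevE6 tblE6 (mE6.getD 0 0)) 0 72 = true := by decide +kernel
theorem coordAdm_E6_1 : allFrom (checkAdm chevE6 tblE6 (mE6.getD 1 0)) 0 72 = true := by decide +kernel
theorem coordAdm_E6_2 : allFrom (checkAdm chevE6 tblE6 (mE6.getD 2 0)) 0 72 = true := by decide +kernel
theorem coordAdm_E6_3 : allFrom (checkAdm chevE6 tblE6 (mE6.getD 3 0)) 0 72 = true := by decide +kernel
theorem coordAdm_E6_4 : allFrom (checkAdm chevE6 tblE6 (mE6.getD 4 0)) 0 72 = true := by decide +kernel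
theorem coordAdm_E6_5 : allFrom (checkAdm chevE6 tblE6 (mE6.getD 5 0)) 0 72 = true := by decide +kernel

theorem e6_coord_simple : ∀ i < chevE6.rank, ∀ j < chevE6.rank,
    m6 i (chevE6.simple j) = if i = j then 1 else 0 := by decide +kernel

theorem e6_coord_neg : ∀ i < chevE6.rank, ∀ j < chevE6.rank,
    m6 i (chevE6.neg (chevE6.simple j)) = if i = j then -1 else 0 := by decide +kernel

theorem e6_coord_cartan : ∀ i < chevE6.rank, ∀ k < chevE6.rank, m6 i (chevE6.nroots + k) = 0 := by
  decide +kernel

/-- The coordinate functions of type `E₆`. -/
theorem e6_coord : Coord chevE6 m6 where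
  adm := by
    intro i hi
    have hT : TblOK chevE6 tblE6 := all_of_allFrom _ 72 tbl_E6_file0
    have hi' : i < 6 := hi
    interval_cases i
    · exact checkAdm_sound chevE6 tblE6 hT _ (all_of_allFrom _ 72 coordAdm_E6_0)
    · exact checkAdm_sound chevE6 tblE6 hT _ (all_of_allFrom _ 72 coordAdm_E6_1)
    · exact checkAdm_sound chevE6 tblE6 hT _ (all_of_allFrom _ 72 coordAdm_E6_2)
    · exact checkAdm_sound chevE6 tblE6 hT _ (all_of_allFrom _ 72 coordAdm_E6_3)
    · exact checkAdm_sound chevE6 tblE6 hT _ (all_of_allFrom _ 72 coordAdm_E6_4)
    · exact checkAdm_sound chevE6 tblE6 hT _ (all_of_allFrom _ 72 coordAdm_E6_5)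
  simple := e6_coord_simple
  neg := e6_coord_neg
  cartan := e6_coord_cartan

end Cfsg.Agent.H56.StbG
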