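import Cfsg.Agent.H23.StbHatDefs
import Cfsg.Agent.H23.Gen.F4.Tbl0

/-!
# S2156 (helper23's project SD): the coordinate functions of type `F₄` (helper56)

`mCF4 i c` is the coefficient of the `i`-th fundamental root in the root of index `c` (zero on the
Cartan indices); `f4_coord : Coord chevF4 mCF4`.
-/

set_option autoImplicit false
set_option maxRecDepth 100000

namespace Cfsg.Agent.H56.StbG

open Cfsg.Lie Cfsg.Agent.H23 Cfsg.Agent.H23.Stb

/-- The packed tables (4 bits per root, offset 8) of the coefficients of the fundamental roots. -/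
def mTabF4 : List ℕ :=
  [4184734488698852095707928644672179428143191965982150518374,
   5021572838003344455395550325003738931422917609350408590404,
   4601572879838773908986335733117488984278374607523121882709,
   4158579876309291510468873854897548003125973532386132457334]

/-- The coefficient of the `i`-th fundamental root in the weight of the index `c`. -/
def mCF4 (i c : ℕ) : ℤ := zS (mTabF4.getD i 0) chevF4.nroots c

theorem coordAdm_F4_0_0 : allFrom (checkAdm chevF4 tblF4 (mTabF4.getD 0 0)) 0 48 = true := by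
  decide +kernel
theorem coordAdm_F4_0 : allFrom (checkAdm chevF4 tblF4 (mTabF4.getD 0 0)) 0 48 = true :=
  coordAdm_F4_0_0
theorem coordAdm_F4_1_0 : allFrom (checkAdm chevF4 tblF4 (mTabF4.getD 1 0)) 0 48 = true := by
  decide +kernel
theorem coordAdm_F4_1 : allFrom (checkAdm chevF4 tblF4 (mTabF4.getD 1 0)) 0 48 = true :=
  coordAdm_F4_1_0
theorem coordAdm_F4_2_0 : allFrom (checkAdm chevF4 tblF4 (mTabF4.getD 2 0)) 0 48 = true := by
  decide +kernel
theorem coordAdm_F4_2 : allFrom (checkAdm chevF4 tblF4 (mTabF4.getD 2 0)) 0 48 = true :=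
  coordAdm_F4_2_0
theorem coordAdm_F4_3_0 : allFrom (checkAdm chevF4 tblF4 (mTabF4.getD 3 0)) 0 48 = true := by
  decide +kernel
theorem coordAdm_F4_3 : allFrom (checkAdm chevF4 tblF4 (mTabF4.getD 3 0)) 0 48 = true :=
  coordAdm_F4_3_0

theorem f4_coord_simple : ∀ i < chevF4.rank, ∀ j < chevF4.rank,
    mCF4 i (chevF4.simple j) = if i = j then 1 else 0 := by decide +kernel

theorem f4_coord_neg : ∀ i < chevF4.rank, ∀ j < chevF4.rank,
    mCF4 i (chevF4.neg (chevF4.simple j)) = if i = j then -1 else 0 := by decide +kernel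

theorem f4_coord_cartan : ∀ i < chevF4.rank, ∀ k < chevF4.rank, mCF4 i (chevF4.nroots + k) = 0 := by
  decide +kernel

/-- The coordinate functions of type `F₄`. -/
theorem f4_coord : Coord chevF4 mCF4 where
  adm := by
    intro i hi
    have hT : TblOK chevF4 tblF4 := all_of_allFrom _ 48 tbl_F4_file0
    have hi' : i < 4 := hi
    interval_cases i
    · exact checkAdm_sound chevF4 tblF4 hT _ (all_of_allFrom _ 48 coordAdm_F4_0)
    · exact checkAdm_sound chevF4 tblF4 hT _ (all_of_allFrom _ 48 coordAdm_F4_1)
    · exact checkAdm_sound chevF4 tblF4 hT _ (all_of_allFrom _ 48 coordAdm_F4_2)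
    · exact checkAdm_sound chevF4 tblF4 hT _ (all_of_allFrom _ 48 coordAdm_F4_3)
  simple := f4_coord_simple
  neg := f4_coord_neg
  cartan := f4_coord_cartan

end Cfsg.Agent.H56.StbG

#print axioms Cfsg.Agent.H56.StbG.f4_coord
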