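import Cfsg.Agent.H23.Checks
import Cfsg.Prelude.Def_ChevG2
import Cfsg.Prelude.Def_ChevB2
import Cfsg.Prelude.Def_ChevD4
import Cfsg.Prelude.Def_ChevF4
import Cfsg.Prelude.Def_ChevE6
import Cfsg.Prelude.Def_ChevE7
import Cfsg.Prelude.Def_ChevE8

/-!
# S2156 / S2159 (projects SD of helper23 and OS of helper46): the chain table fact for the seven types
(helper56)

For `D` one of `G₂, B₂, D₄, F₄, E₆, E₇, E₈`: if `r + s` is a root according to the chain table
(`D.chainRoot r s 1 = some k`) then `k` is a root index and `s ≠ ±r`.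
-/

set_option autoImplicit false
set_option maxRecDepth 1000000

namespace Cfsg.Agent.H56.StbG

open Cfsg.Lie Cfsg.Agent.H23

/-- The Boolean form of the chain table fact for the chains starting at the root `r`: every entry of the chain
table of `r` with a non-empty chain has a root index as first term and belongs to a root `s ≠ ±r`. -/
def chainChkRow (D : ChevalleyDatum) (r : ℕ) : Bool :=
  (D.chain.getD r #[]).toList.all fun e =>
    match e.2.toList with
    | [] => true
    | q :: _ => decide (q.1 < D.nroots) && (decide (e.1 ≠ r) && decide (e.1 ≠ D.neg r))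

/-- The chain table fact from its Boolean form. -/
theorem chain_of_chk (D : ChevalleyDatum) (h : allFrom (chainChkRow D) 0 D.nroots = true) :
    ∀ r < D.nroots, ∀ s < D.nroots, ∀ k, D.chainRoot r s 1 = some k →
      k < D.nroots ∧ s ≠ r ∧ s ≠ D.neg r := by
  intro r hr s _ k hk
  have h1 := all_of_allFrom _ _ h r hr
  unfold chainChkRow at h1
  rw [List.all_eq_true] at h1
  unfold ChevalleyDatum.chainRoot ChevalleyDatum.chainEntry at hk
  cases hf : (D.chain.getD r #[]).toList.find? (fun e => e.1 = s) with
  | none =>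
    rw [hf] at hk
    simp at hk
  | some e =>
    rw [hf] at hk
    dsimp only at hk
    have he1 : e.1 = s := by simpa using List.find?_some hf
    have h2 := h1 e (List.mem_of_find?_eq_some hf)
    cases hl : e.2.toList with
    | nil =>
      rw [hl] at hk
      simp at hk
    | cons q rest =>
      rw [hl] at hk h2
      simp only [Nat.sub_self, List.getElem?_cons_zero, Option.map_some, Option.some.injEq] at hk
      simp only [Bool.and_eq_true, decide_eq_true_eq] at h2
      rw [← hk, ← he1]
      exact h2

theorem g2_chainChk : allFrom (chainChkRow chevG2) 0 chevG2.nroots = true := by decide +kernel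

theorem b2_chainChk : allFrom (chainChkRow chevB2) 0 chevB2.nroots = true := by decide +kernel

theorem d4_chainChk : allFrom (chainChkRow chevD4) 0 chevD4.nroots = true := by decide +kernel

theorem f4_chainChk : allFrom (chainChkRow chevF4) 0 chevF4.nroots = true := by decide +kernel

theorem e6_chainChk : allFrom (chainChkRow chevE6) 0 chevE6.nroots = true := by decide +kernel

theorem e7_chainChk : allFrom (chainChkRow chevE7) 0 chevE7.nroots = true := by decide +kernel

theorem e8_chainChk : allFrom (chainChkRow chevE8) 0 chevE8.nroots = true := by decide +kernel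

/-- The chain table fact of type `G₂`. -/
theorem g2_chain : ∀ r < chevG2.nroots, ∀ s < chevG2.nroots, ∀ k, chevG2.chainRoot r s 1 = some k →
    k < chevG2.nroots ∧ s ≠ r ∧ s ≠ chevG2.neg r := chain_of_chk chevG2 g2_chainChk

/-- The chain table fact of type `B₂`. -/
theorem b2_chain : ∀ r < chevB2.nroots, ∀ s < chevB2.nroots, ∀ k, chevB2.chainRoot r s 1 = some k →
    k < chevB2.nroots ∧ s ≠ r ∧ s ≠ chevB2.neg r := chain_of_chk chevB2 b2_chainChk

/-- The chain table fact of type `D₄`. -/
theorem d4_chain : ∀ r < chevD4.nroots, ∀ s < chevD4.nroots, ∀ k, chevD4.chainRoot r s 1 = some k →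
    k < chevD4.nroots ∧ s ≠ r ∧ s ≠ chevD4.neg r := chain_of_chk chevD4 d4_chainChk

/-- The chain table fact of type `F₄`. -/
theorem f4_chain : ∀ r < chevF4.nroots, ∀ s < chevF4.nroots, ∀ k, chevF4.chainRoot r s 1 = some k →
    k < chevF4.nroots ∧ s ≠ r ∧ s ≠ chevF4.neg r := chain_of_chk chevF4 f4_chainChk

/-- The chain table fact of type `E₆`. -/
theorem e6_chain : ∀ r < chevE6.nroots, ∀ s < chevE6.nroots, ∀ k, chevE6.chainRoot r s 1 = some k →
    k < chevE6.nroots ∧ s ≠ r ∧ s ≠ chevE6.neg r := chain_of_chk chevE6 e6_chainChk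

/-- The chain table fact of type `E₇`. -/
theorem e7_chain : ∀ r < chevE7.nroots, ∀ s < chevE7.nroots, ∀ k, chevE7.chainRoot r s 1 = some k →
    k < chevE7.nroots ∧ s ≠ r ∧ s ≠ chevE7.neg r := chain_of_chk chevE7 e7_chainChk

/-- The chain table fact of type `E₈`. -/
theorem e8_chain : ∀ r < chevE8.nroots, ∀ s < chevE8.nroots, ∀ k, chevE8.chainRoot r s 1 = some k →
    k < chevE8.nroots ∧ s ≠ r ∧ s ≠ chevE8.neg r := chain_of_chk chevE8 e8_chainChk

/-- The chain table fact for the seven types. -/
theorem chain_seven (D : ChevalleyDatum)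
    (hD : D ∈ [chevG2, chevB2, chevD4, chevF4, chevE6, chevE7, chevE8]) :
    ∀ r < D.nroots, ∀ s < D.nroots, ∀ k, D.chainRoot r s 1 = some k →
      k < D.nroots ∧ s ≠ r ∧ s ≠ D.neg r := by
  simp only [List.mem_cons, List.not_mem_nil, or_false] at hD
  rcases hD with rfl | rfl | rfl | rfl | rfl | rfl | rfl
  · exact g2_chain
  · exact b2_chain
  · exact d4_chain
  · exact f4_chain
  · exact e6_chain
  · exact e7_chain
  · exact e8_chain

end Cfsg.Agent.H56.StbG

#print axioms Cfsg.Agent.H56.StbG.chain_seven
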