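import Cfsg.Agent.H78.OdDefs
import Cfsg.Agent.H13.StbHatEx
import Cfsg.Agent.H70.StbHatAut
import Cfsg.Agent.H27.StbDRootChar
import Cfsg.Agent.H56.StbCoordD4
import Cfsg.Agent.H56.StbChain

/-!
# S2608, half `m = 4` (helper78's project OD), piece OD-DA2 (helper56)

Every family of non-zero scalars on the four nodes of `D₄` comes from a diagonal automorphism: the element of
`Ĥ` realising the scalars (`StHatEx` with the coordinate table `d4_coord`) is the diagonal matrix of a root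
character (`StRootChar` with the chain fact `d4_chain`), and conjugation by it is an automorphism (`StHatAut`).
-/

set_option autoImplicit false

namespace Cfsg.Agent.H56.Od

open Cfsg Cfsg.Lie Cfsg.Agent.H23 Cfsg.Agent.H23.Stb Cfsg.Agent.H13.D4N Cfsg.Agent.H78.Od

universe u

/-- **OD-DA2**. -/
theorem dA2 : StDA2.{u} := by
  intro F _ c hc
  have hP : PackB chevD4 F zD4 ηD4 := (packS_D4 F).hP
  obtain ⟨k, hk, hkx⟩ := Cfsg.Agent.H13.Stb.hatEx chevD4 F zD4 ηD4 hP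
    Cfsg.Agent.H56.StbG.mCD4 Cfsg.Agent.H56.StbG.d4_coord c hc
  obtain ⟨δ, hδ⟩ := Cfsg.Agent.H70.Stb.hatAut chevD4 F zD4 hP.sem k hk
  obtain ⟨χ, hχ, hk1, hk2⟩ := Cfsg.Agent.H27.StbD.rootChar chevD4 F zD4 ηD4 hP
    Cfsg.Agent.H56.StbG.d4_chain k hk
  refine ⟨δ, ⟨χ, hχ, fun g => ?_⟩, hc, fun i hi t => ⟨?_, ?_⟩⟩
  · rw [hδ g, Units.val_mul, Units.val_mul, hk1, hk2]
  · apply Subtype.ext
    rw [hδ]
    exact (hkx i hi t).1
  · apply Subtype.ext
    rw [hδ]
    exact (hkx i hi t).2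

example : Cfsg.Agent.H78.Od.StDA2.{u} := dA2

end Cfsg.Agent.H56.Od

#print axioms Cfsg.Agent.H56.Od.dA2
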