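import Cfsg.Agent.H78.OdDefs
import Cfsg.Agent.H78.StbE6Asm
import Cfsg.Agent.H13.D4NGen

/-!
# S2608, half `m = 4` (helper78's project OD), piece OD-INN1 (helper56)

If `c₀ c₂ = s²` and `c₀ c₃ = s'²`, the automorphism acting through the scalars `c` on the fundamental root
elements is conjugation by the torus element
`h_{α₀}(c₀ v) h_{α₁}(c₀ v²) h_{α₂}(s v) h_{α₃}(s' v)` with `v = c₁ s s' / c₀`.
-/

set_option autoImplicit false

namespace Cfsg.Agent.H56.Od

open Cfsg Cfsg.Lie Cfsg.Agent.H23 Cfsg.Agent.H23.Stb Cfsg.Agent.H13.D4N Cfsg.Agent.H78.Od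
  Cfsg.Agent.H78.StbG

universe u

/-- Conjugation by a product of four torus elements. -/
theorem conj_hG4 {D : ChevalleyDatum} {F : Type u} [Field F] {z : ℕ → ℕ → ℤ} (hS : Sem D F z)
    (r0 r1 r2 r3 : ℕ) (h0 : r0 < D.nroots) (h1 : r1 < D.nroots)
    (h2 : r2 < D.nroots) (h3 : r3 < D.nroots) (t0 t1 t2 t3 : F) (ht0 : t0 ≠ 0) (ht1 : t1 ≠ 0)
    (ht2 : t2 ≠ 0) (ht3 : t3 ≠ 0) (s : ℕ) (hs : s < D.nroots) (u : F) :
    (hG hS r0 t0 * hG hS r1 t1 * hG hS r2 t2 * hG hS r3 t3) * xG hS s u *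
      (hG hS r0 t0 * hG hS r1 t1 * hG hS r2 t2 * hG hS r3 t3)⁻¹ =
    xG hS s (t0 ^ z r0 s * (t1 ^ z r1 s * (t2 ^ z r2 s * (t3 ^ z r3 s * u)))) := by
  apply Subtype.ext
  have e : ∀ a b c d x : GL D.Idx F, (a * b * c * d) * x * (a * b * c * d)⁻¹ =
      a * (b * (c * (d * x * d⁻¹) * c⁻¹) * b⁻¹) * a⁻¹ := by intros; group
  show (hU hS r0 t0 * hU hS r1 t1 * hU hS r2 t2 * hU hS r3 t3) * xU hS s u *
      (hU hS r0 t0 * hU hS r1 t1 * hU hS r2 t2 * hU hS r3 t3)⁻¹ = xU hS s _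
  rw [e, hU_conj hS r3 h3 t3 ht3 s hs, hU_conj hS r2 h2 t2 ht2 s hs, hU_conj hS r1 h1 t1 ht1 s hs,
    hU_conj hS r0 h0 t0 ht0 s hs]

theorem zD4_simple : ∀ i < 4, ∀ j < 4, zD4 (chevD4.simple j) (chevD4.simple i) =
    (if i = j then 2 else if i = 1 ∨ j = 1 then -1 else 0) := by decide +kernel

theorem zD4_neg_simple : ∀ i < 4, ∀ j < 4, zD4 (chevD4.simple j) (chevD4.neg (chevD4.simple i)) =
    (if i = j then -2 else if i = 1 ∨ j = 1 then 1 else 0) := by decide +kernel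

theorem rank_D4 : chevD4.rank = 4 := by decide +kernel

/-- **OD-INN1**. -/
theorem inn1 : StInn1.{u} := by
  intro F _ d c hd hsq2 hsq3
  obtain ⟨hc, hact⟩ := hd
  obtain ⟨s, hs⟩ := hsq2
  obtain ⟨s', hs'⟩ := hsq3
  have hS : Sem chevD4 F zD4 := (packS_D4 F).hP.sem
  have hT := (packS_D4 F).hP.tab
  have c0 : c 0 ≠ 0 := hc 0 (by rw [rank_D4]; norm_num)
  have c1 : c 1 ≠ 0 := hc 1 (by rw [rank_D4]; norm_num)
  have c2 : c 2 ≠ 0 := hc 2 (by rw [rank_D4]; norm_num)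
  have c3 : c 3 ≠ 0 := hc 3 (by rw [rank_D4]; norm_num)
  have s0 : s ≠ 0 := by
    rintro rfl
    rw [mul_zero] at hs
    exact mul_ne_zero c0 c2 hs
  have s0' : s' ≠ 0 := by
    rintro rfl
    rw [mul_zero] at hs'
    exact mul_ne_zero c0 c3 hs'
  obtain ⟨v, hv⟩ : ∃ v : F, v = c 1 * s * s' / c 0 := ⟨_, rfl⟩
  have v0 : v ≠ 0 := by
    rw [hv]
    exact div_ne_zero (mul_ne_zero (mul_ne_zero c1 s0) s0') c0
  have hc1 : c 1 = c 0 * v / (s * s') := by
    rw [hv]; field_simp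
  have hc2 : c 2 = s * s / c 0 := by
    field_simp; linear_combination hs
  have hc3 : c 3 = s' * s' / c 0 := by
    field_simp; linear_combination hs'
  have hl : ∀ i < chevD4.rank, chevD4.simple i < chevD4.nroots := fun i hi => hT.simple_lt i hi
  have hr4 : ∀ i < 4, i < chevD4.rank := fun i hi => by rw [rank_D4]; exact hi
  have t0 : c 0 * v ≠ 0 := mul_ne_zero c0 v0
  have t1 : c 0 * v ^ 2 ≠ 0 := mul_ne_zero c0 (pow_ne_zero 2 v0)
  have t2 : s * v ≠ 0 := mul_ne_zero s0 v0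
  have t3 : s' * v ≠ 0 := mul_ne_zero s0' v0
  refine ⟨hG hS (chevD4.simple 0) (c 0 * v) * hG hS (chevD4.simple 1) (c 0 * v ^ 2) *
    hG hS (chevD4.simple 2) (s * v) * hG hS (chevD4.simple 3) (s' * v), ?_⟩
  apply MulEquiv.toMonoidHom_injective
  apply hom_ext_fundG hS (packS_D4 F).hP.semN hT
  intro g i t hi hg
  have hi4 : i < 4 := by rw [← rank_D4]; exact hi
  rcases hg with hg | hg
  · rw [eq_xG hS g _ t hg]
    refine ((conj_hG4 hS _ _ _ _ (hl 0 (hr4 0 (by norm_num))) (hl 1 (hr4 1 (by norm_num)))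
      (hl 2 (hr4 2 (by norm_num))) (hl 3 (hr4 3 (by norm_num))) _ _ _ _ t0 t1 t2 t3
      (chevD4.simple i) (hl i hi) t).trans ?_).trans (hact i hi t).1.symm
    refine congrArg _ ?_
    rw [zD4_simple i hi4 0 (by norm_num), zD4_simple i hi4 1 (by norm_num),
      zD4_simple i hi4 2 (by norm_num), zD4_simple i hi4 3 (by norm_num)]
    interval_cases i
    · norm_num
      field_simp
    · norm_num
      rw [hc1]
      field_simp
    · norm_num
      rw [hc2]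
      field_simp
    · norm_num
      rw [hc3]
      field_simp
  · rw [eq_xG hS g _ t hg]
    refine ((conj_hG4 hS _ _ _ _ (hl 0 (hr4 0 (by norm_num))) (hl 1 (hr4 1 (by norm_num)))
      (hl 2 (hr4 2 (by norm_num))) (hl 3 (hr4 3 (by norm_num))) _ _ _ _ t0 t1 t2 t3
      (chevD4.neg (chevD4.simple i)) (hT.neg_lt _ (hl i hi)) t).trans ?_).trans (hact i hi t).2.symm
    refine congrArg _ ?_
    rw [zD4_neg_simple i hi4 0 (by norm_num), zD4_neg_simple i hi4 1 (by norm_num),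
      zD4_neg_simple i hi4 2 (by norm_num), zD4_neg_simple i hi4 3 (by norm_num)]
    interval_cases i
    · norm_num
      field_simp
    · norm_num
      rw [hc1]
      field_simp
    · norm_num
      rw [hc2]
      field_simp
    · norm_num
      rw [hc3]
      field_simp

example : Cfsg.Agent.H78.Od.StInn1.{u} := inn1

end Cfsg.Agent.H56.Od

#print axioms Cfsg.Agent.H56.Od.inn1
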