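import Cfsg.Agent.H78.OdAsm
import Cfsg.Agent.H78.OdNI
import Cfsg.Agent.H78.OdDA1
import Cfsg.Agent.H56.OdDA2
import Cfsg.Agent.H56.OdInn1
import Cfsg.Agent.H12.OdDG
import Cfsg.Agent.H49.D4DiagInn

/-!
# `Out(D₄(2^f)) ≅ S₃ × C_f` (helper56; backup of the `m = 4` half of S2607, helper96's project)

Over a field with `2^f` elements every automorphism of `D₄(F)` is inner ∘ diagonal ∘ graph ∘ field
(`sdType_D4`, helper78), the diagonal automorphisms are inner (`d4_diag_inner`, helper49), the graph automorphisms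
are the image of an injective homomorphism of `S₃` (helper13), the field automorphisms the image of an injective
homomorphism of the cyclic group `Aut F` of order `f` (helper61, helper49), the two commute (helper13), and
graph ∘ field is inner only if both are trivial (`nI`, helper78 / helper13).
-/

set_option autoImplicit false

namespace Cfsg.Agent.H56.D4T

open Cfsg Cfsg.Lie

universe u v w

/-- `A ⧸ I ≅ S × C_f` when `A = I · Φ(S) · Ψ(C)` with `Φ(S)` and `Ψ(C)` commuting and independent modulo `I`,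
`C` cyclic of order `f`. -/
theorem quot_equiv_prod_of_dec {A : Type u} [Group A] (I : Subgroup A) [I.Normal] {S : Type v} {C : Type w}
    [Group S] [Group C] (f : ℕ) (Φ : S →* A) (Ψ : C →* A) (hcyc : IsCyclic C) (hcard : Nat.card C = f)
    (hcomm : ∀ (σ : C) (ρ : S), Ψ σ * Φ ρ = Φ ρ * Ψ σ)
    (htriv : ∀ (ρ : S) (σ : C), Φ ρ * Ψ σ ∈ I → ρ = 1 ∧ σ = 1)
    (hdec : ∀ θ : A, ∃ i ∈ I, ∃ (ρ : S) (σ : C), θ = i * Φ ρ * Ψ σ) :
    Nonempty (A ⧸ I ≃* S × Multiplicative (ZMod f)) := by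
  subst hcard
  obtain ⟨π, hπ1, hπs⟩ : ∃ π : A →* A ⧸ I, (∀ x : A, π x = 1 ↔ x ∈ I) ∧ Function.Surjective π :=
    ⟨QuotientGroup.mk' I, fun x => QuotientGroup.eq_one_iff x, QuotientGroup.mk'_surjective I⟩
  have hcomT : ∀ (ρ : S) (σ : C), Commute ((π.comp Φ) ρ) ((π.comp Ψ) σ) := by
    intro ρ σ
    show π (Φ ρ) * π (Ψ σ) = π (Ψ σ) * π (Φ ρ)
    rw [← map_mul, ← map_mul, hcomm]
  have hψ : ∀ p : S × C, MonoidHom.noncommCoprod (π.comp Φ) (π.comp Ψ) hcomT p = π (Φ p.1) * π (Ψ p.2) :=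
    fun p => rfl
  have hinj : Function.Injective (MonoidHom.noncommCoprod (π.comp Φ) (π.comp Ψ) hcomT) := by
    rw [injective_iff_map_eq_one]
    rintro ⟨ρ, σ⟩ h
    rw [hψ, ← map_mul, hπ1] at h
    obtain ⟨h1, h2⟩ := htriv ρ σ h
    exact Prod.ext h1 h2
  have hsur : Function.Surjective (MonoidHom.noncommCoprod (π.comp Φ) (π.comp Ψ) hcomT) := by
    intro q
    obtain ⟨θ, rfl⟩ := hπs q
    obtain ⟨i, hi, ρ, σ, rfl⟩ := hdec θ
    refine ⟨(ρ, σ), ?_⟩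
    rw [hψ, map_mul, map_mul, (hπ1 i).2 hi, one_mul]
  exact ⟨(MulEquiv.ofBijective _ ⟨hinj, hsur⟩).symm.trans
    (MulEquiv.prodCongr (MulEquiv.refl S) (zmodCyclicMulEquiv hcyc).symm)⟩

/-- `Out(D₄(2^f)) ≅ S₃ × C_f`. -/
theorem out_d4_two (F : Type u) [Field F] [Fintype F] (f : ℕ) (hf : 1 ≤ f) (hF : Fintype.card F = 2 ^ f) :
    Nonempty (Cfsg.Out ↥(chevD4.group F) ≃* Equiv.Perm (Fin 3) × Multiplicative (ZMod f)) := by
  have : Fact (Nat.Prime 2) := ⟨Nat.prime_two⟩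
  have hch : CharP F 2 := Cfsg.Agent.H49.charP_of_card_pow hF
  obtain ⟨Φ, hΦinj, hΦ⟩ := Cfsg.Agent.H13.D4N.d4_graph_hom F
  obtain ⟨Ψ, hΨinj, hΨ⟩ := Cfsg.Agent.H61.D4F.d4_field_hom F
  obtain ⟨hcyc, hcard⟩ := Cfsg.Agent.H49.ringAut_card (F := F) 2 f hf hF
  have hD1 : chevD4.IsDiagonalAut (1 : MulAut ↥(chevD4.group F)) :=
    (Cfsg.Agent.H12.Od.dG Cfsg.Agent.H78.Od.dA1 Cfsg.Agent.H56.Od.dA2 Cfsg.Agent.H56.Od.inn1 F).1
  have hgraph : ∀ ρ, chevD4.IsGraphAut (Φ ρ) := fun ρ => (hΦ _).mpr ⟨ρ, rfl⟩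
  have hfield : ∀ σ, chevD4.IsFieldAut (Ψ σ) := fun σ => (hΨ _).mpr ⟨σ, rfl⟩
  refine quot_equiv_prod_of_dec (Cfsg.Inn ↥(chevD4.group F)) f Φ Ψ hcyc hcard ?_ ?_ ?_
  · intro σ ρ
    exact (Cfsg.Agent.H13.D4N.d4_graph_field_commute F (Φ ρ) (Ψ σ) (hgraph ρ) (hfield σ)).symm
  · intro ρ σ h
    have h' : (1 : MulAut ↥(chevD4.group F)) * Φ ρ * Ψ σ ∈ Cfsg.Inn ↥(chevD4.group F) := by
      rwa [one_mul]
    obtain ⟨e1, e2⟩ := Cfsg.Agent.H78.Od.nI F 1 (Φ ρ) (Ψ σ) hD1 (hgraph ρ) (hfield σ) h'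
    exact ⟨hΦinj (by rw [e1, map_one]), hΨinj (by rw [e2, map_one])⟩
  · intro θ
    obtain ⟨x, d, g, f', hd, hg, hf', hθ⟩ := Cfsg.Agent.H78.Sd.sdType_D4.{u} F θ
    obtain ⟨ρ, rfl⟩ := (hΦ g).mp hg
    obtain ⟨σ, rfl⟩ := (hΨ f').mp hf'
    refine ⟨MulAut.conj x * d, Subgroup.mul_mem _ ⟨x, rfl⟩ (Cfsg.Agent.H49.D4.d4_diag_inner F d hd),
      ρ, σ, ?_⟩
    apply MulEquiv.ext
    intro y
    rw [hθ y]
    rfl

end Cfsg.Agent.H56.D4T

#print axioms Cfsg.Agent.H56.D4T.out_d4_two
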