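import Mathlib
import Cfsg.Agent.H39.FcDefs
import Cfsg.Agent.H60.Cores

set_option autoImplicit false

/-!
S4291-O2 (piece of helper39's Frobenius complement project): in a finite solvable group without
nontrivial normal subgroups of odd order, `O₂` contains its centralizer.
-/

namespace Cfsg.Agent.H56.Fc

open Cfsg.Agent.H39.Fc

universe u

theorem stO2 : StO2.{u} := by
  intro G _ _ hsolv hodd
  have h2 : Fact (Nat.Prime 2) := ⟨Nat.prime_two⟩
  have hTn : (Cfsg.pCore 2 G).Normal := Subgroup.sSup_normal _ (fun _ hN => hN.1)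
  have hOn : (Cfsg.pPrimeCore 2 G).Normal := Subgroup.sSup_normal _ (fun _ hN => hN.1)
  have hO : Cfsg.pPrimeCore 2 G = ⊥ := by
    apply hodd _ hOn
    have hc := Cfsg.Agent.H60.card_pPrimeCore_coprime (G := G) 2
    exact Nat.Coprime.odd_of_right hc
  refine ⟨Cfsg.pCore 2 G, hTn, Cfsg.Agent.H60.isPGroup_pCore 2,
    Cfsg.Agent.H60.centralizer_pCore_le hsolv hO, ?_⟩
  intro W hW hW2
  exact Cfsg.Agent.H60.le_pCore hW hW2

end Cfsg.Agent.H56.Fc
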