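import Mathlib
import Cfsg.Agent.H39.FcDefs

set_option autoImplicit false

/-!
S4291-SOLV0 (piece of helper39's Frobenius complement project): the solvable case without
normal subgroups of odd order, assembled from O2, CYCAUT, QUAT and REC.
-/

namespace Cfsg.Agent.H56.Fc

open Cfsg.Agent.H39.Fc

universe u

/-- an element of odd order of a `2`-group is trivial -/
theorem eq_one_of_odd_of_mem_two {G : Type*} [Group G] {T : Subgroup G} (hT : IsPGroup 2 T)
    {g : G} (hg : g ∈ T) (hodd : Odd (orderOf g)) : g = 1 := by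
  obtain ⟨k, hk⟩ := hT ⟨g, hg⟩
  have hk' : g ^ 2 ^ k = 1 := congrArg Subtype.val hk
  have hdvd : orderOf g ∣ 2 ^ k := orderOf_dvd_of_pow_eq_one hk'
  obtain ⟨j, -, hj⟩ := (Nat.dvd_prime_pow Nat.prime_two).1 hdvd
  rw [hj] at hodd
  have hj0 : j = 0 := by
    by_contra h0
    exact (Nat.not_even_iff_odd.2 hodd) ((Nat.even_pow).2 ⟨even_two, h0⟩)
  rw [hj0, pow_zero] at hj
  exact orderOf_eq_one_iff.1 hj

/-- a subgroup of a finite group without nontrivial elements of odd order is a `2`-group -/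
theorem isPGroup_two_of_odd_trivial {G : Type*} [Group G] [Finite G] (D : Subgroup G)
    (h : ∀ g ∈ D, Odd (orderOf g) → g = 1) : IsPGroup 2 D := by
  rintro ⟨g, hg⟩
  obtain ⟨k, m, hm, hn⟩ := Nat.exists_eq_two_pow_mul_odd (orderOf_pos g).ne'
  refine ⟨k, Subtype.ext ?_⟩
  show g ^ 2 ^ k = 1
  refine h _ (D.pow_mem hg _) (Odd.of_dvd_nat hm (orderOf_dvd_of_pow_eq_one ?_))
  rw [← pow_mul, ← hn, pow_orderOf_eq_one]

/-- the subgroup of the elements acting trivially on `T / N` -/
def commCent {G : Type*} [Group G] (N T : Subgroup G) (hT : T.Normal) : Subgroup G where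
  carrier := {g | ∀ t ∈ T, g * t * g⁻¹ * t⁻¹ ∈ N}
  one_mem' := by
    intro t _
    simp
  mul_mem' := by
    intro g h hg hh t ht
    have h1 := hg (h * t * h⁻¹) (hT.conj_mem t ht h)
    have h2 := hh t ht
    have h3 := N.mul_mem h1 h2
    convert h3 using 1
    group
  inv_mem' := by
    intro g hg t ht
    have h1 := hg (g⁻¹ * t * g) (by simpa using hT.conj_mem t ht g⁻¹)
    have h3 := N.inv_mem h1
    convert h3 using 1
    group

theorem commCent_normal {G : Type*} [Group G] (N T : Subgroup G) (hN : N.Normal)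
    (hT : T.Normal) : (commCent N T hT).Normal := by
  refine ⟨fun g hg x t ht => ?_⟩
  have h1 := hg (x⁻¹ * t * x) (by simpa using hT.conj_mem t ht x⁻¹)
  have h3 := hN.conj_mem _ h1 x
  convert h3 using 1
  group

/-- S4291-SOLV0 -/
theorem stSolv0 (h1 : StO2.{u}) (h2 : StCycAut.{u}) (h3 : StQuat.{u}) (h4 : StRec.{u}) :
    StSolv0.{u} := by
  intro G _ _ hsolv hodd h2grp ⟨P, hP⟩
  obtain ⟨T, hTn, hT2, hCT, hTmax⟩ := h1 G hsolv hodd
  rcases h2grp T hT2 with hcyc | ⟨n, hn, he⟩
  · exfalso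
    have hG2 : IsPGroup 2 (⊤ : Subgroup G) := by
      apply isPGroup_two_of_odd_trivial
      intro g _ hg
      have hcomm := h2 G T hT2 hcyc g hg (fun t ht => hTn.conj_mem t ht g)
      have hgC : g ∈ Subgroup.centralizer (T : Set G) :=
        Subgroup.mem_centralizer_iff.2 (fun t ht => (hcomm t ht).symm)
      exact eq_one_of_odd_of_mem_two hT2 (hCT hgC) hg
    have hTtop : T = ⊤ := top_le_iff.1 (hTmax ⊤ inferInstance hG2)
    have hcyc' : IsCyclic (⊤ : Subgroup G) := hTtop ▸ hcyc
    have hGc : IsCyclic G :=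
      isCyclic_of_surjective (Subgroup.topEquiv : (⊤ : Subgroup G) ≃* G)
        Subgroup.topEquiv.surjective
    exact hP inferInstance
  · obtain ⟨N, hNn, hNT, hNc, hcard, hsq, hcent⟩ := h3 G T hTn n hn he
    refine ⟨N, hNn, fun Q => inferInstance, ?_⟩
    apply h4 G N T hNn hTn hNT hcard hsq
    · intro g hg
      have hD2 : IsPGroup 2 (commCent N T hTn) := by
        apply isPGroup_two_of_odd_trivial
        intro d hd hdodd
        have hcomm := hcent d hdodd hd
        have hdC : d ∈ Subgroup.centralizer (T : Set G) :=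
          Subgroup.mem_centralizer_iff.2 (fun t ht => (hcomm t ht).symm)
        exact eq_one_of_odd_of_mem_two hT2 (hCT hdC) hdodd
      exact hTmax _ (commCent_normal N T hNn hTn) hD2 hg
    · intro W hWn hTW ⟨k, hk⟩
      obtain ⟨j, hj⟩ := (IsPGroup.iff_card).1 hT2
      have hW2 : IsPGroup 2 W := IsPGroup.of_card (n := k + j) (by rw [hk, hj, pow_add])
      exact le_antisymm (hTmax W hWn hW2) hTW

end Cfsg.Agent.H56.Fc
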