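import Mathlib
import Cfsg.Agent.H11.SmallSimple

set_option autoImplicit false

/-!
In a non-abelian finite simple group with Sylow `2`-subgroups of order `4` all involutions are
conjugate (KEY LEMMA of piece S4274-E of helper26's order `175560` project).
-/

namespace Cfsg.Agent.H56.InvConj

open Subgroup

variable {G : Type*} [Group G]

theorem sq_comm_of_conj {g x : G} (h : g * (g * x * g⁻¹) * g⁻¹ = x) : x * g ^ 2 = g ^ 2 * x := by
  have h1 : g ^ 2 * x = (g * (g * x * g⁻¹) * g⁻¹) * g ^ 2 := by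
    rw [pow_two]
    group
  rw [h1, h]

/-- if `N(S) ≰ C(S)` for an abelian Sylow `2`-subgroup `S`, some element of odd order of `N(S)`
does not centralize `S` -/
theorem exists_odd_normalizer [Finite G] (S : Sylow 2 G)
    (hcomm : ∀ a ∈ (S : Subgroup G), ∀ b ∈ (S : Subgroup G), a * b = b * a)
    (hNC : ¬ (normalizer ((S : Subgroup G) : Set G) ≤ centralizer ((S : Subgroup G) : Set G))) :
    ∃ g : G, g ∈ normalizer ((S : Subgroup G) : Set G) ∧
      g ∉ centralizer ((S : Subgroup G) : Set G) ∧ Odd (orderOf g) := by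
  obtain ⟨g0, hg0N, hg0C⟩ := SetLike.not_le_iff_exists.1 hNC
  obtain ⟨k, m, hm, hkm⟩ := Nat.exists_eq_two_pow_mul_odd (orderOf_pos g0).ne'
  have hSC : (S : Subgroup G) ≤ centralizer ((S : Subgroup G) : Set G) := by
    intro a ha
    rw [mem_centralizer_iff]
    intro b hb
    exact hcomm b hb a ha
  have hg2 : g0 ^ m ∈ (S : Subgroup G) := by
    have hpg : IsPGroup 2 (zpowers (g0 ^ m)) := by
      rintro ⟨x, hx⟩
      obtain ⟨i, rfl⟩ := mem_zpowers_iff.1 hx
      refine ⟨k, Subtype.ext ?_⟩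
      show ((g0 ^ m) ^ i) ^ 2 ^ k = 1
      rw [← zpow_natCast, ← zpow_mul, mul_comm, zpow_mul, zpow_natCast, ← pow_mul, mul_comm m,
        ← hkm, pow_orderOf_eq_one, one_zpow]
    have hle : zpowers (g0 ^ m) ≤ normalizer ((S : Subgroup G) : Set G) := by
      rw [zpowers_le]
      exact pow_mem hg0N m
    have h1 : zpowers (g0 ^ m) ⊓ normalizer ((S : Subgroup G) : Set G) =
        zpowers (g0 ^ m) ⊓ (S : Subgroup G) := hpg.inf_normalizer_sylow S
    have h2 : g0 ^ m ∈ zpowers (g0 ^ m) ⊓ normalizer ((S : Subgroup G) : Set G) :=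
      mem_inf.2 ⟨mem_zpowers _, hle (mem_zpowers _)⟩
    rw [h1] at h2
    exact (mem_inf.1 h2).2
  refine ⟨g0 ^ 2 ^ k, pow_mem hg0N _, ?_, ?_⟩
  · intro hg1
    apply hg0C
    have hcop : Nat.Coprime (2 ^ k) m := Nat.Coprime.pow_left k (Nat.coprime_two_left.2 hm)
    have hbez := Int.gcd_eq_gcd_ab ((2 ^ k : ℕ) : ℤ) (m : ℤ)
    rw [Int.gcd_natCast_natCast, hcop] at hbez
    have h1 : g0 = (g0 ^ 2 ^ k) ^ (Int.gcdA ((2 ^ k : ℕ) : ℤ) (m : ℤ)) *
        (g0 ^ m) ^ (Int.gcdB ((2 ^ k : ℕ) : ℤ) (m : ℤ)) := by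
      rw [← zpow_natCast g0 (2 ^ k), ← zpow_natCast g0 m, ← zpow_mul, ← zpow_mul, ← zpow_add,
        ← hbez]
      simp
    rw [h1]
    exact mul_mem (zpow_mem hg1 _) (zpow_mem (hSC hg2) _)
  · apply Odd.of_dvd_nat hm
    apply orderOf_dvd_of_pow_eq_one
    rw [← pow_mul, ← hkm, pow_orderOf_eq_one]

/-- two involutions of a Sylow `2`-subgroup `S` of order `4` with `N(S) ≰ C(S)` are conjugate -/
theorem conj_in_sylow [Finite G] (S : Sylow 2 G) (hS4 : Nat.card (S : Subgroup G) = 4)
    (hNC : ¬ (normalizer ((S : Subgroup G) : Set G) ≤ centralizer ((S : Subgroup G) : Set G)))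
    {u v : G} (hu : u ∈ (S : Subgroup G)) (hv : v ∈ (S : Subgroup G)) (hu2 : orderOf u = 2)
    (hv2 : orderOf v = 2) : ∃ g : G, g * u * g⁻¹ = v := by
  classical
  by_cases huv : u = v
  · exact ⟨1, by simp [huv]⟩
  have hcomm : ∀ a ∈ (S : Subgroup G), ∀ b ∈ (S : Subgroup G), a * b = b * a := by
    intro a ha b hb
    have h0 := (IsPGroup.isMulCommutative_of_card_eq_prime_sq (p := 2)
      (G := ↥(S : Subgroup G)) (by rw [hS4]; norm_num)).is_comm.comm ⟨a, ha⟩ ⟨b, hb⟩
    exact congrArg Subtype.val h0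
  obtain ⟨g, hgN, hgC, hodd⟩ := exists_odd_normalizer S hcomm hNC
  have huu : u * u = 1 := by rw [← pow_two, ← hu2, pow_orderOf_eq_one]
  have hvv : v * v = 1 := by rw [← pow_two, ← hv2, pow_orderOf_eq_one]
  have hu1 : u ≠ 1 := by
    intro h
    rw [h, orderOf_one] at hu2
    omega
  have hv1 : v ≠ 1 := by
    intro h
    rw [h, orderOf_one] at hv2
    omega
  obtain ⟨w, hw⟩ : ∃ w, w = u * v := ⟨_, rfl⟩
  have hwS : w ∈ (S : Subgroup G) := hw ▸ mul_mem hu hv
  have hw1 : w ≠ 1 := by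
    intro h
    apply huv
    rw [hw] at h
    have h1 : u = v⁻¹ := eq_inv_of_mul_eq_one_left h
    rw [h1]
    exact inv_eq_of_mul_eq_one_left hvv
  have hwu : w ≠ u := by
    intro h
    apply hv1
    rw [hw] at h
    exact mul_left_cancel (a := u) (by rw [mul_one]; exact h)
  have hwv : w ≠ v := by
    intro h
    apply hu1
    rw [hw] at h
    exact mul_right_cancel (b := v) (by rw [one_mul]; exact h)
  -- `S = {1, u, v, w}`
  have hmem : ∀ x ∈ (S : Subgroup G), x = 1 ∨ x = u ∨ x = v ∨ x = w := by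
    intro x hx
    by_contra hcon
    push Not at hcon
    obtain ⟨hx1, hxu, hxv, hxw⟩ := hcon
    have hcard : ({1, u, v, w, x} : Finset G).card = 5 := by
      rw [Finset.card_insert_of_notMem, Finset.card_insert_of_notMem,
        Finset.card_insert_of_notMem, Finset.card_insert_of_notMem, Finset.card_singleton]
      · simp only [Finset.mem_singleton]
        exact Ne.symm hxw
      · simp only [Finset.mem_insert, Finset.mem_singleton, not_or]
        exact ⟨Ne.symm hwv, Ne.symm hxv⟩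
      · simp only [Finset.mem_insert, Finset.mem_singleton, not_or]
        exact ⟨huv, Ne.symm hwu, Ne.symm hxu⟩
      · simp only [Finset.mem_insert, Finset.mem_singleton, not_or]
        exact ⟨Ne.symm hu1, Ne.symm hv1, Ne.symm hw1, Ne.symm hx1⟩
    have hsub : (({1, u, v, w, x} : Finset G) : Set G) ⊆ ((S : Subgroup G) : Set G) := by
      intro y hy
      simp only [Finset.coe_insert, Finset.coe_singleton, Set.mem_insert_iff,
        Set.mem_singleton_iff] at hy
      rcases hy with rfl | rfl | rfl | rfl | rfl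
      · exact one_mem _
      · exact hu
      · exact hv
      · exact hwS
      · exact hx
    have hncard : ((S : Subgroup G) : Set G).ncard = 4 := by
      rw [← Nat.card_coe_set_eq]
      exact hS4
    have h5 := Set.ncard_le_ncard hsub (Set.toFinite _)
    rw [Set.ncard_coe_finset, hcard, hncard] at h5
    omega
  have hconjS : ∀ x ∈ (S : Subgroup G), g * x * g⁻¹ ∈ (S : Subgroup G) :=
    fun x hx => (mem_normalizer_iff.1 hgN x).1 hx
  have hg2C : g ^ 2 ∉ centralizer ((S : Subgroup G) : Set G) := by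
    intro h
    apply hgC
    obtain ⟨j, hj⟩ := hodd
    have h1 : g = (g ^ 2) ^ (j + 1) := by
      rw [← pow_mul, show 2 * (j + 1) = orderOf g + 1 by omega, pow_succ, pow_orderOf_eq_one,
        one_mul]
    rw [h1]
    exact pow_mem h _
  have hcw : g * w * g⁻¹ = (g * u * g⁻¹) * (g * v * g⁻¹) := by
    rw [hw]
    group
  have hkey : g * (g * u * g⁻¹) * g⁻¹ = u → g * (g * v * g⁻¹) * g⁻¹ = v → False := by
    intro hcu hcv
    apply hg2C
    rw [mem_centralizer_iff]
    intro x hx
    have hcw2 : g * (g * w * g⁻¹) * g⁻¹ = w := by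
      rw [hw]
      calc g * (g * (u * v) * g⁻¹) * g⁻¹
          = (g * (g * u * g⁻¹) * g⁻¹) * (g * (g * v * g⁻¹) * g⁻¹) := by group
        _ = u * v := by rw [hcu, hcv]
    rcases hmem x hx with rfl | rfl | rfl | rfl
    · simp
    · exact sq_comm_of_conj hcu
    · exact sq_comm_of_conj hcv
    · exact sq_comm_of_conj hcw2
  have hcu1 : g * u * g⁻¹ ≠ 1 := by
    intro h
    apply hu1
    have h1 : u = g⁻¹ * (g * u * g⁻¹) * g := by group
    rw [h1, h]
    group
  have hcv1 : g * v * g⁻¹ ≠ 1 := by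
    intro h
    apply hv1
    have h1 : v = g⁻¹ * (g * v * g⁻¹) * g := by group
    rw [h1, h]
    group
  have hcuv : g * u * g⁻¹ ≠ g * v * g⁻¹ := by
    intro h
    apply huv
    have h1 : u = g⁻¹ * (g * u * g⁻¹) * g := by group
    rw [h1, h]
    group
  rcases hmem _ (hconjS u hu) with h | h | h | h
  · exact absurd h hcu1
  · exfalso
    rcases hmem _ (hconjS v hv) with h' | h' | h' | h'
    · exact hcv1 h'
    · exact hcuv (h.trans h'.symm)
    · exact hkey (by rw [h, h]) (by rw [h', h'])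
    · have hcw' : g * w * g⁻¹ = v := by
        rw [hcw, h, h', hw, ← mul_assoc, huu, one_mul]
      exact hkey (by rw [h, h]) (by rw [h', hcw'])
  · exact ⟨g, h⟩
  · rcases hmem _ (hconjS v hv) with h' | h' | h' | h'
    · exact absurd h' hcv1
    · have hcw' : g * w * g⁻¹ = v := by
        rw [hcw, h, h', hw, hcomm u hu v hv, mul_assoc, huu, mul_one]
      refine ⟨g ^ 2, ?_⟩
      have h1 : g ^ 2 * u * (g ^ 2)⁻¹ = g * (g * u * g⁻¹) * g⁻¹ := by
        rw [pow_two]
        group
      rw [h1, h, hcw']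
    · exfalso
      have hcw' : g * w * g⁻¹ = u := by
        rw [hcw, h, h', hw, mul_assoc, hvv, mul_one]
      exact hkey (by rw [h, hcw']) (by rw [h', h'])
    · exact absurd (h.trans h'.symm) hcuv

/-- **all involutions are conjugate** in a non-abelian finite simple group with Sylow
`2`-subgroups of order `4` -/
theorem invol_conj [Finite G] [IsSimpleGroup G] (hG : ¬ IsMulCommutative G)
    (h4 : ∀ S : Sylow 2 G, Nat.card (S : Subgroup G) = 4) {s t : G} (hs : orderOf s = 2)
    (ht : orderOf t = 2) : ∃ g : G, g * s * g⁻¹ = t := by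
  obtain ⟨S⟩ : Nonempty (Sylow 2 G) := inferInstance
  have hnc : ¬ IsCyclic G := Cfsg.Agent.H11.not_isCyclic_of_not_isMulCommutative hG
  have h2dvd : 2 ∣ Nat.card G := by
    have h0 := Subgroup.card_subgroup_dvd_card (S : Subgroup G)
    rw [h4 S] at h0
    exact Dvd.dvd.trans (by norm_num) h0
  have hNC := Cfsg.Agent.H11.not_normalizer_le_centralizer hnc 2 h2dvd S
  have hinto : ∀ x : G, orderOf x = 2 →
      ∃ a : G, a * x * a⁻¹ ∈ (S : Subgroup G) ∧ orderOf (a * x * a⁻¹) = 2 := by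
    intro x hx
    have hpg : IsPGroup 2 (zpowers x) :=
      IsPGroup.of_card (n := 1) (by rw [Nat.card_zpowers, hx, pow_one])
    obtain ⟨S', hS'⟩ := hpg.exists_le_sylow
    obtain ⟨a, ha⟩ := MulAction.exists_smul_eq G S' S
    refine ⟨a, ?_, ?_⟩
    · have hx' : x ∈ (S' : Subgroup G) := hS' (mem_zpowers x)
      rw [← ha, Sylow.coe_subgroup_smul, Subgroup.mem_pointwise_smul_iff_inv_smul_mem,
        MulAut.smul_def, MulAut.conj_inv_apply]
      have h1 : a⁻¹ * (a * x * a⁻¹) * a = x := by group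
      rw [h1]
      exact hx'
    · have h2 := orderOf_injective (MulAut.conj a).toMonoidHom (MulAut.conj a).injective x
      simpa [MulAut.conj_apply] using h2.trans hx
  obtain ⟨a, haS, hao⟩ := hinto s hs
  obtain ⟨b, hbS, hbo⟩ := hinto t ht
  obtain ⟨g, hg⟩ := conj_in_sylow S (h4 S) hNC haS hbS hao hbo
  refine ⟨b⁻¹ * g * a, ?_⟩
  have h1 : b⁻¹ * g * a * s * (b⁻¹ * g * a)⁻¹ = b⁻¹ * (g * (a * s * a⁻¹) * g⁻¹) * b := by group
  rw [h1, hg]
  group

end Cfsg.Agent.H56.InvConj
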