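import Cfsg.Agent.H52.JwDefs
import Cfsg.Agent.H64.JzFinal
import Cfsg.Agent.H59.SoConj

/-!
# S2953 (team project JW, lead helper52), piece W-NJ: for `T = S`, `N_G(J(S)) ≤ N_G(S)`

`StMain` (S2951) with `T = S` gives `Ω₁Z(S) = Ω₁Z(J(S))` in every clause; an element `n` of
`N_G(J(S))` normalizes it, so `S^n ≤ C_G(Ω₁Z(S)) ≤ N_G(S)` is a 2-subgroup of `N_G(S)`, hence
`S^n = S`.
-/

set_option autoImplicit false
open Cfsg

universe u

namespace Cfsg.Agent.H56.Jw

open Cfsg.Agent.H64.Jz Cfsg.Agent.H52.Jw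

/-- `Ω₁Z(X) ≤ X ⊓ C_G(X)`. -/
theorem omegaCenterOf_le_inf_nj {G : Type u} [Group G] (X : Subgroup G) :
    omegaCenterOf X ≤ X ⊓ Subgroup.centralizer (X : Set G) := by
  unfold omegaCenterOf omegaOne
  rw [Subgroup.closure_le]
  intro x hx
  exact hx.1

/-- `n ∈ N_G(H)` gives `H^n = H`. -/
theorem map_conj_of_mem_normalizer_nj {G : Type u} [Group G] {H : Subgroup G} {n : G}
    (hn : n ∈ Subgroup.normalizer (H : Set G)) : H.map (MulAut.conj n).toMonoidHom = H := by
  ext x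
  constructor
  · rintro ⟨y, hy, rfl⟩
    exact (Subgroup.mem_normalizer_iff.mp hn y).mp hy
  · intro hx
    refine ⟨n⁻¹ * x * n, ?_, ?_⟩
    · have h1 := (Subgroup.mem_normalizer_iff.mp hn (n⁻¹ * x * n)).mpr
      apply h1
      have e : n * (n⁻¹ * x * n) * n⁻¹ = x := by group
      rw [e]; exact hx
    · simp only [MulEquiv.toMonoidHom_eq_coe, MonoidHom.coe_coe, MulAut.conj_apply]
      group

/-- **W-NJ**. -/
theorem nj : StNJ.{u} := by
  intro G _ _ S M K L hB
  have hC : Concl S (S : Subgroup G) L := Cfsg.Agent.H64.Jz.stMain S M (S : Subgroup G) K L hB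
  have hZeq : omegaCenterOf (S : Subgroup G) =
      omegaCenterOf (thompsonSubgroupOf 2 (S : Subgroup G)) := by
    rcases hC with ⟨h, -⟩ | ⟨h, -⟩ | ⟨h, -⟩ <;> exact h
  obtain ⟨⟨-, -, hZ⟩, -⟩ := hB
  intro n hn
  have hJ : (thompsonSubgroupOf 2 (S : Subgroup G)).map (MulAut.conj n).toMonoidHom =
      thompsonSubgroupOf 2 (S : Subgroup G) := map_conj_of_mem_normalizer_nj hn
  have hZ0 : (omegaCenterOf (S : Subgroup G)).map (MulAut.conj n).toMonoidHom =
      omegaCenterOf (S : Subgroup G) := by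
    rw [hZeq, ← Cfsg.Agent.H59.So.omegaCenterOf_map_conj, hJ]
  -- `S^n ≤ C_G(Z) ≤ N_G(S)`
  have hSn : (S : Subgroup G).map (MulAut.conj n).toMonoidHom ≤
      Subgroup.normalizer ((S : Subgroup G) : Set G) := by
    rintro x ⟨s, hs, rfl⟩
    apply hZ S
    rw [Subgroup.mem_centralizer_iff]
    intro z hz
    have hz' : z ∈ (omegaCenterOf (S : Subgroup G)).map (MulAut.conj n).toMonoidHom := by
      rw [hZ0]; exact hz
    obtain ⟨z', hz'mem, rfl⟩ := hz'
    have hc : z' ∈ Subgroup.centralizer ((S : Subgroup G) : Set G) :=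
      (omegaCenterOf_le_inf_nj (S : Subgroup G) hz'mem).2
    rw [Subgroup.mem_centralizer_iff] at hc
    have hcs : s * z' = z' * s := hc s hs
    simp only [MulEquiv.toMonoidHom_eq_coe, MonoidHom.coe_coe, MulAut.conj_apply]
    calc n * z' * n⁻¹ * (n * s * n⁻¹) = n * (z' * s) * n⁻¹ := by group
      _ = n * (s * z') * n⁻¹ := by rw [hcs]
      _ = n * s * n⁻¹ * (n * z' * n⁻¹) := by group
  -- a 2-subgroup of `N_G(S)` lies in `S`
  have hp : IsPGroup 2 ↥((S : Subgroup G).map (MulAut.conj n).toMonoidHom) :=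
    S.isPGroup'.map _
  have hfix : S ∈ MulAction.fixedPoints ↥((S : Subgroup G).map (MulAut.conj n).toMonoidHom)
      (Sylow 2 G) := (Subgroup.sylow_mem_fixedPoints_iff _).mpr hSn
  have hle : (S : Subgroup G).map (MulAut.conj n).toMonoidHom ≤ (S : Subgroup G) :=
    hp.sylow_mem_fixedPoints_iff.mp hfix
  rw [Subgroup.mem_normalizer_iff]
  intro y
  constructor
  · intro hy
    exact hle ⟨y, hy, rfl⟩
  · intro hy
    -- the injective self-map `y ↦ n y n⁻¹` of the finite set `S` is onto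
    have hinj : Function.Injective (fun s : ↥(S : Subgroup G) =>
        (⟨n * (s : G) * n⁻¹, hle ⟨s, s.2, rfl⟩⟩ : ↥(S : Subgroup G))) := by
      intro a b hab
      have h1 : n * (a : G) * n⁻¹ = n * (b : G) * n⁻¹ := congrArg Subtype.val hab
      apply Subtype.ext
      have h2 : (a : G) = n⁻¹ * (n * (a : G) * n⁻¹) * n := by group
      rw [h2, h1]; group
    obtain ⟨s, hs⟩ := (Finite.surjective_of_injective hinj) ⟨n * y * n⁻¹, hy⟩
    have h1 : n * (s : G) * n⁻¹ = n * y * n⁻¹ := congrArg Subtype.val hs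
    have h2 : y = n⁻¹ * (n * y * n⁻¹) * n := by group
    rw [h2, ← h1]
    have h3 : n⁻¹ * (n * (s : G) * n⁻¹) * n = (s : G) := by group
    rw [h3]; exact s.2

end Cfsg.Agent.H56.Jw

example : Cfsg.Agent.H52.Jw.StNJ.{u} := Cfsg.Agent.H56.Jw.nj

#print axioms Cfsg.Agent.H56.Jw.nj
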