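import Cfsg.Agent.H61.JwPL
import Cfsg.Agent.Helper55.J48

/-!
# S2953 (team projects JY / JW, kill part led by helper52), piece (X2) PF

For a configuration `Base S M T K L` and `P = K ⊔ T`: `O₂(P) ≤ T`, `O₂(P) ≠ 1` and
`P ≤ N_G(O₂(P))`.  (`T` is a Sylow 2-subgroup of `P` by helper61's `ps`; `O₂(P) ≠ 1` is part of
`K ∈ jComponentsOutside M T`.)
-/

set_option autoImplicit false
open Cfsg

universe u

namespace Cfsg.Agent.H56.Jx

open Cfsg.Agent.H64.Jz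

/-- The Prop (X2) PF, in the shape of helper52's post. -/
def StPF56 : Prop := ∀ {G : Type u} [Group G] [Finite G] (S : Sylow 2 G) (M T K L : Subgroup G),
  Base S M T K L →
  pCoreOf 2 (K ⊔ T) ≤ T ∧ pCoreOf 2 (K ⊔ T) ≠ ⊥ ∧
    K ⊔ T ≤ Subgroup.normalizer (pCoreOf 2 (K ⊔ T) : Set G)

/-- **(X2) PF**. -/
theorem pf56 : StPF56.{u} := by
  intro G _ _ S M T K L hB
  have hps : IsSylowTwoIn T (K ⊔ T) := Cfsg.Agent.H61.Jw.ps S M T K L hB
  obtain ⟨-, -, -, -, -, -, hK, -, -⟩ := hB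
  exact ⟨Cfsg.Agent.Helper55.J48.pCoreOf_le_of_sylowIn hps, hK.2.2,
    Cfsg.Agent.Helper55.J48.le_normalizer_pCoreOf (K ⊔ T)⟩

end Cfsg.Agent.H56.Jx

#print axioms Cfsg.Agent.H56.Jx.pf56
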