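import Cfsg.Agent.H52.JxDefs
import Cfsg.Agent.H56.JxPF

/-!
# S2953 (JY-KILL2, helper52), piece (X2) PF in the exact Prop of `H52.JxDefs`
-/

set_option autoImplicit false
open Cfsg

universe u

namespace Cfsg.Agent.H56.Jx

/-- **(X2) PF**, exact Prop `Cfsg.Agent.H52.Jx.StPF`. -/
theorem pf : Cfsg.Agent.H52.Jx.StPF.{u} := pf56.{u}

end Cfsg.Agent.H56.Jx

example : Cfsg.Agent.H52.Jx.StPF.{u} := Cfsg.Agent.H56.Jx.pf

#print axioms Cfsg.Agent.H56.Jx.pf
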