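import Mathlib
import Cfsg.Agent.H71.Frattini

set_option autoImplicit false

/-!
Abstract core for the structure theorem on large extraspecial 2-subgroups:
a family of pairwise commuting centreless subgroups permuted by `Q`.
-/

namespace Cfsg.Agent.H56.LES

open Subgroup

variable {G : Type*} [Group G]

/-- The conjugate `u L u⁻¹`. -/
abbrev cj (u : G) (L : Subgroup G) : Subgroup G := L.map (MulAut.conj u).toMonoidHom

theorem mem_cj {u x : G} {L : Subgroup G} (hx : x ∈ L) : u * x * u⁻¹ ∈ cj u L :=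
  ⟨x, hx, rfl⟩

theorem mem_cj_iff {u y : G} {L : Subgroup G} : y ∈ cj u L ↔ u⁻¹ * y * u ∈ L := by
  constructor
  · rintro ⟨x, hx, rfl⟩
    have : u⁻¹ * ((MulAut.conj u).toMonoidHom x) * u = x := by
      simp [MulAut.conj_apply, mul_assoc]
    rw [this]; exact hx
  · intro h
    refine ⟨u⁻¹ * y * u, h, ?_⟩
    simp [MulAut.conj_apply, mul_assoc]

theorem cj_cj (u v : G) (L : Subgroup G) : cj u (cj v L) = cj (u * v) L := by
  ext y
  simp only [mem_cj_iff]
  simp [mul_assoc]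

theorem cj_one (L : Subgroup G) : cj 1 L = L := by
  ext y; simp

theorem cj_injective (u : G) {L L' : Subgroup G} (h : cj u L = cj u L') : L = L' := by
  have := congrArg (cj u⁻¹) h
  simpa [cj_cj, cj_one] using this

theorem mem_centralizer_cj {u k : G} {L : Subgroup G} (hk : k ∈ centralizer (L : Set G)) :
    u * k * u⁻¹ ∈ centralizer ((cj u L : Subgroup G) : Set G) := by
  rw [mem_centralizer_iff]
  rintro _ ⟨x, hx, rfl⟩
  have h1 : x * k = k * x := (mem_centralizer_iff.1 hk) x hx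
  show u * x * u⁻¹ * (u * k * u⁻¹) = u * k * u⁻¹ * (u * x * u⁻¹)
  calc u * x * u⁻¹ * (u * k * u⁻¹) = u * (x * k) * u⁻¹ := by group
    _ = u * (k * x) * u⁻¹ := by rw [h1]
    _ = u * k * u⁻¹ * (u * x * u⁻¹) := by group

/-- Elements of `A ⊔ B` are products when `B` centralizes `A`. -/
theorem exists_mul_of_mem_sup {A B : Subgroup G} (hB : B ≤ centralizer (A : Set G)) {x : G}
    (hx : x ∈ A ⊔ B) : ∃ a ∈ A, ∃ b ∈ B, x = a * b := by
  have hc : ∀ a ∈ A, ∀ b ∈ B, a * b = b * a := fun a ha b hb =>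
    (mem_centralizer_iff.1 (hB hb)) a ha
  rw [sup_eq_closure] at hx
  induction hx using Subgroup.closure_induction with
  | mem y hy =>
    rcases hy with hy | hy
    · exact ⟨y, hy, 1, B.one_mem, by simp⟩
    · exact ⟨1, A.one_mem, y, hy, by simp⟩
  | one => exact ⟨1, A.one_mem, 1, B.one_mem, by simp⟩
  | mul x y _ _ hx hy =>
    obtain ⟨a, ha, b, hb, rfl⟩ := hx
    obtain ⟨a', ha', b', hb', rfl⟩ := hy
    refine ⟨a * a', A.mul_mem ha ha', b * b', B.mul_mem hb hb', ?_⟩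
    have := hc a' ha' b hb
    calc a * b * (a' * b') = a * (b * a') * b' := by group
      _ = a * (a' * b) * b' := by rw [this]
      _ = a * a' * (b * b') := by group
  | inv x _ hx =>
    obtain ⟨a, ha, b, hb, rfl⟩ := hx
    refine ⟨a⁻¹, A.inv_mem ha, b⁻¹, B.inv_mem hb, ?_⟩
    have := hc a ha b hb
    calc (a * b)⁻¹ = (b * a)⁻¹ := by rw [this]
      _ = a⁻¹ * b⁻¹ := by group

/-- The hypotheses of the abstract core. -/
structure Hyp (Q : Subgroup G) (z : G) (𝓛 : Set (Subgroup G)) : Prop where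
  z1 : z ≠ 1
  zz : z * z = 1
  zQ : z ∈ Q
  zc : z ∈ centralizer (Q : Set G)
  CQ : ∀ g ∈ centralizer (Q : Set G), g = 1 ∨ g = z
  sq : ∀ q ∈ Q, q * q = 1 ∨ q * q = z
  comm : ∀ a ∈ Q, ∀ b ∈ Q, a * b * a⁻¹ * b⁻¹ = 1 ∨ a * b * a⁻¹ * b⁻¹ = z
  N : ∀ g ∈ centralizer ({z} : Set G), ∀ q ∈ Q, g * q * g⁻¹ ∈ Q
  conj : ∀ L ∈ 𝓛, ∀ u ∈ Q, cj u L ∈ 𝓛
  Z : ∀ L ∈ 𝓛, ∀ x ∈ L, x ∈ centralizer (L : Set G) → x = 1
  sc : ∀ L ∈ 𝓛, ∀ a ∈ L, a ≠ 1 → a * a = 1 →
    ∃ x ∈ L, x ∈ centralizer ({a} : Set G) ∧ x ≠ 1 ∧ x ≠ a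
  commL : ∀ L ∈ 𝓛, ∀ L' ∈ 𝓛, L ≠ L' → L' ≤ centralizer (L : Set G)
  zE : z ∈ sSup 𝓛
  nc : ∀ L ∈ 𝓛, ¬ L ≤ centralizer ({z} : Set G)

namespace Hyp

variable {Q : Subgroup G} {z : G} {𝓛 : Set (Subgroup G)}

theorem sSup_le_sup (h : Hyp Q z 𝓛) {L : Subgroup G} (hL : L ∈ 𝓛) :
    sSup 𝓛 ≤ L ⊔ centralizer (L : Set G) := by
  refine sSup_le fun L' hL' => ?_
  by_cases hne : L = L'
  · subst hne; exact le_sup_left
  · exact (h.commL L hL L' hL' hne).trans le_sup_right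

theorem dec (h : Hyp Q z 𝓛) {L : Subgroup G} (hL : L ∈ 𝓛) :
    ∃ a ∈ L, ∃ k ∈ centralizer (L : Set G), z = a * k :=
  exists_mul_of_mem_sup le_rfl (h.sSup_le_sup hL h.zE)

theorem uniq (h : Hyp Q z 𝓛) {L : Subgroup G} (hL : L ∈ 𝓛) {a a' k k' : G} (ha : a ∈ L)
    (ha' : a' ∈ L) (hk : k ∈ centralizer (L : Set G)) (hk' : k' ∈ centralizer (L : Set G))
    (he : a * k = a' * k') : a = a' := by
  have h1 : a'⁻¹ * a = k' * k⁻¹ := by
    calc a'⁻¹ * a = a'⁻¹ * (a * k) * k⁻¹ := by group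
      _ = a'⁻¹ * (a' * k') * k⁻¹ := by rw [he]
      _ = k' * k⁻¹ := by group
  have h2 : a'⁻¹ * a = 1 := by
    refine h.Z L hL _ (L.mul_mem (L.inv_mem ha') ha) ?_
    rw [h1]
    exact Subgroup.mul_mem _ hk' (Subgroup.inv_mem _ hk)
  calc a = a' * (a'⁻¹ * a) := by group
    _ = a' := by rw [h2, mul_one]

/-- `F`, first half. -/
theorem eq_one_of_mul (h : Hyp Q z 𝓛) {L : Subgroup G} (hL : L ∈ 𝓛) {x κ : G} (hx : x ∈ L)
    (hκ : κ ∈ centralizer (L : Set G)) (he : x * κ = 1) : x = 1 := by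
  have := h.uniq hL hx L.one_mem hκ (Subgroup.one_mem _) (by rw [he, mul_one])
  exact this

/-- `F`, second half. -/
theorem eq_of_mul (h : Hyp Q z 𝓛) {L : Subgroup G} (hL : L ∈ 𝓛) {a k x κ : G} (ha : a ∈ L)
    (hk : k ∈ centralizer (L : Set G)) (hz : z = a * k) (hx : x ∈ L)
    (hκ : κ ∈ centralizer (L : Set G)) (he : x * κ = z) : x = a :=
  h.uniq hL hx ha hκ hk (by rw [he, hz])

theorem dec_ne_one (h : Hyp Q z 𝓛) {L : Subgroup G} (hL : L ∈ 𝓛) {a k : G}
    (hk : k ∈ centralizer (L : Set G)) (hz : z = a * k) : a ≠ 1 := by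
  rintro rfl
  rw [one_mul] at hz
  apply h.nc L hL
  intro x hx
  rw [mem_centralizer_singleton_iff, hz]
  exact (mem_centralizer_iff.1 hk) x hx

theorem dec_sq (h : Hyp Q z 𝓛) {L : Subgroup G} (hL : L ∈ 𝓛) {a k : G} (ha : a ∈ L)
    (hk : k ∈ centralizer (L : Set G)) (hz : z = a * k) : a * a = 1 := by
  have hak : a * k = k * a := (mem_centralizer_iff.1 hk) a ha
  refine h.eq_one_of_mul hL (L.mul_mem ha ha) (Subgroup.mul_mem _ hk hk) ?_
  calc a * a * (k * k) = a * (a * k) * k := by group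
    _ = a * (k * a) * k := by rw [hak]
    _ = (a * k) * (a * k) := by group
    _ = 1 := by rw [← hz, h.zz]

theorem dec_comm_iff (h : Hyp Q z 𝓛) {L : Subgroup G} {a k : G}
    (hk : k ∈ centralizer (L : Set G)) (hz : z = a * k) {x : G} (hx : x ∈ L) :
    x ∈ centralizer ({z} : Set G) ↔ x ∈ centralizer ({a} : Set G) := by
  have hxk : x * k = k * x := (mem_centralizer_iff.1 hk) x hx
  rw [mem_centralizer_singleton_iff, mem_centralizer_singleton_iff, hz]
  constructor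
  · intro h1
    have : x * a * k = a * x * k := by
      calc x * a * k = x * (a * k) := by group
        _ = a * k * x := h1
        _ = a * (k * x) := by group
        _ = a * (x * k) := by rw [hxk]
        _ = a * x * k := by group
    exact mul_right_cancel this
  · intro h1
    calc x * (a * k) = (x * a) * k := by group
      _ = (a * x) * k := by rw [h1]
      _ = a * (x * k) := by group
      _ = a * (k * x) := by rw [hxk]
      _ = a * k * x := by group

theorem dec_mem_centralizer (h : Hyp Q z 𝓛) {L : Subgroup G} {a k : G} (ha : a ∈ L)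
    (hk : k ∈ centralizer (L : Set G)) (hz : z = a * k) : a ∈ centralizer ({z} : Set G) := by
  rw [h.dec_comm_iff hk hz ha, mem_centralizer_singleton_iff]

/-- `z` normalizes every member. -/
theorem cj_z (h : Hyp Q z 𝓛) {L : Subgroup G} (hL : L ∈ 𝓛) : cj z L = L := by
  obtain ⟨a, ha, k, hk, hz⟩ := h.dec hL
  have key : ∀ x ∈ L, z * x * z⁻¹ ∈ L := by
    intro x hx
    have hxk : x * k = k * x := (mem_centralizer_iff.1 hk) x hx
    have : z * x * z⁻¹ = a * x * a⁻¹ := by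
      rw [hz]
      calc a * k * x * (a * k)⁻¹ = a * (k * x) * k⁻¹ * a⁻¹ := by group
        _ = a * (x * k) * k⁻¹ * a⁻¹ := by rw [hxk]
        _ = a * x * a⁻¹ := by group
    rw [this]
    exact L.mul_mem (L.mul_mem ha hx) (L.inv_mem ha)
  have hzi : z⁻¹ = z := inv_eq_of_mul_eq_one_left h.zz
  ext y
  rw [mem_cj_iff]
  constructor
  · intro hy
    have := key _ hy
    have e : z * (z⁻¹ * y * z) * z⁻¹ = y := by group
    rwa [e] at this
  · intro hy
    have := key y hy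
    rw [hzi] at this ⊢
    exact this

theorem cj_cj_self (h : Hyp Q z 𝓛) {L : Subgroup G} (hL : L ∈ 𝓛) {u : G} (hu : u ∈ Q) :
    cj u (cj u L) = L := by
  rw [cj_cj]
  rcases h.sq u hu with h1 | h1
  · rw [h1, cj_one]
  · rw [h1, h.cj_z hL]

theorem z_comm (h : Hyp Q z 𝓛) {u : G} (hu : u ∈ Q) : u * z = z * u :=
  (mem_centralizer_iff.1 h.zc) u hu

theorem dec_cj (h : Hyp Q z 𝓛) {L : Subgroup G} {a k : G} (ha : a ∈ L)
    (hk : k ∈ centralizer (L : Set G)) (hz : z = a * k) {u : G} (hu : u ∈ Q) :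
    u * a * u⁻¹ ∈ cj u L ∧ u * k * u⁻¹ ∈ centralizer ((cj u L : Subgroup G) : Set G) ∧
      z = (u * a * u⁻¹) * (u * k * u⁻¹) := by
  refine ⟨mem_cj ha, mem_centralizer_cj hk, ?_⟩
  have := h.z_comm hu
  calc z = (z * u) * u⁻¹ := by group
    _ = u * z * u⁻¹ := by rw [this]
    _ = u * (a * k) * u⁻¹ := by rw [← hz]
    _ = (u * a * u⁻¹) * (u * k * u⁻¹) := by group

/-- `E`. -/
theorem comm_mem (h : Hyp Q z 𝓛) {t u : G} (ht : t ∈ centralizer ({z} : Set G)) (hu : u ∈ Q) :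
    t * u * t⁻¹ * u⁻¹ ∈ Q :=
  Q.mul_mem (h.N t ht u hu) (Q.inv_mem hu)

theorem cj_le_centralizer (h : Hyp Q z 𝓛) {L L' : Subgroup G} (hL : L ∈ 𝓛) (hL' : L' ∈ 𝓛)
    (hne : L' ≠ L) : L' ≤ centralizer (L : Set G) :=
  h.commL L hL L' hL' (Ne.symm hne)

/-- `G`. -/
theorem sq_cases (h : Hyp Q z 𝓛) {L : Subgroup G} (hL : L ∈ 𝓛) {a k : G} (ha : a ∈ L)
    (hk : k ∈ centralizer (L : Set G)) (hz : z = a * k) {u : G} (hu : u ∈ Q)
    (hne : cj u L ≠ L) {t : G} (ht : t ∈ L) (htz : t ∈ centralizer ({z} : Set G)) :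
    t * t = 1 ∨ t * t = a := by
  have hcen : cj u L ≤ centralizer (L : Set G) := h.cj_le_centralizer hL (h.conj L hL u hu) hne
  have hκ : u * t⁻¹ * u⁻¹ ∈ centralizer (L : Set G) := hcen (mem_cj (L.inv_mem ht))
  have hc : t * u * t⁻¹ * u⁻¹ ∈ Q := h.comm_mem htz hu
  have htκ : t * (u * t⁻¹ * u⁻¹) = (u * t⁻¹ * u⁻¹) * t := (mem_centralizer_iff.1 hκ) t ht
  have e : (t * u * t⁻¹ * u⁻¹) * (t * u * t⁻¹ * u⁻¹)
      = (t * t) * ((u * t⁻¹ * u⁻¹) * (u * t⁻¹ * u⁻¹)) := by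
    calc (t * u * t⁻¹ * u⁻¹) * (t * u * t⁻¹ * u⁻¹)
        = t * ((u * t⁻¹ * u⁻¹) * t) * (u * t⁻¹ * u⁻¹) := by group
      _ = t * (t * (u * t⁻¹ * u⁻¹)) * (u * t⁻¹ * u⁻¹) := by rw [htκ]
      _ = (t * t) * ((u * t⁻¹ * u⁻¹) * (u * t⁻¹ * u⁻¹)) := by group
  rcases h.sq _ hc with h1 | h1
  · left
    exact h.eq_one_of_mul hL (L.mul_mem ht ht) (Subgroup.mul_mem _ hκ hκ) (by rw [← e, h1])
  · right
    exact h.eq_of_mul hL ha hk hz (L.mul_mem ht ht) (Subgroup.mul_mem _ hκ hκ) (by rw [← e, h1])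

theorem pow_four (h : Hyp Q z 𝓛) {L : Subgroup G} (hL : L ∈ 𝓛) {u : G} (hu : u ∈ Q)
    (hne : cj u L ≠ L) {t : G} (ht : t ∈ L) (htz : t ∈ centralizer ({z} : Set G)) :
    t ^ 4 = 1 := by
  obtain ⟨a, ha, k, hk, hz⟩ := h.dec hL
  have haa := h.dec_sq hL ha hk hz
  have e : t ^ 4 = (t * t) * (t * t) := by
    rw [show (4 : ℕ) = 2 + 2 from rfl, pow_add, pow_two]
  rw [e]
  rcases h.sq_cases hL ha hk hz hu hne ht htz with h1 | h1
  · rw [h1, mul_one]
  · rw [h1, haa]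

/-- `H`. -/
theorem mem_Q_cases (h : Hyp Q z 𝓛) {L : Subgroup G} (hL : L ∈ 𝓛) {a k : G} (ha : a ∈ L)
    (hk : k ∈ centralizer (L : Set G)) (hz : z = a * k) {u : G} (hu : u ∈ Q)
    (hne : cj u L ≠ L) {q : G} (hq : q ∈ L) (hqQ : q ∈ Q) : q = 1 ∨ q = a := by
  have hcen : cj u L ≤ centralizer (L : Set G) := h.cj_le_centralizer hL (h.conj L hL u hu) hne
  have hκ : u * q⁻¹ * u⁻¹ ∈ centralizer (L : Set G) := hcen (mem_cj (L.inv_mem hq))
  have e : q * u * q⁻¹ * u⁻¹ = q * (u * q⁻¹ * u⁻¹) := by group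
  rcases h.comm q hqQ u hu with h1 | h1
  · left
    exact h.eq_one_of_mul hL hq hκ (by rw [← e, h1])
  · right
    exact h.eq_of_mul hL ha hk hz hq hκ (by rw [← e, h1])

/-- Case I: if `Q` normalizes `L`, then `L` is the only member. -/
theorem eq_singleton (h : Hyp Q z 𝓛) {L : Subgroup G} (hL : L ∈ 𝓛)
    (hfix : ∀ u ∈ Q, cj u L = L) : 𝓛 = {L} := by
  obtain ⟨a, ha, k, hk, hz⟩ := h.dec hL
  have ha1 := h.dec_ne_one hL hk hz
  have hzL : z ∈ L := by
    by_cases hex : ∃ q ∈ Q, q ∈ L ∧ q ≠ 1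
    · obtain ⟨q, hqQ, hqL, hq1⟩ := hex
      by_cases hqc : q ∈ centralizer (Q : Set G)
      · rcases h.CQ q hqc with h1 | h1
        · exact absurd h1 hq1
        · rw [← h1]; exact hqL
      · rw [mem_centralizer_iff] at hqc
        push Not at hqc
        obtain ⟨b, hb, hbq⟩ := hqc
        rcases h.comm q hqQ b hb with h1 | h1
        · exfalso; apply hbq
          have : q * b = b * q := by
            calc q * b = (q * b * q⁻¹ * b⁻¹) * (b * q) := by group
              _ = b * q := by rw [h1, one_mul]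
          exact this.symm
        · have hbL : b * q⁻¹ * b⁻¹ ∈ L := by
            have := mem_cj (u := b) (L.inv_mem hqL)
            rwa [hfix b hb] at this
          have : z = q * (b * q⁻¹ * b⁻¹) := by rw [← h1]; group
          rw [this]; exact L.mul_mem hqL hbL
    · push Not at hex
      exfalso
      have hac : a ∈ centralizer (Q : Set G) := by
        rw [mem_centralizer_iff]
        intro q hq
        have h1 : a * q * a⁻¹ * q⁻¹ ∈ Q := h.comm_mem (h.dec_mem_centralizer ha hk hz) hq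
        have h2 : a * q * a⁻¹ * q⁻¹ ∈ L := by
          have := mem_cj (u := q) (L.inv_mem ha)
          rw [hfix q hq] at this
          have e : a * q * a⁻¹ * q⁻¹ = a * (q * a⁻¹ * q⁻¹) := by group
          rw [e]; exact L.mul_mem ha this
        have h3 := hex _ h1 h2
        calc q * a = (a * q * a⁻¹ * q⁻¹)⁻¹ * (a * q) := by group
          _ = a * q := by rw [h3, inv_one, one_mul]
      rcases h.CQ a hac with h1 | h1
      · exact ha1 h1
      · exact ha1 (hex a (by rw [h1]; exact h.zQ) ha)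
  ext L'
  simp only [Set.mem_singleton_iff]
  constructor
  · intro hL'
    by_contra hne
    apply h.nc L' hL'
    intro x hx
    have := h.cj_le_centralizer hL hL' hne hx
    rw [mem_centralizer_singleton_iff]
    exact ((mem_centralizer_iff.1 this) z hzL).symm
  · rintro rfl; exact hL

/-- Case II: if some `u ∈ Q` moves `L`, the members are `L` and `cj u L`. -/
theorem eq_pair (h : Hyp Q z 𝓛) {L : Subgroup G} (hL : L ∈ 𝓛) {u : G} (hu : u ∈ Q)
    (hne : cj u L ≠ L) : 𝓛 = {L, cj u L} := by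
  obtain ⟨a, ha, k, hk, hz⟩ := h.dec hL
  have ha1 := h.dec_ne_one hL hk hz
  have haa := h.dec_sq hL ha hk hz
  have hazc := h.dec_mem_centralizer ha hk hz
  have hL' : cj u L ∈ 𝓛 := h.conj L hL u hu
  obtain ⟨a', ea'⟩ : ∃ a', u * a * u⁻¹ = a' := ⟨_, rfl⟩
  obtain ⟨k', ek'⟩ : ∃ k', u * k * u⁻¹ = k' := ⟨_, rfl⟩
  obtain ⟨ha', hk', hz'⟩ := h.dec_cj ha hk hz hu
  rw [ea'] at ha' hz'
  rw [ek'] at hk' hz'
  have hcen : cj u L ≤ centralizer (L : Set G) := h.cj_le_centralizer hL hL' hne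
  have hcen' : L ≤ centralizer ((cj u L : Subgroup G) : Set G) :=
    h.cj_le_centralizer hL' hL (Ne.symm hne)
  have ha'a' : a' * a' = 1 := h.dec_sq hL' ha' hk' hz'
  ext L₃
  simp only [Set.mem_insert_iff, Set.mem_singleton_iff]
  constructor
  swap
  · rintro (rfl | rfl)
    · exact hL
    · exact hL'
  intro hL₃
  by_contra hcon
  push Not at hcon
  obtain ⟨hne1, hne2⟩ := hcon
  have hainv : a⁻¹ = a := inv_eq_of_mul_eq_one_left haa
  have hwQ : a * a' ∈ Q := by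
    have := h.comm_mem hazc hu
    have e : a * u * a⁻¹ * u⁻¹ = a * a' := by rw [hainv, ← ea']; group
    rwa [e] at this
  have hw1 : a * a' ≠ 1 := fun h1 => ha1 (h.eq_one_of_mul hL ha (hcen ha') h1)
  have hwz : a * a' ≠ z := by
    intro h1
    apply h.nc L₃ hL₃
    intro x hx
    have hx1 : x ∈ centralizer (L : Set G) := h.cj_le_centralizer hL hL₃ hne1 hx
    have hx2 : x ∈ centralizer ((cj u L : Subgroup G) : Set G) :=
      h.cj_le_centralizer hL' hL₃ hne2 hx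
    rw [mem_centralizer_singleton_iff, ← h1]
    have e1 : a * x = x * a := (mem_centralizer_iff.1 hx1) a ha
    have e2 : a' * x = x * a' := (mem_centralizer_iff.1 hx2) a' ha'
    calc x * (a * a') = (x * a) * a' := by group
      _ = (a * x) * a' := by rw [e1]
      _ = a * (x * a') := by group
      _ = a * (a' * x) := by rw [e2]
      _ = a * a' * x := by group
  have hwc : a * a' ∉ centralizer (Q : Set G) := fun hc => by
    rcases h.CQ _ hc with h1 | h1
    · exact hw1 h1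
    · exact hwz h1
  rw [mem_centralizer_iff] at hwc
  push Not at hwc
  obtain ⟨v, hv, hvw⟩ := hwc
  have hcz : (a * a') * v * (a * a')⁻¹ * v⁻¹ = z := by
    rcases h.comm _ hwQ v hv with h1 | h1
    · exfalso; apply hvw
      calc v * (a * a') = ((a * a') * v * (a * a')⁻¹ * v⁻¹)⁻¹ * ((a * a') * v) := by group
        _ = a * a' * v := by rw [h1, inv_one, one_mul]
    · exact h1
  have hzw : z * (a * a') = (a * a') * z := (h.z_comm hwQ).symm
  have hzi : z⁻¹ = z := inv_eq_of_mul_eq_one_left h.zz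
  have hvwv : v * (a * a') * v⁻¹ = z * (a * a') := by
    have e1 : v * (a * a') * v⁻¹ = (((a * a') * v * (a * a')⁻¹ * v⁻¹)⁻¹ * (a * a')) := by group
    rw [e1, hcz, hzi]
  have hzw1 : z * (a * a') = k * a' := by
    have hak : a * k = k * a := (mem_centralizer_iff.1 hk) a ha
    calc z * (a * a') = (a * k) * (a * a') := by rw [← hz]
      _ = a * (k * a) * a' := by group
      _ = a * (a * k) * a' := by rw [hak]
      _ = (a * a) * k * a' := by group
      _ = k * a' := by rw [haa, one_mul]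
  have hzw2 : z * (a * a') = a * k' := by
    rw [hzw]
    calc a * a' * z = a * a' * (a' * k') := by rw [← hz']
      _ = a * (a' * a') * k' := by group
      _ = a * k' := by rw [ha'a', mul_one]
  have hzwc1 : z * (a * a') ∈ centralizer (L : Set G) := by
    rw [hzw1]; exact Subgroup.mul_mem _ hk (hcen ha')
  have hzwc2 : z * (a * a') ∈ centralizer ((cj u L : Subgroup G) : Set G) := by
    rw [hzw2]; exact Subgroup.mul_mem _ (hcen' ha) hk'
  have hL₁ : cj v L ∈ 𝓛 := h.conj L hL v hv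
  have hL₂ : cj v (cj u L) ∈ 𝓛 := h.conj _ hL' v hv
  have hL₂ne : cj v (cj u L) ≠ cj v L := fun e => hne (cj_injective v e)
  have hprod : (v * a * v⁻¹) * (v * a' * v⁻¹) = z * (a * a') := by
    rw [← hvwv]; group
  have hva1 : v * a * v⁻¹ ≠ 1 := by
    intro e
    apply ha1
    calc a = v⁻¹ * (v * a * v⁻¹) * v := by group
      _ = 1 := by rw [e]; group
  have hva : v * a * v⁻¹ ∈ cj v L := mem_cj ha
  have hva' : v * a' * v⁻¹ ∈ cj v (cj u L) := mem_cj ha'
  have claim1 : cj v L ≠ L := by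
    intro e
    apply hva1
    have m1 : v * a * v⁻¹ ∈ L := by rw [e] at hva; exact hva
    have m2 : v * a' * v⁻¹ ∈ centralizer (L : Set G) := by
      have : cj v (cj u L) ≠ L := fun e' => hL₂ne (e'.trans e.symm)
      exact h.cj_le_centralizer hL hL₂ this hva'
    have m3 : v * a * v⁻¹ ∈ centralizer (L : Set G) := by
      have : v * a * v⁻¹ = (z * (a * a')) * (v * a' * v⁻¹)⁻¹ := by rw [← hprod]; group
      rw [this]; exact Subgroup.mul_mem _ hzwc1 (Subgroup.inv_mem _ m2)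
    exact h.Z L hL _ m1 m3
  have claim3 : cj v L ≠ cj u L := by
    intro e
    apply hva1
    have m1 : v * a * v⁻¹ ∈ cj u L := by rw [e] at hva; exact hva
    have m2 : v * a' * v⁻¹ ∈ centralizer ((cj u L : Subgroup G) : Set G) := by
      have : cj v (cj u L) ≠ cj u L := fun e' => hL₂ne (e'.trans e.symm)
      exact h.cj_le_centralizer hL' hL₂ this hva'
    have m3 : v * a * v⁻¹ ∈ centralizer ((cj u L : Subgroup G) : Set G) := by
      have : v * a * v⁻¹ = (z * (a * a')) * (v * a' * v⁻¹)⁻¹ := by rw [← hprod]; group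
      rw [this]; exact Subgroup.mul_mem _ hzwc2 (Subgroup.inv_mem _ m2)
    exact h.Z _ hL' _ m1 m3
  have hcen1 : cj v L ≤ centralizer (L : Set G) := h.cj_le_centralizer hL hL₁ claim1
  have hL₁u : cj u (cj v L) ∈ 𝓛 := h.conj _ hL₁ u hu
  have hL₁une : cj u (cj v L) ≠ L := by
    intro e
    apply claim3
    have := congrArg (cj u) e
    rw [h.cj_cj_self hL₁ hu] at this
    exact this
  have hcen2 : cj u (cj v L) ≤ centralizer (L : Set G) := h.cj_le_centralizer hL hL₁u hL₁une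
  obtain ⟨x, hxL, hxa, hx1, hxa'⟩ := h.sc L hL a ha ha1 haa
  have hxz : x ∈ centralizer ({z} : Set G) := (h.dec_comm_iff hk hz hxL).2 hxa
  have key : ∀ t ∈ L, t ∈ centralizer ({z} : Set G) → t = 1 ∨ t = a := by
    intro t ht htz
    have hp : t * v * t⁻¹ * v⁻¹ ∈ Q := h.comm_mem htz hv
    have m1 : v * t⁻¹ * v⁻¹ ∈ centralizer (L : Set G) := hcen1 (mem_cj (L.inv_mem ht))
    have m2 : u * (v * t * v⁻¹) * u⁻¹ ∈ centralizer (L : Set G) := hcen2 (mem_cj (mem_cj ht))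
    have m3 : u * t⁻¹ * u⁻¹ ∈ centralizer (L : Set G) := hcen (mem_cj (L.inv_mem ht))
    have e : (t * v * t⁻¹ * v⁻¹) * u * (t * v * t⁻¹ * v⁻¹)⁻¹ * u⁻¹
        = t * ((v * t⁻¹ * v⁻¹) * (u * (v * t * v⁻¹) * u⁻¹) * (u * t⁻¹ * u⁻¹)) := by group
    have m : (v * t⁻¹ * v⁻¹) * (u * (v * t * v⁻¹) * u⁻¹) * (u * t⁻¹ * u⁻¹)
        ∈ centralizer (L : Set G) :=
      Subgroup.mul_mem _ (Subgroup.mul_mem _ m1 m2) m3
    rcases h.comm _ hp u hu with h1 | h1
    · left; exact h.eq_one_of_mul hL ht m (by rw [← e, h1])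
    · right; exact h.eq_of_mul hL ha hk hz ht m (by rw [← e, h1])
  rcases key x hxL hxz with h1 | h1
  · exact hx1 h1
  · exact hxa' h1

/-- The abstract core theorem. -/
theorem main [Finite G] (h : Hyp Q z 𝓛)
    (hSyl : ∃ L ∈ 𝓛, ¬ 2 ∣ (centralizer ({z} : Set G)).relIndex L) :
    (∃ L, 𝓛 = {L}) ∨ ∃ (L : Subgroup G) (u : G), u ∈ Q ∧ L ∈ 𝓛 ∧ cj u L ≠ L ∧
      𝓛 = {L, cj u L} ∧ L ⊓ cj u L = ⊥ ∧ (∀ x ∈ L, ∀ y ∈ cj u L, x * y = y * x) ∧
      ∃ z₁ ∈ L, z = z₁ * (u * z₁ * u⁻¹) ∧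
        (∃ R : Sylow 2 ↥L, (R : Subgroup ↥L) = (centralizer ({z₁} : Set G)).subgroupOf L ∧
          (frattini ↥(R : Subgroup ↥L)).map ((L.subtype).comp (R : Subgroup ↥L).subtype)
            ≤ zpowers z₁) ∧
        IsPGroup 2 ↥(sSup 𝓛 ⊓ centralizer ({z} : Set G)) ∧
        ¬ (sSup 𝓛 ⊓ centralizer ({z} : Set G) ≤ Q) := by
  obtain ⟨L, hL, hidx⟩ := hSyl
  by_cases hfix : ∀ u ∈ Q, cj u L = L
  · exact Or.inl ⟨L, h.eq_singleton hL hfix⟩
  right
  push Not at hfix
  obtain ⟨u, hu, hne⟩ := hfix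
  have hpair := h.eq_pair hL hu hne
  obtain ⟨a, ha, k, hk, hz⟩ := h.dec hL
  have ha1 := h.dec_ne_one hL hk hz
  have haa := h.dec_sq hL ha hk hz
  have hL' : cj u L ∈ 𝓛 := h.conj L hL u hu
  obtain ⟨ha', hk', hz'⟩ := h.dec_cj ha hk hz hu
  have hcen : cj u L ≤ centralizer (L : Set G) := h.cj_le_centralizer hL hL' hne
  have hcen' : L ≤ centralizer ((cj u L : Subgroup G) : Set G) :=
    h.cj_le_centralizer hL' hL (Ne.symm hne)
  have hsup : sSup 𝓛 = L ⊔ cj u L := by rw [hpair, sSup_pair]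
  -- `k = u a u⁻¹`
  have hkL' : k ∈ cj u L := by
    have hzs : z ∈ L ⊔ cj u L := hsup ▸ h.zE
    obtain ⟨x, hx, y, hy, hxy⟩ := exists_mul_of_mem_sup hcen hzs
    have hax : a = x := h.uniq hL ha hx hk (hcen hy) (by rw [← hz, ← hxy])
    have : k = y := by
      rw [hz, ← hax] at hxy
      exact mul_left_cancel hxy
    rw [this]; exact hy
  have hkeq : k = u * a * u⁻¹ := by
    have hak : a * k = k * a := (mem_centralizer_iff.1 hk) a ha
    exact h.uniq hL' hkL' ha' (hcen' ha) hk' (by rw [← hak, ← hz, ← hz'])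
  have hzeq : z = a * (u * a * u⁻¹) := by rw [← hkeq]; exact hz
  have hsqmem : ∀ t ∈ L, t ∈ centralizer ({a} : Set G) → t * t ∈ zpowers a := by
    intro t ht hta
    have htz : t ∈ centralizer ({z} : Set G) := (h.dec_comm_iff hk hz ht).2 hta
    rcases h.sq_cases hL ha hk hz hu hne ht htz with h1 | h1
    · rw [h1]; exact Subgroup.one_mem _
    · rw [h1]; exact Subgroup.mem_zpowers a
  have hS2 : IsPGroup 2 ↥((centralizer ({a} : Set G)).subgroupOf L) := by
    rintro ⟨⟨t, ht⟩, htc⟩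
    refine ⟨2, ?_⟩
    have htz : t ∈ centralizer ({z} : Set G) :=
      (h.dec_comm_iff hk hz ht).2 (mem_subgroupOf.1 htc)
    have := h.pow_four hL hu hne ht htz
    apply Subtype.ext
    apply Subtype.ext
    rw [Subgroup.coe_pow, Subgroup.coe_pow, Subgroup.coe_one, Subgroup.coe_one]
    exact this
  have hsub : (centralizer ({a} : Set G)).subgroupOf L
      = (centralizer ({z} : Set G)).subgroupOf L := by
    ext ⟨x, hx⟩
    rw [mem_subgroupOf, mem_subgroupOf]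
    exact (h.dec_comm_iff hk hz hx).symm
  have hidx' : ¬ 2 ∣ ((centralizer ({a} : Set G)).subgroupOf L).index := by
    rw [hsub]; exact hidx
  haveI : Fact (Nat.Prime 2) := ⟨Nat.prime_two⟩
  refine ⟨L, u, hu, hL, hne, hpair, ?_, ?_, a, ha, hzeq, ⟨hS2.toSylow hidx', rfl, ?_⟩, ?_, ?_⟩
  · rw [eq_bot_iff]
    intro x hx
    rw [mem_inf] at hx
    rw [mem_bot]
    exact h.Z L hL x hx.1 (hcen hx.2)
  · exact fun x hx y hy => (mem_centralizer_iff.1 (hcen hy)) x hx
  · rw [Subgroup.map_le_iff_le_comap]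
    have hmem : ∀ x : ↥((hS2.toSylow hidx' : Sylow 2 ↥L) : Subgroup ↥L),
        ((x : ↥L) : G) ∈ L ∧ ((x : ↥L) : G) ∈ centralizer ({a} : Set G) := by
      intro x
      exact ⟨(x : ↥L).2, mem_subgroupOf.1 x.2⟩
    apply Cfsg.Agent.H71.frattini_le_of_pow_comm 2 Nat.prime_two
    · intro x
      rw [Subgroup.mem_comap]
      have := hsqmem _ (hmem x).1 (hmem x).2
      rw [pow_two]
      exact this
    · intro x y
      rw [Subgroup.mem_comap]
      have h1 := hsqmem _ (hmem x).1 (hmem x).2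
      have h2 := hsqmem _ (hmem y).1 (hmem y).2
      have h3 := hsqmem _ (hmem (x⁻¹ * y)).1 (hmem (x⁻¹ * y)).2
      have e : x * y * x⁻¹ * y⁻¹ = (x * x) * ((x⁻¹ * y) * (x⁻¹ * y)) * (y * y)⁻¹ := by group
      rw [e]
      exact Subgroup.mul_mem _ (Subgroup.mul_mem _ h1 h3) (Subgroup.inv_mem _ h2)
  · rintro ⟨g, hg⟩
    refine ⟨2, ?_⟩
    obtain ⟨hg1, hg2⟩ := mem_inf.1 hg
    rw [hsup] at hg1
    obtain ⟨x, hx, y, hy, rfl⟩ := exists_mul_of_mem_sup hcen hg1
    have hzx : z * x * z⁻¹ ∈ L := by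
      have := mem_cj (u := z) hx
      rwa [h.cj_z hL] at this
    have hzy : z * y * z⁻¹ ∈ cj u L := by
      have := mem_cj (u := z) hy
      rwa [h.cj_z hL'] at this
    have e : (z * x * z⁻¹) * (z * y * z⁻¹) = x * y := by
      have := mem_centralizer_singleton_iff.1 hg2
      calc (z * x * z⁻¹) * (z * y * z⁻¹) = z * (x * y) * z⁻¹ := by group
        _ = (x * y) * z * z⁻¹ := by rw [this]
        _ = x * y := by group
    have hxz' : z * x * z⁻¹ = x := h.uniq hL hzx hx (hcen hzy) (hcen hy) e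
    have hxz : x ∈ centralizer ({z} : Set G) := by
      rw [mem_centralizer_singleton_iff]
      calc x * z = (z * x * z⁻¹) * z := by rw [hxz']
        _ = z * x := by group
    have hyz : y ∈ centralizer ({z} : Set G) := by
      have := Subgroup.mul_mem _ (Subgroup.inv_mem _ hxz) hg2
      simpa using this
    have hx4 := h.pow_four hL hu hne hx hxz
    have hy4 := h.pow_four hL' hu (by rw [h.cj_cj_self hL hu]; exact Ne.symm hne) hy hyz
    have hxy : x * y = y * x := (mem_centralizer_iff.1 (hcen hy)) x hx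
    apply Subtype.ext
    rw [Subgroup.coe_pow, Subgroup.coe_one]
    show (x * y) ^ 4 = 1
    rw [(show Commute x y from hxy).mul_pow, hx4, hy4, one_mul]
  · intro hle
    obtain ⟨x, hxL, hxa, hx1, hxa'⟩ := h.sc L hL a ha ha1 haa
    have hxz := (h.dec_comm_iff hk hz hxL).2 hxa
    have hxQ : x ∈ Q := hle (mem_inf.2 ⟨(le_sSup hL) hxL, hxz⟩)
    rcases h.mem_Q_cases hL ha hk hz hu hne hxL hxQ with h1 | h1
    · exact hx1 h1
    · exact hxa' h1

end Hyp

end Cfsg.Agent.H56.LES
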