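import Mathlib

set_option autoImplicit false

/-!
A finite non-abelian simple group has no self-centralizing involution.
-/

namespace Cfsg.Agent.H56.LES

open Subgroup

theorem exists_comm_of_simple {L : Type*} [Group L] [Finite L] [IsSimpleGroup L]
    (hnc : ¬ ∀ x y : L, x * y = y * x) (a : L) (ha1 : a ≠ 1) (haa : a * a = 1) :
    ∃ x : L, x * a = a * x ∧ x ≠ 1 ∧ x ≠ a := by
  by_contra hcon
  push Not at hcon
  have hp2 : Fact (Nat.Prime 2) := ⟨Nat.prime_two⟩
  have ho : orderOf a = 2 := by
    apply orderOf_eq_prime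
    · rw [pow_two]; exact haa
    · exact ha1
  have hpa : IsPGroup 2 (zpowers a) := by
    apply IsPGroup.of_card (n := 1)
    rw [Nat.card_zpowers, ho, pow_one]
  obtain ⟨P, hP⟩ := hpa.exists_le_sylow
  have haP : a ∈ (P : Subgroup L) := hP (mem_zpowers a)
  have hPle : ∀ x ∈ (P : Subgroup L), x = 1 ∨ x = a := by
    have hnt : Nontrivial (P : Subgroup L) :=
      ⟨⟨⟨a, haP⟩, 1, fun h => ha1 (congrArg Subtype.val h)⟩⟩
    have hcen : Nontrivial (center (P : Subgroup L)) := IsPGroup.center_nontrivial P.isPGroup'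
    obtain ⟨⟨c, hcP⟩, hc1⟩ := exists_ne (1 : center (P : Subgroup L))
    have hc1' : (c : L) ≠ 1 := by
      intro h
      apply hc1
      apply Subtype.ext
      apply Subtype.ext
      exact h
    have h1 := mem_center_iff.1 hcP ⟨a, haP⟩
    have h2 : a * (c : L) = (c : L) * a := congrArg Subtype.val h1
    have hca : (c : L) = a := hcon _ h2.symm hc1'
    intro x hx
    by_cases hx1 : x = 1
    · exact Or.inl hx1
    · right
      have h3 := mem_center_iff.1 hcP ⟨x, hx⟩
      have h4 : x * (c : L) = (c : L) * x := congrArg Subtype.val h3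
      rw [hca] at h4
      exact hcon x h4 hx1
  have hcyc : IsCyclic (P : Subgroup L) := by
    refine ⟨⟨⟨a, haP⟩, fun x => ?_⟩⟩
    rcases hPle x x.2 with h | h
    · exact ⟨0, Subtype.ext (by simp [h])⟩
    · exact ⟨1, Subtype.ext (by simp [h])⟩
  have h2dvd : 2 ∣ Nat.card L := ho ▸ orderOf_dvd_natCard a
  have hmin : (Nat.card L).minFac = 2 := (Nat.minFac_eq_two_iff _).mpr h2dvd
  have hcomp := IsCyclic.isComplement' hmin hcyc
  have hKn : (MonoidHom.transferSylow P (hcyc.normalizer_le_centralizer hmin)).ker.Normal :=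
    MonoidHom.normal_ker _
  rcases hKn.eq_bot_or_eq_top with hK | hK
  · rw [hK, isComplement'_bot_left] at hcomp
    apply hnc
    intro x y
    have hx : x ∈ (P : Subgroup L) := hcomp ▸ mem_top x
    have hy : y ∈ (P : Subgroup L) := hcomp ▸ mem_top y
    rcases hPle x hx with h | h <;> rcases hPle y hy with h' | h' <;> simp [h, h']
  · rw [hK, isComplement'_top_left] at hcomp
    apply ha1
    have : a ∈ (⊥ : Subgroup L) := hcomp ▸ haP
    exact mem_bot.1 this

end Cfsg.Agent.H56.LES
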