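import Cfsg.Agent.H56.LESCore
import Cfsg.Agent.H56.LESInv
import Cfsg.Agent.H27.Layer
import Cfsg.Agent.H1.HallHigman
import Cfsg.Agent.H38.PGroupBasic
import Cfsg.Agent.H3.PGroup
import Cfsg.Agent.H67.FPF
import Cfsg.Agent.H60.Cores
import Cfsg.Prelude.Def_MonsterType

set_option autoImplicit false

/-!
Glue between the large extraspecial hypothesis and the abstract core `LES.Hyp`.
-/

namespace Cfsg.Agent.H56.LES

open Subgroup Cfsg
open scoped commutatorElement

variable {G : Type*} [Group G]

theorem mem_zpowers_cases {z : G} (hzz : z * z = 1) {g : G} (hg : g ∈ zpowers z) :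
    g = 1 ∨ g = z := by
  obtain ⟨k, rfl⟩ := mem_zpowers_iff.1 hg
  have h2 : z ^ (2 : ℤ) = 1 := by rw [zpow_two]; exact hzz
  obtain ⟨m, rfl | rfl⟩ := Int.even_or_odd' k
  · left; rw [zpow_mul, h2, one_zpow]
  · right; rw [zpow_add, zpow_mul, h2, one_zpow, one_mul, zpow_one]

variable [Finite G]

/-- Basic consequences of the large extraspecial hypothesis. -/
theorem basic (Q : Subgroup G) (hQ : IsLargeExtraspecial Q) (z : G)
    (hz : ((center ↥Q).map Q.subtype) = zpowers z) :
    z ≠ 1 ∧ z * z = 1 ∧ z ∈ Q ∧ centralizer (Q : Set G) = zpowers z ∧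
    (∀ q ∈ Q, q * q = 1 ∨ q * q = z) ∧
    (∀ a ∈ Q, ∀ b ∈ Q, a * b * a⁻¹ * b⁻¹ = 1 ∨ a * b * a⁻¹ * b⁻¹ = z) ∧
    (∀ g ∈ centralizer ({z} : Set G), ∀ q ∈ Q, g * q * g⁻¹ ∈ Q) := by
  obtain ⟨⟨⟨hpQ, hfr, hcm⟩, hcard⟩, hCQ, hNQ, -⟩ := hQ
  have hp2 : Fact (Nat.Prime 2) := ⟨Nat.prime_two⟩
  have ho : orderOf z = 2 := by
    rw [← Nat.card_zpowers, ← hz, Subgroup.card_subtype, hcard]
  have hz1 : z ≠ 1 := by
    rintro rfl
    rw [orderOf_one] at ho
    exact absurd ho (by norm_num)
  have hzz : z * z = 1 := by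
    rw [← pow_two, ← ho]; exact pow_orderOf_eq_one z
  have hzmem : z ∈ (center ↥Q).map Q.subtype := hz ▸ mem_zpowers z
  have hzQ : z ∈ Q := by
    obtain ⟨x, -, hx⟩ := hzmem
    rw [← hx]
    exact x.2
  have hcases : ∀ g ∈ (center ↥Q).map Q.subtype, g = 1 ∨ g = z := fun g hg =>
    mem_zpowers_cases hzz (hz ▸ hg)
  refine ⟨hz1, hzz, hzQ, hCQ.trans hz, ?_, ?_, ?_⟩
  · intro q hq
    have h1 : (⟨q, hq⟩ : ↥Q) ^ 2 ∈ frattini ↥Q := Cfsg.Agent.H3.pow_mem_frattini hpQ _
    rw [hfr] at h1
    have h2 : q * q ∈ (center ↥Q).map Q.subtype := ⟨_, h1, by simp [pow_two]⟩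
    exact hcases _ h2
  · intro a ha b hb
    have h1 : ⁅(⟨a, ha⟩ : ↥Q), ⟨b, hb⟩⁆ ∈ commutator ↥Q :=
      Subgroup.commutator_mem_commutator (Subgroup.mem_top _) (Subgroup.mem_top _)
    rw [hcm] at h1
    have h2 : a * b * a⁻¹ * b⁻¹ ∈ (center ↥Q).map Q.subtype :=
      ⟨_, h1, by simp [commutatorElement_def]⟩
    exact hcases _ h2
  · intro g hg q hq
    have hg' : g ∈ centralizer (((center ↥Q).map Q.subtype : Subgroup G) : Set G) := by
      rw [mem_centralizer_iff]
      intro h hh
      rcases hcases h hh with rfl | rfl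
      · simp
      · exact (mem_centralizer_singleton_iff.1 hg).symm
    exact (mem_normalizer_iff.1 (hNQ hg') q).1 hq

omit [Finite G] in
theorem pPrimeCore_eq_bot (Q : Subgroup G) (hQ : IsLargeExtraspecial Q) :
    pPrimeCore 2 G = ⊥ := by
  obtain ⟨-, -, -, hodd⟩ := hQ
  unfold pPrimeCore
  rw [sSup_eq_bot]
  rintro N ⟨hN, hc⟩
  apply hodd N (Nat.Coprime.odd_of_right hc)
  rw [normalizer_eq_top]; exact le_top

theorem not_le_centralizer (Q : Subgroup G) (hQ : IsLargeExtraspecial Q) (z : G)
    (hz : ((center ↥Q).map Q.subtype) = zpowers z) {L : Subgroup G} (hL : IsComponent L) :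
    ¬ L ≤ centralizer ({z} : Set G) := by
  intro hle
  obtain ⟨hz1, hzz, hzQ, hCQ, -, -, hN⟩ := basic Q hQ z hz
  have hp2 : Fact (Nat.Prime 2) := ⟨Nat.prime_two⟩
  have hpQ : IsPGroup 2 ↥Q := hQ.1.1.1
  have hsolv : Group.IsSolvable ↥Q := by
    have : Group.IsNilpotent ↥Q := hpQ.isNilpotent
    infer_instance
  have hnorm : L ≤ normalizer (Q : Set G) := by
    intro x hx
    rw [mem_normalizer_iff]
    intro q
    constructor
    · exact hN x (hle hx) q
    · intro h
      have := hN x⁻¹ (Subgroup.inv_mem _ (hle hx)) _ h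
      have e : x⁻¹ * (x * q * x⁻¹) * x⁻¹⁻¹ = q := by group
      rwa [e] at this
  have hcomm := Cfsg.Agent.H27.component_comm_solvable L Q hL hsolv hnorm
  rw [commutator_eq_bot_iff_le_centralizer, hCQ] at hcomm
  apply Cfsg.Agent.H27.isComponent_not_solvable hL
  apply Group.isSolvable_of_comm
  intro a b
  apply Subtype.ext
  obtain ⟨i, hi⟩ := mem_zpowers_iff.1 (hcomm a.2)
  obtain ⟨j, hj⟩ := mem_zpowers_iff.1 (hcomm b.2)
  show (a : G) * b = b * a
  rw [← hi, ← hj, ← zpow_add, ← zpow_add, add_comm]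

/-- The case `O₂(G) ≠ 1`. -/
theorem caseA (Q : Subgroup G) (hQ : IsLargeExtraspecial Q) (z : G)
    (hz : ((center ↥Q).map Q.subtype) = zpowers z) (hO2 : pCore 2 G ≠ ⊥) :
    IsMulCommutative ↥(normalClosure ({z} : Set G)) ∧
      generalizedFittingSubgroup G = pCore 2 G := by
  obtain ⟨hz1, hzz, hzQ, hCQ, -, -, hN⟩ := basic Q hQ z hz
  have hp2 : Fact (Nat.Prime 2) := ⟨Nat.prime_two⟩
  have hpQ : IsPGroup 2 ↥Q := hQ.1.1.1
  have hfit : fittingSubgroup G = pCore 2 G :=
    Cfsg.Agent.H1.fitting_eq_pCore_of_pPrimeCore_eq_bot 2 (pPrimeCore_eq_bot Q hQ)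
  have hNn : (pCore 2 G).Normal := Cfsg.Agent.H1.pCore_normal 2
  have hNp : IsPGroup 2 ↥(pCore 2 G) := Cfsg.Agent.H60.isPGroup_pCore 2
  have hTp : IsPGroup 2 ↥(Q ⊔ pCore 2 G) := hpQ.to_sup_of_normal_right hNp
  have hzN : z ∈ pCore 2 G ∧ z ∈ centralizer ((pCore 2 G : Subgroup G) : Set G) := by
    have hNT : pCore 2 G ≤ Q ⊔ pCore 2 G := le_sup_right
    have hQT : Q ≤ Q ⊔ pCore 2 G := le_sup_left
    have hnorm : ((pCore 2 G).subgroupOf (Q ⊔ pCore 2 G)).Normal := hNn.subgroupOf _
    have hne : (pCore 2 G).subgroupOf (Q ⊔ pCore 2 G) ≠ ⊥ := by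
      intro h
      apply hO2
      rw [eq_bot_iff]
      intro x hx
      have : (⟨x, hNT hx⟩ : ↥(Q ⊔ pCore 2 G)) ∈ (pCore 2 G).subgroupOf (Q ⊔ pCore 2 G) := hx
      rw [h, mem_bot] at this
      rw [mem_bot]
      exact congrArg Subtype.val this
    obtain ⟨c, hcN, hcc, hc1⟩ := Cfsg.Agent.H38.exists_mem_center_of_normal_ne_bot hTp
      ((pCore 2 G).subgroupOf (Q ⊔ pCore 2 G)) hne
    have hcQ : (c : G) ∈ centralizer (Q : Set G) := by
      rw [mem_centralizer_iff]
      intro q hq
      have := mem_center_iff.1 hcc ⟨q, hQT hq⟩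
      exact congrArg Subtype.val this
    rw [hCQ] at hcQ
    have hcz : (c : G) = z := by
      rcases mem_zpowers_cases hzz hcQ with h | h
      · exact absurd (Subtype.ext h) hc1
      · exact h
    have hcN' : (c : G) ∈ pCore 2 G := hcN
    refine ⟨hcz ▸ hcN', ?_⟩
    rw [mem_centralizer_iff]
    intro n hn
    have := mem_center_iff.1 hcc ⟨n, hNT hn⟩
    rw [← hcz]
    exact congrArg Subtype.val this
  constructor
  · have hle : normalClosure ({z} : Set G) ≤
        pCore 2 G ⊓ centralizer ((pCore 2 G : Subgroup G) : Set G) := by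
      apply normalClosure_le_normal
      rw [Set.singleton_subset_iff]
      exact mem_inf.2 hzN
    refine ⟨⟨fun a b => ?_⟩⟩
    apply Subtype.ext
    have ha := mem_inf.1 (hle a.2)
    have hb := mem_inf.1 (hle b.2)
    exact (mem_centralizer_iff.1 hb.2 a ha.1)
  · have hlay : layer G = ⊥ := by
      unfold layer
      rw [sSup_eq_bot]
      intro L hL
      exfalso
      apply not_le_centralizer Q hQ z hz hL
      have h1 : ⁅layer G, fittingSubgroup G⁆ = ⊥ := Cfsg.Agent.H27.layer_comm_fitting
      rw [commutator_eq_bot_iff_le_centralizer, hfit] at h1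
      intro x hx
      have h2 := h1 (Cfsg.Agent.H27.isComponent_le_layer hL hx)
      rw [mem_centralizer_singleton_iff]
      exact (mem_centralizer_iff.1 h2 z hzN.1).symm
    unfold generalizedFittingSubgroup
    rw [hlay, bot_sup_eq, hfit]

/-- The case `O₂(G) = 1`. -/
theorem caseB (Q : Subgroup G) (hQ : IsLargeExtraspecial Q) (z : G)
    (hz : ((center ↥Q).map Q.subtype) = zpowers z) (hO2 : pCore 2 G = ⊥) :
    Hyp Q z {K : Subgroup G | IsComponent K} ∧
    (∃ L ∈ {K : Subgroup G | IsComponent K},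
      ¬ 2 ∣ (centralizer ({z} : Set G)).relIndex L) ∧
    normalClosure ({z} : Set G) = layer G ∧ generalizedFittingSubgroup G = layer G ∧
    (∀ L : Subgroup G, IsComponent L → IsSimpleGroup ↥L ∧ ¬ IsMulCommutative ↥L) := by
  obtain ⟨hz1, hzz, hzQ, hCQ, hsq, hcomm, hN⟩ := basic Q hQ z hz
  have hp2 : Fact (Nat.Prime 2) := ⟨Nat.prime_two⟩
  have hpQ : IsPGroup 2 ↥Q := hQ.1.1.1
  have hodd := hQ.2.2.2
  have hfit : fittingSubgroup G = ⊥ := by
    rw [Cfsg.Agent.H1.fitting_eq_pCore_of_pPrimeCore_eq_bot 2 (pPrimeCore_eq_bot Q hQ), hO2]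
  have hgf : generalizedFittingSubgroup G = layer G := by
    unfold generalizedFittingSubgroup
    rw [hfit, sup_bot_eq]
  have hEn : (layer G).Normal := Cfsg.Agent.H27.layer_normal G
  have hzc : z ∈ centralizer (Q : Set G) := hCQ ▸ mem_zpowers z
  have hCQc : ∀ g ∈ centralizer (Q : Set G), g = 1 ∨ g = z := fun g hg =>
    mem_zpowers_cases hzz (hCQ ▸ hg)
  -- (B1) centres of components are trivial
  have hZ : ∀ L : Subgroup G, IsComponent L → ∀ x ∈ L, x ∈ centralizer (L : Set G) → x = 1 := by
    intro L hL x hx hxc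
    have h1 := Cfsg.Agent.H27.center_component_le hL (mem_inf.2 ⟨hx, hxc⟩)
    have hAn : (layer G ⊓ centralizer (layer G : Set G)).Normal := inferInstance
    have hnil : Group.IsNilpotent ↥(layer G ⊓ centralizer (layer G : Set G)) := by
      apply Cfsg.Agent.H27.nilpotent_of_commutator_central
      intro y hy a ha
      have hy' := Cfsg.Agent.H27.commutator_self_le _ hy
      exact (mem_centralizer_iff.1 (mem_inf.1 hy').2 a (mem_inf.1 ha).1)
    have h2 := Cfsg.Agent.H27.le_fitting_of_subnormal_nilpotent hAn.isSubnormal hnil h1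
    rw [hfit, mem_bot] at h2
    exact h2
  -- (B2) components are simple and non-abelian
  have hsimp : ∀ L : Subgroup G, IsComponent L → IsSimpleGroup ↥L ∧ ¬ IsMulCommutative ↥L := by
    intro L hL
    have hcen : center ↥L = ⊥ := by
      rw [eq_bot_iff]
      intro c hc
      rw [mem_bot]
      apply Subtype.ext
      apply hZ L hL c c.2
      rw [mem_centralizer_iff]
      intro h hh
      have := mem_center_iff.1 hc ⟨h, hh⟩
      exact congrArg Subtype.val this
    constructor
    · have hs : IsSimpleGroup (↥L ⧸ center ↥L) := hL.2.2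
      have hinj : Function.Injective (QuotientGroup.mk' (center ↥L)) := by
        rw [injective_iff_map_eq_one]
        intro x hx
        have : x ∈ center ↥L := (QuotientGroup.eq_one_iff x).1 hx
        rw [hcen, mem_bot] at this
        exact this
      exact (MulEquiv.ofBijective (QuotientGroup.mk' (center ↥L))
        ⟨hinj, QuotientGroup.mk'_surjective _⟩).isSimpleGroup
    · intro hc
      apply Cfsg.Agent.H27.isComponent_not_solvable hL
      exact Group.isSolvable_of_comm (fun a b => mul_comm' a b)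
  -- (B3) no self-centralizing involutions
  have hsc : ∀ L : Subgroup G, IsComponent L → ∀ a ∈ L, a ≠ 1 → a * a = 1 →
      ∃ x ∈ L, x ∈ centralizer ({a} : Set G) ∧ x ≠ 1 ∧ x ≠ a := by
    intro L hL a ha ha1 haa
    obtain ⟨hs, hnc⟩ := hsimp L hL
    obtain ⟨x, hx, hx1, hxa⟩ := exists_comm_of_simple (L := ↥L) (fun h => hnc ⟨⟨h⟩⟩) ⟨a, ha⟩
      (fun h => ha1 (congrArg Subtype.val h)) (Subtype.ext haa)
    exact ⟨x, x.2, mem_centralizer_singleton_iff.2 (congrArg Subtype.val hx),
      fun h => hx1 (Subtype.ext h), fun h => hxa (Subtype.ext h)⟩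
  -- (B4) `z` lies in the layer
  have hzE : z ∈ layer G := by
    by_contra hzE
    have hQE : ∀ q ∈ Q, q ∈ layer G → q = 1 := by
      intro q hq hqE
      by_contra hq1
      by_cases hqc : q ∈ centralizer (Q : Set G)
      · rcases hCQc q hqc with h | h
        · exact hq1 h
        · exact hzE (h ▸ hqE)
      · rw [mem_centralizer_iff] at hqc
        push Not at hqc
        obtain ⟨b, hb, hbq⟩ := hqc
        rcases hcomm q hq b hb with h1 | h1
        · apply hbq
          have : q * b = b * q := by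
            calc q * b = (q * b * q⁻¹ * b⁻¹) * (b * q) := by group
              _ = b * q := by rw [h1, one_mul]
          exact this.symm
        · apply hzE
          have hbE : b * q⁻¹ * b⁻¹ ∈ layer G := hEn.conj_mem _ (Subgroup.inv_mem _ hqE) b
          have : z = q * (b * q⁻¹ * b⁻¹) := by rw [← h1]; group
          rw [this]; exact Subgroup.mul_mem _ hqE hbE
    have hCE : ∀ e ∈ layer G, e ∈ centralizer ({z} : Set G) → e = 1 := by
      intro e he hez
      have hec : e ∈ centralizer (Q : Set G) := by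
        rw [mem_centralizer_iff]
        intro q hq
        have h1 : e * q * e⁻¹ * q⁻¹ ∈ Q := Q.mul_mem (hN e hez q hq) (Q.inv_mem hq)
        have h2 : e * q * e⁻¹ * q⁻¹ ∈ layer G := by
          have e' : e * q * e⁻¹ * q⁻¹ = e * (q * e⁻¹ * q⁻¹) := by group
          rw [e']
          exact Subgroup.mul_mem _ he (hEn.conj_mem _ (Subgroup.inv_mem _ he) q)
        have h3 := hQE _ h1 h2
        calc q * e = (e * q * e⁻¹ * q⁻¹)⁻¹ * (e * q) := by group
          _ = e * q := by rw [h3, inv_one, one_mul]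
      rcases hCQc e hec with h | h
      · exact h
      · exact absurd (h ▸ he) hzE
    have hzi : z⁻¹ = z := inv_eq_of_mul_eq_one_left hzz
    have hτ : ∀ k : ↥(layer G),
        (((MulAut.conjNormal z : MulAut ↥(layer G)).toMonoidHom k : ↥(layer G)) : G)
          = z * k * z⁻¹ := fun k => MulAut.conjNormal_apply z k
    have hoddE : ¬ 2 ∣ Nat.card ↥(layer G) := by
      apply Cfsg.Agent.H67.fpf_involution_odd_card
        ((MulAut.conjNormal z : MulAut ↥(layer G)).toMonoidHom)
      · intro k
        apply Subtype.ext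
        rw [hτ, hτ, hzi]
        calc z * (z * (k : G) * z) * z = (z * z) * k * (z * z) := by group
          _ = k := by rw [hzz, one_mul, mul_one]
      · intro k hk
        apply Subtype.ext
        apply hCE k k.2
        rw [mem_centralizer_singleton_iff]
        have h1 : z * (k : G) * z⁻¹ = k := by
          have := congrArg Subtype.val hk
          rwa [hτ] at this
        calc (k : G) * z = (z * k * z⁻¹) * z := by rw [h1]
          _ = z * k := by group
    have hEbot : layer G = ⊥ := by
      apply hodd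
      · exact Nat.odd_iff.2 (Nat.two_dvd_ne_zero.1 hoddE)
      · rw [normalizer_eq_top]; exact le_top
    have h1 := Cfsg.Agent.H27.centralizer_genFitting_le (G := G)
    rw [hgf, hEbot] at h1
    have h2 : z ∈ centralizer (((⊥ : Subgroup G) : Subgroup G) : Set G) := by
      rw [mem_centralizer_iff]
      intro h hh
      rw [SetLike.mem_coe, mem_bot] at hh
      rw [hh]; simp
    exact hz1 (mem_bot.1 (h1 h2))
  -- (B5) the normal closure of `z` is the layer
  have hnc : ∀ L : Subgroup G, IsComponent L → ¬ L ≤ centralizer ({z} : Set G) :=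
    fun L hL => not_le_centralizer Q hQ z hz hL
  have hME : normalClosure ({z} : Set G) = layer G := by
    apply le_antisymm
    · apply normalClosure_le_normal
      rw [Set.singleton_subset_iff]; exact hzE
    · unfold layer
      apply sSup_le
      intro L hL
      have hMn : (normalClosure ({z} : Set G)).Normal := normalClosure_normal
      rcases Cfsg.Agent.H27.component_normal_le_or_comm L (normalClosure ({z} : Set G)) hL
        with h | h
      · exact h
      · exfalso
        apply hnc L hL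
        rw [commutator_eq_bot_iff_le_centralizer] at h
        exact h.trans (centralizer_le subset_normalClosure)
  -- (B6) the Sylow condition
  have hSyl : ∃ L ∈ {K : Subgroup G | IsComponent K},
      ¬ 2 ∣ (centralizer ({z} : Set G)).relIndex L := by
    obtain ⟨S, hQS⟩ := hpQ.exists_le_sylow
    have hSz : (S : Subgroup G) ≤ centralizer ({z} : Set G) := by
      have hzS : z ∈ (S : Subgroup G) := hQS hzQ
      have hnt : Nontrivial (S : Subgroup G) :=
        ⟨⟨⟨z, hzS⟩, 1, fun h => hz1 (congrArg Subtype.val h)⟩⟩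
      have hcen : Nontrivial (center (S : Subgroup G)) :=
        IsPGroup.center_nontrivial S.isPGroup'
      obtain ⟨⟨c, hcS⟩, hc1⟩ := exists_ne (1 : center (S : Subgroup G))
      have hc1' : (c : G) ≠ 1 := by
        intro h
        apply hc1
        apply Subtype.ext
        apply Subtype.ext
        exact h
      have hcQ : (c : G) ∈ centralizer (Q : Set G) := by
        rw [mem_centralizer_iff]
        intro q hq
        have := mem_center_iff.1 hcS ⟨q, hQS hq⟩
        exact congrArg Subtype.val this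
      have hcz : (c : G) = z := (hCQc _ hcQ).resolve_left hc1'
      intro s hs
      rw [mem_centralizer_singleton_iff, ← hcz]
      have := mem_center_iff.1 hcS ⟨s, hs⟩
      exact congrArg Subtype.val this
    obtain ⟨L₀, hL₀⟩ : ∃ L₀ : Subgroup G, IsComponent L₀ := by
      by_contra hcon
      push Not at hcon
      apply hz1
      have : layer G = ⊥ := by
        unfold layer
        rw [sSup_eq_bot]
        intro L hL
        exact absurd hL (hcon L)
      rw [this, mem_bot] at hzE
      exact hzE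
    obtain ⟨P, hP⟩ := Sylow.exists_comap_subtype_eq (Classical.arbitrary (Sylow 2 ↥L₀))
    obtain ⟨g, hg⟩ := MulAction.exists_smul_eq G P S
    have hSP : (S : Subgroup G) = (P : Subgroup G).map (MulAut.conj g).toMonoidHom := by
      rw [← hg]
      rfl
    refine ⟨cj g L₀, Cfsg.Agent.H27.isComponent_map_equiv (MulAut.conj g) hL₀, ?_⟩
    intro hdvd
    have h1 : (S : Subgroup G).relIndex (cj g L₀) = (P : Subgroup G).relIndex L₀ := by
      rw [hSP]
      exact relIndex_map_map_of_injective _ _ (MulAut.conj g).injective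
    have h2 : (P : Subgroup G).relIndex L₀
        = ((Classical.arbitrary (Sylow 2 ↥L₀) : Sylow 2 ↥L₀) : Subgroup ↥L₀).index := by
      rw [← hP]; rfl
    have h3 := relIndex_dvd_of_le_left (cj g L₀) hSz
    rw [h1, h2] at h3
    exact (Sylow.not_dvd_index _) (hdvd.trans h3)
  refine ⟨?_, hSyl, hME, hgf, hsimp⟩
  exact {
    z1 := hz1
    zz := hzz
    zQ := hzQ
    zc := hzc
    CQ := hCQc
    sq := hsq
    comm := hcomm
    N := hN
    conj := fun L hL u _ => Cfsg.Agent.H27.isComponent_map_equiv (MulAut.conj u) hL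
    Z := hZ
    sc := hsc
    commL := fun L hL L' hL' hne => by
      have := Cfsg.Agent.H27.components_commute hL' hL (Ne.symm hne)
      rwa [commutator_eq_bot_iff_le_centralizer] at this
    zE := hzE
    nc := hnc }

end Cfsg.Agent.H56.LES
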