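import Mathlib
import Cfsg.Agent.S0944
import Cfsg.Agent.H21.ResidueTrick

set_option autoImplicit false

/-!
S1022-CT (piece of helper21's order 459648 project): the lower bound `649 ≤ |C_G(t)|` from
column orthogonality.
-/

namespace Cfsg.Agent.H56.O459

open Cfsg
open scoped ComplexConjugate

/-- an irreducible character of degree 18, 56 or 96 with the `L38` congruence has
`|χ(t)|² ≥ 324` -/
theorem normSq_ge {G : Type*} [Group G] [Finite G] [IsSimpleGroup G] (χ : IrrCharacter G)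
    (ε : ℤ)
    (hd : charDegree (χ : G → ℂ) = 18 ∨ charDegree (χ : G → ℂ) = 56 ∨
      charDegree (χ : G → ℂ) = 96)
    (x t : G) (ht : orderOf t = 2)
    (h1 : ∀ i : ℕ, ¬ 19 ∣ i → (χ : G → ℂ) (x ^ i) = ε ∧ (χ : G → ℂ) (x ^ i * t) = ε)
    (hL38 : ∀ (ψ : G → ℂ), IsCharacter G ψ → ∀ (n : ℕ), ψ 1 = n → ∀ (a c : ℤ), ψ t = a →
      (∀ i : ℕ, ¬ 19 ∣ i → ψ (x ^ i) = c) → (∀ i : ℕ, ¬ 19 ∣ i → ψ (x ^ i * t) = c) →
      (2 * ((19 : ℕ) : ℤ)) ∣ (n : ℤ) - a) :
    (324 : ℝ) ≤ Complex.normSq ((χ : G → ℂ) t) := by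
  obtain ⟨hdeg, hpos⟩ := Cfsg.Agent.H81.irr_charDegree χ
  obtain ⟨a, ha, -⟩ := Cfsg.Agent.S0944.result χ t ht
  have hchar : IsCharacter G (χ : G → ℂ) := Cfsg.Agent.H4.isCharacter_of_isIrrCharacter χ.2
  have hdvd := hL38 (χ : G → ℂ) hchar (charDegree (χ : G → ℂ)) hdeg a ε ha
    (fun i hi => (h1 i hi).1) (fun i hi => (h1 i hi).2)
  have ht1 : t ≠ 1 := by
    intro h
    rw [h, orderOf_one] at ht
    omega
  have hne1 : (χ : G → ℂ) 1 ≠ 1 := by
    rw [hdeg]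
    intro h
    have h' : charDegree (χ : G → ℂ) = 1 := by exact_mod_cast h
    omega
  have hne := Cfsg.Agent.H21.ResidueTrick.irr_apply_ne_degree χ hne1 t ht1
  have hane : a ≠ (charDegree (χ : G → ℂ) : ℤ) := by
    intro h
    apply hne
    rw [ha, hdeg, h]
    norm_cast
  obtain ⟨k, hk⟩ := hdvd
  have hbound : 18 ≤ a ∨ a ≤ -18 := by
    rcases hd with h | h | h <;> rw [h] at hk hane <;> push_cast at hk hane <;> omega
  rw [ha, Complex.normSq_intCast]
  rcases hbound with h | h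
  · have h' : (18 : ℝ) ≤ a := by exact_mod_cast h
    nlinarith
  · have h' : (a : ℝ) ≤ -18 := by exact_mod_cast h
    nlinarith

/-- S1022-CT -/
theorem card_centralizer_ge {G : Type*} [Group G] [Finite G] [IsSimpleGroup G]
    (hna : ∃ u v : G, u * v ≠ v * u) (χ χ' : IrrCharacter G) (ε ε' : ℤ) (hne : χ ≠ χ')
    (hd : charDegree (χ : G → ℂ) = 18 ∨ charDegree (χ : G → ℂ) = 56 ∨
      charDegree (χ : G → ℂ) = 96)
    (hd' : charDegree (χ' : G → ℂ) = 18 ∨ charDegree (χ' : G → ℂ) = 56 ∨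
      charDegree (χ' : G → ℂ) = 96)
    (x t : G) (hx : orderOf x = 19) (ht : orderOf t = 2) (hxt : x * t = t * x)
    (h1 : ∀ i : ℕ, ¬ 19 ∣ i → (χ : G → ℂ) (x ^ i) = ε ∧ (χ : G → ℂ) (x ^ i * t) = ε)
    (h1' : ∀ i : ℕ, ¬ 19 ∣ i → (χ' : G → ℂ) (x ^ i) = ε' ∧ (χ' : G → ℂ) (x ^ i * t) = ε')
    (hL38 : ∀ (ψ : G → ℂ), IsCharacter G ψ → ∀ (n : ℕ), ψ 1 = n → ∀ (a c : ℤ), ψ t = a →
      (∀ i : ℕ, ¬ 19 ∣ i → ψ (x ^ i) = c) → (∀ i : ℕ, ¬ 19 ∣ i → ψ (x ^ i * t) = c) →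
      (2 * ((19 : ℕ) : ℤ)) ∣ (n : ℤ) - a) :
    649 ≤ Nat.card (Subgroup.centralizer ({t} : Set G)) := by
  classical
  have hfin : Fintype G := Fintype.ofFinite G
  letI := Cfsg.Agent.H4.fintypeIrr G
  have hcol := Cfsg.Agent.H4.column_orthogonality (G := G) t t
  rw [Cfsg.Agent.H4.finsum_irr_eq_sum] at hcol
  have hcard : Nat.card {c : G // c * t * c⁻¹ = t} =
      Nat.card (Subgroup.centralizer ({t} : Set G)) := by
    apply Nat.card_congr
    refine Equiv.subtypeEquivRight ?_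
    intro c
    rw [Subgroup.mem_centralizer_singleton_iff]
    exact mul_inv_eq_iff_eq_mul
  have hre : ∑ ψ : IrrCharacter G, Complex.normSq ((ψ : G → ℂ) t) =
      (Nat.card (Subgroup.centralizer ({t} : Set G)) : ℝ) := by
    have h := congrArg Complex.re hcol
    rw [Complex.re_sum] at h
    simp only [Complex.mul_conj, Complex.ofReal_re, Complex.natCast_re] at h
    rw [h, hcard]
  -- the trivial character
  let τ : IrrCharacter G := ⟨fun _ => 1, Cfsg.Agent.H4.isIrrCharacter_one⟩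
  have hτ : ∀ ψ : IrrCharacter G, (charDegree (ψ : G → ℂ) = 18 ∨ charDegree (ψ : G → ℂ) = 56 ∨
      charDegree (ψ : G → ℂ) = 96) → ψ ≠ τ := by
    intro ψ hψ h
    have h2 := (Cfsg.Agent.H81.irr_charDegree ψ).1
    rw [h] at h2
    have h3 : (1 : ℂ) = (charDegree (τ : G → ℂ) : ℂ) := h2
    have h4 : charDegree (τ : G → ℂ) = 1 := by exact_mod_cast h3.symm
    rw [h] at hψ
    omega
  have hχτ := hτ χ hd
  have hχ'τ := hτ χ' hd'
  have hsub : ({τ, χ, χ'} : Finset (IrrCharacter G)) ⊆ Finset.univ := Finset.subset_univ _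
  have hle := Finset.sum_le_sum_of_subset_of_nonneg
    (f := fun ψ : IrrCharacter G => Complex.normSq ((ψ : G → ℂ) t)) hsub
    (fun ψ _ _ => Complex.normSq_nonneg _)
  have hsum3 : ∑ ψ ∈ ({τ, χ, χ'} : Finset (IrrCharacter G)), Complex.normSq ((ψ : G → ℂ) t) =
      1 + Complex.normSq ((χ : G → ℂ) t) + Complex.normSq ((χ' : G → ℂ) t) := by
    rw [Finset.sum_insert (by
        simp only [Finset.mem_insert, Finset.mem_singleton, not_or]
        exact ⟨fun h => hχτ h.symm, fun h => hχ'τ h.symm⟩),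
      Finset.sum_insert (by
        simp only [Finset.mem_singleton]
        exact hne), Finset.sum_singleton]
    have h1τ : Complex.normSq ((τ : G → ℂ) t) = 1 := by
      show Complex.normSq (1 : ℂ) = 1
      simp
    rw [h1τ]
    ring
  have hb := normSq_ge χ ε hd x t ht h1 hL38
  have hb' := normSq_ge χ' ε' hd' x t ht h1' hL38
  have hfinal : (649 : ℝ) ≤ (Nat.card (Subgroup.centralizer ({t} : Set G)) : ℝ) := by
    rw [← hre]
    rw [hsum3] at hle
    linarith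
  exact_mod_cast hfinal

end Cfsg.Agent.H56.O459
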