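import Cfsg.Agent.H56.OGExGraph
import Cfsg.Agent.H22.GraphExData
import Cfsg.Agent.H46.OutGF4Defs
import Cfsg.Agent.H46.StMain
import Cfsg.Agent.H46.StDataF4

/-!
# S2122 (project OG, helper46): the exceptional graph automorphism of `F₄(q)`, `q` a power of `2`, as an
element of `autS` (helper56)

Closure: the generic engine + the `F4` tables only (Steinberg's presentation for `F4` is taken from
`Cfsg.Agent.H46.steinberg_ker_center` with the `F4` pack, not from the all-types statement).
-/

set_option autoImplicit false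

namespace Cfsg.Agent.H56.OGEx

open Cfsg.Lie Cfsg.Agent.H23 Cfsg.Agent.H23.Stb Cfsg.Agent.H46.OutE Cfsg.Agent.H46.OutG
open Cfsg.Agent.H22.GEx

universe u

/-- The commutator formula of type `F4` in matrix form. -/
theorem commMatF4 (F : Type u) [Field F] : Cfsg.Agent.H46.CommMat chevF4 F := by
  intro r s hr hs h1 h2 t u
  have h := congrArg (fun g : GL chevF4.Idx F => (g : Matrix chevF4.Idx chevF4.Idx F))
    (commF4 F r s hr hs h1 h2 t u)
  simpa only [Units.val_mul, xU_val, wordU_val] using h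

/-- Steinberg's theorem for `F4`, from the `F4` tables only. -/
theorem thetaF4 (F : Type u) [Field F] :
    ∃ θ : chevF4.SteinbergGroup F →* ↥(chevF4.group F), Function.Surjective θ ∧
      θ.ker = Subgroup.center (chevF4.SteinbergGroup F) ∧
      ∀ (r : ℕ) (t : F), r < chevF4.nroots →
        ((θ (chevF4.stGen F r t) : GL chevF4.Idx F) : Matrix chevF4.Idx chevF4.Idx F) = chevF4.x F r t :=
  Cfsg.Agent.H46.steinberg_ker_center (Cfsg.Agent.H46.stChkF4.tab tab_F4) (packB_F4 F) (packS_F4 F).hV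
    (packS_F4 F).hW (commMatF4 F)

theorem posF4 : ∀ r < 48, chevF4.IsPosRoot r → chevF4.IsPosRoot (rhoF4 r) := by decide +kernel

theorem negF4 : ∀ r < 48, chevF4.IsNegRoot r → chevF4.IsNegRoot (rhoF4 r) := by decide +kernel

theorem lamF4_cases : ∀ r < 48, lamF4 r = 1 ∨ lamF4 r = 2 := by decide +kernel

/-- The node flip of `F4`. -/
def sigF4 (i : ℕ) : ℕ := 3 - i

theorem simpF4 : ∀ i < 4, chevF4.simple i < 48 ∧ chevF4.neg (chevF4.simple i) < 48 ∧
    rhoF4 (chevF4.simple i) = chevF4.simple (sigF4 i) ∧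
    rhoF4 (chevF4.neg (chevF4.simple i)) = chevF4.neg (chevF4.simple (sigF4 i)) := by decide +kernel

/-- **The exceptional graph automorphism of `F₄(2^f)`** as an element of `autS`: it maps every root subgroup
`X_r` onto `X_{rhoF4 r}`, in particular the root subgroups of `±α_i` onto those of `±α_{3-i}`. -/
theorem exGraphF4 (F : Type u) [Field F] [Finite F] [CharP F 2] :
    ∃ γ : MulAut ↥(chevF4.group F), γ ∈ autS chevF4 F ∧
      (∀ i < chevF4.rank, RootTo (packS_F4 F).hP.sem γ (chevF4.simple i) (chevF4.simple (sigF4 i)) ∧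
        RootTo (packS_F4 F).hP.sem γ (chevF4.neg (chevF4.simple i))
          (chevF4.neg (chevF4.simple (sigF4 i)))) ∧
      (∀ r < chevF4.nroots, RootTo (packS_F4 F).hP.sem γ r (rhoF4 r)) ∧
      ∀ r < chevF4.nroots, ∀ t : F,
        γ (xG (packS_F4 F).hP.sem r t) = xG (packS_F4 F).hP.sem (rhoF4 r) (t ^ lamF4 r) := by
  obtain ⟨γ, h1, h2, h3⟩ := exGraph (packS_F4 F).hP.sem rhoF4 lamF4 2 chk_F4 chk2_F4
    (fun r hr => posF4 r hr.1 hr) (fun r hr => negF4 r hr.1 hr) lamF4_cases (thetaF4 F)
  refine ⟨γ, h1, fun i hi => ?_, h2, h3⟩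
  obtain ⟨a, b, c, d⟩ := simpF4 i hi
  constructor
  · have := h2 _ a
    rwa [c] at this
  · have := h2 _ b
    rwa [d] at this

/-- The flip is an involution of the nodes. -/
theorem sigF4_lt : ∀ i < chevF4.rank, sigF4 i < chevF4.rank := by decide +kernel

theorem sigF4_sig : ∀ i < chevF4.rank, sigF4 (sigF4 i) = i := by decide +kernel

end Cfsg.Agent.H56.OGEx

#print axioms Cfsg.Agent.H56.OGEx.exGraphF4
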