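import Cfsg.Agent.H56.OGExGraph
import Cfsg.Agent.H22.GraphExData
import Cfsg.Agent.H46.OutGG2Defs
import Cfsg.Agent.H46.StMain
import Cfsg.Agent.H46.StDataG2

/-!
# S2121 (project OG, helper46): the exceptional graph automorphism of `G₂(q)`, `q` a power of `3`, as an
element of `autS` (helper56)

Closure: the generic engine + the `G2` tables only (Steinberg's presentation for `G2` is taken from
`Cfsg.Agent.H46.steinberg_ker_center` with the `G2` pack, not from the all-types statement).
-/

set_option autoImplicit false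

namespace Cfsg.Agent.H56.OGEx

open Cfsg.Lie Cfsg.Agent.H23 Cfsg.Agent.H23.Stb Cfsg.Agent.H46.OutE Cfsg.Agent.H46.OutG
open Cfsg.Agent.H22.GEx

universe u

/-- The commutator formula of type `G2` in matrix form. -/
theorem commMatG2 (F : Type u) [Field F] : Cfsg.Agent.H46.CommMat chevG2 F := by
  intro r s hr hs h1 h2 t u
  have h := congrArg (fun g : GL chevG2.Idx F => (g : Matrix chevG2.Idx chevG2.Idx F))
    (commG2 F r s hr hs h1 h2 t u)
  simpa only [Units.val_mul, xU_val, wordU_val] using h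

/-- Steinberg's theorem for `G2`, from the `G2` tables only. -/
theorem thetaG2 (F : Type u) [Field F] :
    ∃ θ : chevG2.SteinbergGroup F →* ↥(chevG2.group F), Function.Surjective θ ∧
      θ.ker = Subgroup.center (chevG2.SteinbergGroup F) ∧
      ∀ (r : ℕ) (t : F), r < chevG2.nroots →
        ((θ (chevG2.stGen F r t) : GL chevG2.Idx F) : Matrix chevG2.Idx chevG2.Idx F) = chevG2.x F r t :=
  Cfsg.Agent.H46.steinberg_ker_center (Cfsg.Agent.H46.stChkG2.tab tab_G2) (packB_G2 F) (packS_G2 F).hV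
    (packS_G2 F).hW (commMatG2 F)

theorem posG2 : ∀ r < 12, chevG2.IsPosRoot r → chevG2.IsPosRoot (rhoG2 r) := by decide +kernel

theorem negG2 : ∀ r < 12, chevG2.IsNegRoot r → chevG2.IsNegRoot (rhoG2 r) := by decide +kernel

theorem lamG2_cases : ∀ r < 12, lamG2 r = 1 ∨ lamG2 r = 3 := by decide +kernel

/-- The node flip of `G2`. -/
def sigG2 (i : ℕ) : ℕ := 1 - i

theorem simpG2 : ∀ i < 2, chevG2.simple i < 12 ∧ chevG2.neg (chevG2.simple i) < 12 ∧
    rhoG2 (chevG2.simple i) = chevG2.simple (sigG2 i) ∧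
    rhoG2 (chevG2.neg (chevG2.simple i)) = chevG2.neg (chevG2.simple (sigG2 i)) := by decide +kernel

/-- **The exceptional graph automorphism of `G₂(3^f)`** as an element of `autS`: it maps every root subgroup
`X_r` onto `X_{rhoG2 r}`, in particular the root subgroups of `±α_i` onto those of `±α_{1-i}`. -/
theorem exGraphG2 (F : Type u) [Field F] [Finite F] [CharP F 3] :
    ∃ γ : MulAut ↥(chevG2.group F), γ ∈ autS chevG2 F ∧
      (∀ i < chevG2.rank, RootTo (packS_G2 F).hP.sem γ (chevG2.simple i) (chevG2.simple (sigG2 i)) ∧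
        RootTo (packS_G2 F).hP.sem γ (chevG2.neg (chevG2.simple i))
          (chevG2.neg (chevG2.simple (sigG2 i)))) ∧
      (∀ r < chevG2.nroots, RootTo (packS_G2 F).hP.sem γ r (rhoG2 r)) ∧
      ∀ r < chevG2.nroots, ∀ t : F,
        γ (xG (packS_G2 F).hP.sem r t) = xG (packS_G2 F).hP.sem (rhoG2 r) (t ^ lamG2 r) := by
  obtain ⟨γ, h1, h2, h3⟩ := exGraph (packS_G2 F).hP.sem rhoG2 lamG2 3 chk_G2 chk2_G2
    (fun r hr => posG2 r hr.1 hr) (fun r hr => negG2 r hr.1 hr) lamG2_cases (thetaG2 F)
  refine ⟨γ, h1, fun i hi => ?_, h2, h3⟩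
  obtain ⟨a, b, c, d⟩ := simpG2 i hi
  constructor
  · have := h2 _ a
    rwa [c] at this
  · have := h2 _ b
    rwa [d] at this

/-- The flip is an involution of the nodes. -/
theorem sigG2_lt : ∀ i < chevG2.rank, sigG2 i < chevG2.rank := by decide +kernel

theorem sigG2_sig : ∀ i < chevG2.rank, sigG2 (sigG2 i) = i := by decide +kernel

end Cfsg.Agent.H56.OGEx

#print axioms Cfsg.Agent.H56.OGEx.exGraphG2
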