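import Cfsg.Agent.H46.OutGDefs
import Cfsg.Agent.H96.OGRoots
import Cfsg.Agent.H22.GraphExField

/-!
# S2121 / S2122 (project OG, helper46): the exceptional graph automorphism as an element of `autS`
(helper56)

Generic wrapper: an automorphism `α` with `α (x_r(t)) = x_{rho r}(t ^ lam r)` for every root `r`, where `rho`
maps positive roots to positive roots and negative roots to negative roots and every `lam r` is `1` or the
characteristic `p`, over a finite field, lies in `autS D F` and maps every root subgroup `X_r` onto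
`X_{rho r}`.  Together with `Cfsg.Agent.H22.GEx.main_of_theta` (existence of `α` from the table checks
`Chk` / `Chk2` and Steinberg's presentation) this gives the exceptional graph automorphisms of `G₂` (`p = 3`)
and `F₄` (`p = 2`) in the form used by the `autS` count.
-/

set_option autoImplicit false

namespace Cfsg.Agent.H56.OGEx

open Cfsg.Lie Cfsg.Agent.H23 Cfsg.Agent.H23.Stb Cfsg.Agent.H46.OutE Cfsg.Agent.H46.OutG

universe u

/-- The Frobenius map of a finite field of characteristic `p` is onto. -/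
theorem pow_char_surj (F : Type u) [Field F] [Finite F] (p : ℕ) [Fact p.Prime] [CharP F p] (x : F) :
    ∃ y : F, y ^ p = x := by
  have h := Finite.surjective_of_injective (frobenius_inj F p)
  obtain ⟨y, hy⟩ := h x
  exact ⟨y, hy⟩

/-- The action of `α` on the root elements, in the group. -/
theorem alpha_xG {D : ChevalleyDatum} {F : Type u} [Field F] {z : ℕ → ℕ → ℤ} (hS : Sem D F z)
    (rho lam : ℕ → ℕ) (α : ↥(D.group F) ≃* ↥(D.group F))
    (hα : ∀ (g : ↥(D.group F)) (r : ℕ) (t : F), r < D.nroots →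
      ((g : GL D.Idx F) : Matrix D.Idx D.Idx F) = D.x F r t →
      ((α g : GL D.Idx F) : Matrix D.Idx D.Idx F) = D.x F (rho r) (t ^ lam r))
    (r : ℕ) (hr : r < D.nroots) (t : F) :
    α (xG hS r t) = xG hS (rho r) (t ^ lam r) :=
  Subtype.ext (Units.ext (hα (xG hS r t) r t hr rfl))

/-- Generic wrapper: `α` maps each root subgroup `X_r` onto `X_{rho r}`. -/
theorem rootTo_of_alpha {D : ChevalleyDatum} {F : Type u} [Field F] [Finite F] {z : ℕ → ℕ → ℤ}
    (hS : Sem D F z) (rho lam : ℕ → ℕ) (p : ℕ) [Fact p.Prime] [CharP F p]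
    (α : ↥(D.group F) ≃* ↥(D.group F))
    (hα : ∀ (g : ↥(D.group F)) (r : ℕ) (t : F), r < D.nroots →
      ((g : GL D.Idx F) : Matrix D.Idx D.Idx F) = D.x F r t →
      ((α g : GL D.Idx F) : Matrix D.Idx D.Idx F) = D.x F (rho r) (t ^ lam r))
    (r : ℕ) (hr : r < D.nroots) (hlam : lam r = 1 ∨ lam r = p) :
    RootTo hS α r (rho r) := by
  refine ⟨fun t => ⟨t ^ lam r, alpha_xG hS rho lam α hα r hr t⟩, fun t' => ?_⟩
  rcases hlam with h1 | hp
  · refine ⟨t', ?_⟩
    rw [alpha_xG hS rho lam α hα r hr t', h1, pow_one]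
  · obtain ⟨y, hy⟩ := pow_char_surj F p t'
    refine ⟨y, ?_⟩
    rw [alpha_xG hS rho lam α hα r hr y, hp, hy]

/-- Generic wrapper: `α` preserves `U` and `V`. -/
theorem mem_autS_of_alpha {D : ChevalleyDatum} {F : Type u} [Field F] [Finite F] {z : ℕ → ℕ → ℤ}
    (hS : Sem D F z) (rho lam : ℕ → ℕ)
    (hpos : ∀ r, D.IsPosRoot r → D.IsPosRoot (rho r)) (hneg : ∀ r, D.IsNegRoot r → D.IsNegRoot (rho r))
    (α : ↥(D.group F) ≃* ↥(D.group F))
    (hα : ∀ (g : ↥(D.group F)) (r : ℕ) (t : F), r < D.nroots →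
      ((g : GL D.Idx F) : Matrix D.Idx D.Idx F) = D.x F r t →
      ((α g : GL D.Idx F) : Matrix D.Idx D.Idx F) = D.x F (rho r) (t ^ lam r)) :
    α ∈ autS D F :=
  Cfsg.Agent.H96.OutG.rootPres D F z hS α rho hpos hneg
    (fun r hr t => ⟨t ^ lam r, alpha_xG hS rho lam α hα r hr t⟩)

/-- The exceptional graph automorphism as an element of `autS`, from the table checks and Steinberg's
presentation: it maps every root subgroup `X_r` onto `X_{rho r}`. -/
theorem exGraph {D : ChevalleyDatum} {F : Type u} [Field F] [Finite F] {z : ℕ → ℕ → ℤ}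
    (hS : Sem D F z) (rho lam : ℕ → ℕ) (p : ℕ) [Fact p.Prime] [CharP F p]
    (h : Cfsg.Agent.H22.GEx.Chk D rho lam p) (h2 : Cfsg.Agent.H22.GEx.Chk2 D rho lam p)
    (hpos : ∀ r, D.IsPosRoot r → D.IsPosRoot (rho r)) (hneg : ∀ r, D.IsNegRoot r → D.IsNegRoot (rho r))
    (hlam : ∀ r < D.nroots, lam r = 1 ∨ lam r = p)
    (hθ : ∃ θ : D.SteinbergGroup F →* ↥(D.group F), Function.Surjective θ ∧
      θ.ker = Subgroup.center (D.SteinbergGroup F) ∧
      ∀ (r : ℕ) (t : F), r < D.nroots →
        ((θ (D.stGen F r t) : GL D.Idx F) : Matrix D.Idx D.Idx F) = D.x F r t) :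
    ∃ γ : MulAut ↥(D.group F), γ ∈ autS D F ∧
      (∀ r < D.nroots, RootTo hS γ r (rho r)) ∧
      ∀ r < D.nroots, ∀ t : F, γ (xG hS r t) = xG hS (rho r) (t ^ lam r) := by
  obtain ⟨α, hα⟩ := Cfsg.Agent.H22.GEx.main_of_theta D F rho lam p h h2 (pow_char_surj F p) hθ
  exact ⟨α, mem_autS_of_alpha hS rho lam hpos hneg α hα,
    fun r hr => rootTo_of_alpha hS rho lam p α hα r hr (hlam r hr),
    fun r hr t => alpha_xG hS rho lam α hα r hr t⟩

end Cfsg.Agent.H56.OGEx

#print axioms Cfsg.Agent.H56.OGEx.exGraph
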