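import Cfsg.Agent.H78.OdDefs

/-!
# S2608, half `m = 4` (helper78's project OD), piece OD-ABS (helper56)

Pure group theory: from `A = I · Dg · Φ(S₃) · Ψ(C)` to `A ⧸ I ≅ S₄ × C_f`.  In `Q = A ⧸ I` the image `V` of `Dg`
has order 4, the image `S` of `Φ` has order 6 and acts faithfully on `V`, so `N = V ⊔ S ≅ S₄` (`StS4`); every
element of `N` is `π(d) π(Φ ρ)`; the image of `Ψ` centralises `N`, meets it trivially and generates `Q` with it.
-/

set_option autoImplicit false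

namespace Cfsg.Agent.H56.Od

open Cfsg.Agent.H78.Od

universe u

/-- Four distinct elements `1, x, y, x y`. -/
theorem ncard_four {Q : Type u} [Group Q] (x y : Q) (hx : x ≠ 1) (hy : y ≠ 1) (hxy : x * y⁻¹ ≠ 1)
    (hyy : y * y = 1) : ({1, x, y, x * y} : Set Q).ncard = 4 := by
  have hyi : y⁻¹ = y := inv_eq_of_mul_eq_one_left hyy
  rw [hyi] at hxy
  have e3 : y ∉ ({x * y} : Set Q) := by
    simp only [Set.mem_singleton_iff]
    intro h
    exact hx (by simpa using h)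
  have e2 : x ∉ ({y, x * y} : Set Q) := by
    simp only [Set.mem_insert_iff, Set.mem_singleton_iff]
    rintro (h | h)
    · exact hxy (by rw [h]; exact hyy)
    · exact hy (by simpa using h)
  have e1 : (1 : Q) ∉ ({x, y, x * y} : Set Q) := by
    simp only [Set.mem_insert_iff, Set.mem_singleton_iff]
    rintro (h | h | h)
    · exact hx h.symm
    · exact hy h.symm
    · exact hxy h.symm
  rw [Set.ncard_insert_of_notMem e1, Set.ncard_insert_of_notMem e2, Set.ncard_insert_of_notMem e3,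
    Set.ncard_singleton]

/-- **OD-ABS**. -/
theorem abs (h : StS4.{u}) : StAbs.{u} := by
  intro A _ _ I _ C _ f Dg Φ Ψ hCyc hCard hf h1 hmul hinv hcomm hsq hfour hnorm hfaith hcent hcomm2
    htriv hdecomp
  subst hCard
  obtain ⟨a, ha, b, hb, haI, hbI, habI, hall⟩ := hfour
  obtain ⟨π, hπ1, hπs⟩ : ∃ π : A →* A ⧸ I, (∀ x : A, π x = 1 ↔ x ∈ I) ∧ Function.Surjective π :=
    ⟨QuotientGroup.mk' I, fun x => QuotientGroup.eq_one_iff x, QuotientGroup.mk'_surjective I⟩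
  -- the image of `Dg`
  obtain ⟨V, hVmem⟩ : ∃ V : Subgroup (A ⧸ I), ∀ q, q ∈ V ↔ ∃ d ∈ Dg, π d = q :=
    ⟨{ carrier := π '' Dg
       mul_mem' := by
         rintro _ _ ⟨d, hd, rfl⟩ ⟨d', hd', rfl⟩
         exact ⟨d * d', hmul d hd d' hd', map_mul π d d'⟩
       one_mem' := ⟨1, h1, map_one π⟩
       inv_mem' := by
         rintro _ ⟨d, hd, rfl⟩
         exact ⟨d⁻¹, hinv d hd, map_inv π d⟩ }, fun q => Iff.rfl⟩
  -- injectivity of `π ∘ Φ`
  have hΦinj : Function.Injective (π.comp Φ) := by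
    rw [injective_iff_map_eq_one]
    intro ρ hρ
    have hI : (1 : A) * Φ ρ * Ψ 1 ∈ I := by
      rw [one_mul, map_one, mul_one]; exact (hπ1 _).1 hρ
    exact (htriv 1 h1 ρ 1 hI).1
  -- the image of `Φ`
  obtain ⟨S, hSmem, hS6⟩ : ∃ S : Subgroup (A ⧸ I), (∀ q, q ∈ S ↔ ∃ ρ, π (Φ ρ) = q) ∧ Nat.card ↥S = 6 := by
    refine ⟨(π.comp Φ).range, fun q => Iff.rfl, ?_⟩
    rw [← Nat.card_congr (MonoidHom.ofInjective hΦinj).toEquiv, Nat.card_eq_fintype_card,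
      Fintype.card_perm, Fintype.card_fin]
    rfl
  have hV4 : Nat.card ↥V = 4 := by
    have hset : (V : Set (A ⧸ I)) = {1, π a, π b, π a * π b} := by
      ext q
      simp only [Set.mem_insert_iff, Set.mem_singleton_iff, SetLike.mem_coe]
      rw [hVmem]
      constructor
      · rintro ⟨d, hd, rfl⟩
        rcases hall d hd with hI | hI | hI | hI
        · left; exact (hπ1 d).2 hI
        · right; left
          have := (hπ1 _).2 hI
          rw [map_mul, map_inv, mul_inv_eq_one] at this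
          exact this
        · right; right; left
          have := (hπ1 _).2 hI
          rw [map_mul, map_inv, mul_inv_eq_one] at this
          exact this
        · right; right; right
          have := (hπ1 _).2 hI
          rw [map_mul, map_inv, mul_inv_eq_one, map_mul] at this
          exact this
      · rintro (rfl | rfl | rfl | rfl)
        · exact ⟨1, h1, map_one π⟩
        · exact ⟨a, ha, rfl⟩
        · exact ⟨b, hb, rfl⟩
        · exact ⟨a * b, hmul a ha b hb, map_mul π a b⟩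
    have hc : Nat.card ↥V = (V : Set (A ⧸ I)).ncard := Nat.card_coe_set_eq (V : Set (A ⧸ I))
    rw [hc, hset]
    apply ncard_four
    · exact fun h => haI ((hπ1 a).1 h)
    · exact fun h => hbI ((hπ1 b).1 h)
    · intro h
      apply habI
      rw [← hπ1, map_mul, map_inv]; exact h
    · rw [← map_mul]; exact (hπ1 _).2 (hsq b hb)
  have hnormVS : ∀ s ∈ S, ∀ v ∈ V, s * v * s⁻¹ ∈ V := by
    intro s hs v hv
    obtain ⟨ρ, rfl⟩ := (hSmem s).1 hs
    obtain ⟨d, hd, rfl⟩ := (hVmem v).1 hv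
    exact (hVmem _).2 ⟨Φ ρ * d * (Φ ρ)⁻¹, hnorm ρ d hd, by rw [map_mul, map_mul, map_inv]⟩
  have hVS : V ⊓ S = ⊥ := by
    rw [eq_bot_iff]
    intro q hq
    obtain ⟨d, hd, rfl⟩ := (hVmem q).1 hq.1
    obtain ⟨ρ, hρ⟩ := (hSmem _).1 hq.2
    have hI : d⁻¹ * Φ ρ * Ψ 1 ∈ I := by
      rw [map_one, mul_one, ← hπ1, map_mul, map_inv, hρ, inv_mul_cancel]
    have hρ1 := (htriv d⁻¹ (hinv d hd) ρ 1 hI).1
    rw [Subgroup.mem_bot, ← hρ, hρ1, map_one, map_one]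
  have hfaithVS : ∀ s ∈ S, (∀ v ∈ V, s * v = v * s) → s = 1 := by
    intro s hs hsv
    obtain ⟨ρ, rfl⟩ := (hSmem s).1 hs
    by_contra hne
    have hρ : ρ ≠ 1 := by
      rintro rfl
      exact hne (by rw [map_one, map_one])
    obtain ⟨d, hd, hdI⟩ := hfaith ρ hρ
    apply hdI
    rw [← hπ1, map_mul, map_mul, map_mul, map_inv, map_inv, hsv _ ((hVmem _).2 ⟨d, hd, rfl⟩)]
    group
  obtain ⟨e⟩ := h (A ⧸ I) V S hV4 hS6 hnormVS hVS hfaithVS
  -- the elements of `V ⊔ S`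
  obtain ⟨M, hMmem⟩ : ∃ M : Subgroup (A ⧸ I), ∀ q, q ∈ M ↔ ∃ d ∈ Dg, ∃ ρ, q = π d * π (Φ ρ) :=
    ⟨{ carrier := {q | ∃ d ∈ Dg, ∃ ρ, q = π d * π (Φ ρ)}
       mul_mem' := by
         rintro _ _ ⟨d, hd, ρ, rfl⟩ ⟨d', hd', ρ', rfl⟩
         refine ⟨d * (Φ ρ * d' * (Φ ρ)⁻¹), hmul d hd _ (hnorm ρ d' hd'), ρ * ρ', ?_⟩
         rw [map_mul Φ ρ ρ']
         simp only [← map_mul π]
         congr 1
         group
       one_mem' := ⟨1, h1, 1, by rw [map_one, map_one, map_one, mul_one]⟩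
       inv_mem' := by
         rintro _ ⟨d, hd, ρ, rfl⟩
         refine ⟨Φ ρ⁻¹ * d⁻¹ * (Φ ρ⁻¹)⁻¹, hnorm ρ⁻¹ d⁻¹ (hinv d hd), ρ⁻¹, ?_⟩
         rw [map_inv Φ ρ]
         simp only [← map_mul π, ← map_inv π]
         congr 1
         group }, fun q => Iff.rfl⟩
  have hNM : V ⊔ S ≤ M := by
    refine sup_le (fun q hq => ?_) (fun q hq => ?_)
    · obtain ⟨d, hd, rfl⟩ := (hVmem q).1 hq
      exact (hMmem _).2 ⟨d, hd, 1, by rw [map_one, map_one, mul_one]⟩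
    · obtain ⟨ρ, rfl⟩ := (hSmem q).1 hq
      exact (hMmem _).2 ⟨1, h1, ρ, by rw [map_one, one_mul]⟩
  have hcomT : ∀ (n : ↥(V ⊔ S)) (σ : C), Commute ((V ⊔ S).subtype n) ((π.comp Ψ) σ) := by
    intro n σ
    obtain ⟨d, hd, ρ, hn⟩ := (hMmem _).1 (hNM n.2)
    show (n : A ⧸ I) * π (Ψ σ) = π (Ψ σ) * (n : A ⧸ I)
    rw [hn]
    have e1 : π d * π (Ψ σ) = π (Ψ σ) * π d := by
      have := (hπ1 _).2 (hcent σ d hd)
      rw [map_mul, map_mul, map_mul, map_inv, map_inv, mul_inv_eq_one, mul_inv_eq_iff_eq_mul] at this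
      exact this.symm
    have e2 : π (Φ ρ) * π (Ψ σ) = π (Ψ σ) * π (Φ ρ) := by
      rw [← map_mul, ← map_mul, hcomm2]
    calc π d * π (Φ ρ) * π (Ψ σ) = π d * (π (Φ ρ) * π (Ψ σ)) := mul_assoc _ _ _
      _ = π d * (π (Ψ σ) * π (Φ ρ)) := by rw [e2]
      _ = π d * π (Ψ σ) * π (Φ ρ) := (mul_assoc _ _ _).symm
      _ = π (Ψ σ) * π d * π (Φ ρ) := by rw [e1]
      _ = π (Ψ σ) * (π d * π (Φ ρ)) := mul_assoc _ _ _
  have hψ : ∀ p : ↥(V ⊔ S) × C,
      MonoidHom.noncommCoprod (V ⊔ S).subtype (π.comp Ψ) hcomT p = (p.1 : A ⧸ I) * π (Ψ p.2) :=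
    fun p => rfl
  have hinj : Function.Injective (MonoidHom.noncommCoprod (V ⊔ S).subtype (π.comp Ψ) hcomT) := by
    rw [injective_iff_map_eq_one]
    rintro ⟨n, σ⟩ hnσ
    rw [hψ] at hnσ
    obtain ⟨d, hd, ρ, hn⟩ := (hMmem _).1 (hNM n.2)
    have h1' : (n : A ⧸ I) * π (Ψ σ) = 1 := hnσ
    rw [hn, ← map_mul, ← map_mul, hπ1] at h1'
    obtain ⟨hρ, hσ⟩ := htriv d hd ρ σ h1'
    subst hσ
    have hn1 : (n : A ⧸ I) = 1 := by
      have h2 : (n : A ⧸ I) * π (Ψ 1) = 1 := hnσ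
      rwa [map_one, map_one, mul_one] at h2
    exact Prod.ext (Subtype.ext hn1) rfl
  have hsurj : Function.Surjective (MonoidHom.noncommCoprod (V ⊔ S).subtype (π.comp Ψ) hcomT) := by
    intro q
    obtain ⟨θ, rfl⟩ := hπs q
    obtain ⟨i, hi, d, hd, ρ, σ, rfl⟩ := hdecomp θ
    refine ⟨(⟨π d * π (Φ ρ), Subgroup.mul_mem _ (Subgroup.mem_sup_left ((hVmem _).2 ⟨d, hd, rfl⟩))
      (Subgroup.mem_sup_right ((hSmem _).2 ⟨ρ, rfl⟩))⟩, σ), ?_⟩
    rw [hψ]
    show π d * π (Φ ρ) * π (Ψ σ) = π (i * d * Φ ρ * Ψ σ)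
    rw [map_mul, map_mul, map_mul, (hπ1 i).2 hi, one_mul]
  exact ⟨(MulEquiv.ofBijective _ ⟨hinj, hsurj⟩).symm.trans
    (MulEquiv.prodCongr e (zmodCyclicMulEquiv hCyc).symm)⟩

example (h : Cfsg.Agent.H78.Od.StS4.{u}) : Cfsg.Agent.H78.Od.StAbs.{u} := abs h

end Cfsg.Agent.H56.Od

#print axioms Cfsg.Agent.H56.Od.abs
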