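import Mathlib
import Cfsg.Agent.H21.SimpleTools
import Cfsg.Agent.H24.O459SYLH

set_option autoImplicit false

/-!
Tools for the order pieces of helper26's S4274 project (order `175560`): Sylow data of a simple
group, the facts (F3), (F4) in elementary form.
-/

namespace Cfsg.Agent.H56.Ord175560

open Cfsg.Agent.H21 Subgroup

section tools

variable {G : Type*} [Group G]

/-- the Sylow data of a non-abelian simple group for a prime `p` with `p ∥ |G|` -/
theorem sylow_data [Finite G] [IsSimpleGroup G] (hG : ¬ IsMulCommutative G) (N p m : ℕ)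
    [Fact p.Prime] (hN : Nat.card G = N) (hNm : N = p * m) (hm : ¬ p ∣ m) (P : Sylow p G) :
    Nat.card (P : Subgroup G) = p ∧ Nat.card (Sylow p G) ∣ m ∧ Nat.card (Sylow p G) % p = 1 ∧
      Nat.card (Sylow p G) ≠ 1 ∧ 2 * N ∣ (Nat.card (Sylow p G)).factorial ∧
      Nat.card (normalizer ((P : Subgroup G) : Set G)) * Nat.card (Sylow p G) = N ∧
      ∃ d, d ≠ 1 ∧ d ∣ p - 1 ∧ p * d ∣ Nat.card (normalizer ((P : Subgroup G) : Set G)) ∧
        Nat.card (centralizer ((P : Subgroup G) : Set G)) * d =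
          Nat.card (normalizer ((P : Subgroup G) : Set G)) := by
  obtain ⟨h1, -, -, h2, h3, h4, h5, h6, -⟩ := simple_sylow_facts hG (p := p) (k := 1) (m := m)
    (by rw [hN, hNm, pow_one]) hm one_ne_zero P
  rw [pow_one] at h1
  rw [hN] at h5 h6
  obtain ⟨d, hd, hd1, hd2, hd3⟩ := simple_sylow_prime_card_NC hG P h1
  have hd4 := card_centralizer_mul_relIndex_normalizer (P : Subgroup G)
  rw [← hd] at hd4
  exact ⟨h1, h2, h3, h4, h5, h6, d, hd1, hd2, hd3, hd4⟩

/-- (F3): if the Sylow `q`-subgroups have order `q` and `q ∣ |C(P)|`, then `P` normalizes a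
Sylow `q`-subgroup. -/
theorem exists_sylow_normalizer_ge [Finite G] (P : Subgroup G) (q : ℕ) [Fact q.Prime]
    (hq : q ∣ Nat.card (centralizer (P : Set G)))
    (hqq : ∀ Q : Sylow q G, Nat.card (Q : Subgroup G) = q) :
    ∃ Q : Sylow q G, P ≤ normalizer ((Q : Subgroup G) : Set G) := by
  obtain ⟨y, hy, hyo⟩ := exists_mem_orderOf_eq_prime (centralizer (P : Set G)) q hq
  have hzp : IsPGroup q (zpowers y) :=
    IsPGroup.of_card (n := 1) (by rw [Nat.card_zpowers, hyo, pow_one])
  obtain ⟨Q, hQ⟩ := hzp.exists_le_sylow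
  have hQeq : zpowers y = (Q : Subgroup G) := by
    apply Subgroup.eq_of_le_of_card_ge hQ
    rw [hqq Q, Nat.card_zpowers, hyo]
  refine ⟨Q, ?_⟩
  rw [← hQeq]
  refine le_trans ?_ (Subgroup.centralizer_le_normalizer _)
  rw [Subgroup.le_centralizer_iff, Subgroup.zpowers_le]
  exact hy

/-- (F3), divisibility form -/
theorem exists_sylow_dvd_normalizer [Finite G] (P : Subgroup G) (q : ℕ) [Fact q.Prime]
    (hq : q ∣ Nat.card (centralizer (P : Set G)))
    (hqq : ∀ Q : Sylow q G, Nat.card (Q : Subgroup G) = q) :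
    ∃ Q : Sylow q G, Nat.card P ∣ Nat.card (normalizer ((Q : Subgroup G) : Set G)) := by
  obtain ⟨Q, hQ⟩ := exists_sylow_normalizer_ge P q hq hqq
  exact ⟨Q, Subgroup.card_dvd_of_le hQ⟩

/-- conjugation by an element of the normalizer preserves the centralizer -/
theorem conj_mem_centralizer {H : Subgroup G} {g c : G} (hg : g ∈ normalizer (H : Set G))
    (hc : c ∈ centralizer (H : Set G)) : g * c * g⁻¹ ∈ centralizer (H : Set G) := by
  rw [mem_centralizer_iff]
  intro q hq
  have hq' : g⁻¹ * q * g ∈ H := by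
    have h0 := (mem_normalizer_iff.1 (inv_mem hg) q).1 hq
    simpa using h0
  have hc' := mem_centralizer_iff.1 hc _ hq'
  calc q * (g * c * g⁻¹) = g * ((g⁻¹ * q * g) * c) * g⁻¹ := by group
    _ = g * (c * (g⁻¹ * q * g)) * g⁻¹ := by rw [hc']
    _ = g * c * g⁻¹ * q := by group

/-- membership in the normalizer from a one-sided condition on a subgroup closed under
inverses -/
theorem le_normalizer_of_conj_mem {K H : Subgroup G}
    (h : ∀ g ∈ K, ∀ x ∈ H, g * x * g⁻¹ ∈ H) : K ≤ normalizer (H : Set G) := by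
  intro g hg
  rw [mem_normalizer_iff]
  intro x
  constructor
  · exact h g hg x
  · intro hx
    have h0 := h g⁻¹ (inv_mem hg) _ hx
    have h1 : g⁻¹ * (g * x * g⁻¹) * g⁻¹⁻¹ = x := by group
    rwa [h1] at h0

/-- in a group of order `q * r` (`q`, `r` primes, `r < q`... only `r % q ≠ 1` and `q ∤ r` are
used) all elements of order `q` lie in one cyclic subgroup -/
theorem mem_zpowers_of_card [Finite G] (C : Subgroup G) (q r : ℕ) [Fact q.Prime]
    (hC : Nat.card C = q * r) (hr : r.Prime) (hqr : ¬ q ∣ r) (hmod : r % q ≠ 1)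
    {y z : G} (hy : y ∈ C) (hz : z ∈ C) (hyo : orderOf y = q) (hzo : orderOf z = q) :
    z ∈ zpowers y := by
  have hq : q.Prime := Fact.out
  have hS : ∀ S : Sylow q ↥C, Nat.card (S : Subgroup ↥C) = q := by
    intro S
    have h0 := sylow_card_of_card_eq (p := q) (k := 1) (m := r) (by rw [hC, pow_one]) hqr S
    rwa [pow_one] at h0
  have hsub : Subsingleton (Sylow q ↥C) := by
    obtain ⟨S⟩ : Nonempty (Sylow q ↥C) := inferInstance
    have h1 := Sylow.card_dvd_index S
    have hidx : (S : Subgroup ↥C).index = r := by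
      have h2 := (S : Subgroup ↥C).card_mul_index
      rw [hS S, hC] at h2
      exact Nat.eq_of_mul_eq_mul_left hq.pos h2
    rw [hidx] at h1
    have h3 := card_sylow_modEq_one q ↥C
    have h4 : Nat.card (Sylow q ↥C) = 1 := by
      rcases (Nat.dvd_prime hr).1 h1 with h | h
      · exact h
      · exfalso
        rw [h] at h3
        apply hmod
        have h5 : r % q = 1 % q := h3
        rw [h5, Nat.mod_eq_of_lt hq.one_lt]
    exact (Nat.card_eq_one_iff_unique.1 h4).1
  have hpg : ∀ w : ↥C, orderOf w = q → IsPGroup q (zpowers w) := by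
    intro w hw
    exact IsPGroup.of_card (n := 1) (by rw [Nat.card_zpowers, hw, pow_one])
  have hyo' : orderOf (⟨y, hy⟩ : ↥C) = q := by rw [Subgroup.orderOf_mk]; exact hyo
  have hzo' : orderOf (⟨z, hz⟩ : ↥C) = q := by rw [Subgroup.orderOf_mk]; exact hzo
  obtain ⟨S1, hS1⟩ := (hpg _ hyo').exists_le_sylow
  obtain ⟨S2, hS2⟩ := (hpg _ hzo').exists_le_sylow
  have hS12 : S2 = S1 := Subsingleton.elim _ _
  have heq : zpowers (⟨y, hy⟩ : ↥C) = (S1 : Subgroup ↥C) := by
    apply Subgroup.eq_of_le_of_card_ge hS1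
    rw [hS S1, Nat.card_zpowers, hyo']
  have hzmem : (⟨z, hz⟩ : ↥C) ∈ zpowers (⟨y, hy⟩ : ↥C) := by
    rw [heq, ← hS12]
    exact hS2 (mem_zpowers _)
  obtain ⟨k, hk⟩ := mem_zpowers_iff.1 hzmem
  rw [mem_zpowers_iff]
  refine ⟨k, ?_⟩
  have h6 := congrArg Subtype.val hk
  simpa using h6

end tools

end Cfsg.Agent.H56.Ord175560
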