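import Mathlib
import Cfsg.Agent.H56.Ord175560Tools

set_option autoImplicit false
set_option maxHeartbeats 1600000

/-!
S4274-C (piece of helper26's order `175560` project): no simple group of order `7980`.
-/

namespace Cfsg.Agent.H56.Ord175560

open Cfsg.Agent.H21 Subgroup

/-- There is no simple group of order `7980 = 2² · 3 · 5 · 7 · 19`. -/
theorem no_simple_7980 {G : Type*} [Group G] [Finite G] [IsSimpleGroup G]
    (h : Nat.card G = 7980) : False := by
  classical
  have hnp : ¬ (Nat.card G).Prime := by rw [h]; norm_num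
  have hG : ¬ IsMulCommutative G := not_comm_of_not_prime hnp
  have hp19 : Fact (Nat.Prime 19) := ⟨by norm_num⟩
  have hp7 : Fact (Nat.Prime 7) := ⟨by norm_num⟩
  have hp5 : Fact (Nat.Prime 5) := ⟨by norm_num⟩
  have hp3 : Fact (Nat.Prime 3) := ⟨by norm_num⟩
  have hc19 : ∀ Q : Sylow 19 G, Nat.card (Q : Subgroup G) = 19 := fun Q =>
    (sylow_data hG 7980 19 420 h (by norm_num) (by norm_num) Q).1
  have hc7 : ∀ Q : Sylow 7 G, Nat.card (Q : Subgroup G) = 7 := fun Q =>
    (sylow_data hG 7980 7 1140 h (by norm_num) (by norm_num) Q).1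
  have hc5 : ∀ Q : Sylow 5 G, Nat.card (Q : Subgroup G) = 5 := fun Q =>
    (sylow_data hG 7980 5 1596 h (by norm_num) (by norm_num) Q).1
  have hc3 : ∀ Q : Sylow 3 G, Nat.card (Q : Subgroup G) = 3 := fun Q =>
    (sylow_data hG 7980 3 2660 h (by norm_num) (by norm_num) Q).1
  -- Step 1: `n₁₉ = 210`
  have hn19 : Nat.card (Sylow 19 G) = 210 := by
    obtain ⟨P19⟩ : Nonempty (Sylow 19 G) := inferInstance
    obtain ⟨hP19, hd19, hm19, hne19, -, hN19, d19, hd1, hd2, hd3, hd4⟩ :=
      sylow_data hG 7980 19 420 h (by norm_num) (by norm_num) P19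
    have hcases : Nat.card (Sylow 19 G) = 20 ∨ Nat.card (Sylow 19 G) = 210 := by
      generalize Nat.card (Sylow 19 G) = n at hd19 hm19 hne19 ⊢
      have hmem : n ∈ Nat.divisors 420 := Nat.mem_divisors.2 ⟨hd19, by norm_num⟩
      simp only [Nat.divisors_ofNat, Finset.mem_insert, Finset.mem_singleton] at hmem
      omega
    rcases hcases with h20 | h210
    · exfalso
      rw [h20] at hN19
      have hN : Nat.card (normalizer ((P19 : Subgroup G) : Set G)) = 399 := by omega
      rw [hN] at hd3 hd4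
      have hdle : d19 ≤ 18 := Nat.le_of_dvd (by norm_num) hd2
      have hC : Nat.card (centralizer ((P19 : Subgroup G) : Set G)) = 133 := by
        interval_cases d19 <;> omega
      obtain ⟨Q7, hQ7⟩ := exists_sylow_dvd_normalizer (P19 : Subgroup G) 7
        (by rw [hC]; norm_num) hc7
      rw [hP19] at hQ7
      obtain ⟨-, hd7, hm7, hne7, hf7, hN7, -⟩ :=
        sylow_data hG 7980 7 1140 h (by norm_num) (by norm_num) Q7
      obtain ⟨k, hk⟩ := hQ7
      rw [hk] at hN7
      have hdvd : Nat.card (Sylow 7 G) ∣ 420 := by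
        have h1 : 19 * (k * Nat.card (Sylow 7 G)) = 19 * 420 := by
          rw [← mul_assoc]; exact hN7
        exact Dvd.intro_left k (Nat.eq_of_mul_eq_mul_left (by norm_num) h1)
      have h15 : Nat.card (Sylow 7 G) = 15 := by
        generalize Nat.card (Sylow 7 G) = n at hdvd hm7 hne7 ⊢
        have hmem : n ∈ Nat.divisors 420 := Nat.mem_divisors.2 ⟨hdvd, by norm_num⟩
        simp only [Nat.divisors_ofNat, Finset.mem_insert, Finset.mem_singleton] at hmem
        omega
      rw [h15] at hf7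
      revert hf7
      decide
    · exact h210
  have hN19 : ∀ Q : Sylow 19 G, Nat.card (normalizer ((Q : Subgroup G) : Set G)) = 38 := by
    intro Q
    obtain ⟨-, -, -, -, -, hN, -⟩ := sylow_data hG 7980 19 420 h (by norm_num) (by norm_num) Q
    rw [hn19] at hN
    omega
  -- Step 2: `n₅ = 266`, `|N(P₅)| = 30`, `|C(P₅)| = 15`
  obtain ⟨P5⟩ : Nonempty (Sylow 5 G) := inferInstance
  obtain ⟨hP5, hd5, hm5, hne5, hf5, hN5, d5, he1, he2, he3, he4⟩ :=
    sylow_data hG 7980 5 1596 h (by norm_num) (by norm_num) P5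
  have hd5le : d5 ≤ 4 := Nat.le_of_dvd (by norm_num) he2
  have hd5dvd : 2 ∣ d5 := by
    interval_cases d5 <;> omega
  have hn5dvd : Nat.card (Sylow 5 G) ∣ 798 := by
    obtain ⟨j, hj⟩ := hd5dvd
    obtain ⟨k, hk⟩ := he3
    rw [hk, hj] at hN5
    have h1 : 10 * (j * k * Nat.card (Sylow 5 G)) = 10 * 798 := by
      rw [show 10 * (j * k * Nat.card (Sylow 5 G)) = 5 * (2 * j) * k * Nat.card (Sylow 5 G) by
        ring, hN5]
    exact Dvd.intro_left (j * k) (Nat.eq_of_mul_eq_mul_left (by norm_num) h1)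
  have hn5 : Nat.card (Sylow 5 G) = 266 := by
    have hcases : Nat.card (Sylow 5 G) = 6 ∨ Nat.card (Sylow 5 G) = 21 ∨
        Nat.card (Sylow 5 G) = 266 := by
      generalize Nat.card (Sylow 5 G) = n at hn5dvd hm5 hne5 ⊢
      have hmem : n ∈ Nat.divisors 798 := Nat.mem_divisors.2 ⟨hn5dvd, by norm_num⟩
      simp only [Nat.divisors_ofNat, Finset.mem_insert, Finset.mem_singleton] at hmem
      omega
    rcases hcases with h6 | h21 | h266
    · exfalso
      rw [h6] at hf5
      revert hf5
      decide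
    · exfalso
      rw [h21] at hN5
      have hN : Nat.card (normalizer ((P5 : Subgroup G) : Set G)) = 380 := by omega
      rw [hN] at he4
      have h19 : 19 ∣ Nat.card (centralizer ((P5 : Subgroup G) : Set G)) := by
        interval_cases d5 <;> omega
      obtain ⟨Q19, hQ19⟩ := exists_sylow_dvd_normalizer (P5 : Subgroup G) 19 h19 hc19
      rw [hP5, hN19 Q19] at hQ19
      omega
    · exact h266
  have hNP5 : Nat.card (normalizer ((P5 : Subgroup G) : Set G)) = 30 := by
    rw [hn5] at hN5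
    omega
  have hCP5 : Nat.card (centralizer ((P5 : Subgroup G) : Set G)) = 15 := by
    rw [hNP5] at he3 he4
    interval_cases d5 <;> omega
  -- Step 3: the Sylow 3-subgroup of `C(P₅)`
  obtain ⟨y, hy, hyo⟩ := exists_mem_orderOf_eq_prime (centralizer ((P5 : Subgroup G) : Set G)) 3
    (by rw [hCP5]; norm_num)
  have hzp : IsPGroup 3 (zpowers y) :=
    IsPGroup.of_card (n := 1) (by rw [Nat.card_zpowers, hyo, pow_one])
  obtain ⟨Q3, hQ3⟩ := hzp.exists_le_sylow
  have hQeq : zpowers y = (Q3 : Subgroup G) := by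
    apply Subgroup.eq_of_le_of_card_ge hQ3
    rw [hc3 Q3, Nat.card_zpowers, hyo]
  -- `N(P₅) ≤ N(Q₃)`
  have hNN : normalizer ((P5 : Subgroup G) : Set G) ≤ normalizer ((Q3 : Subgroup G) : Set G) := by
    rw [← hQeq]
    apply le_normalizer_of_conj_mem
    intro g hg x hx
    obtain ⟨k, rfl⟩ := mem_zpowers_iff.1 hx
    have h1 : g * y * g⁻¹ ∈ zpowers y := by
      apply mem_zpowers_of_card (centralizer ((P5 : Subgroup G) : Set G)) 3 5
        (by rw [hCP5]) (by norm_num) (by norm_num) (by norm_num) hy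
        (conj_mem_centralizer hg hy) hyo
      have h2 := orderOf_injective (MulAut.conj g).toMonoidHom (MulAut.conj g).injective y
      simpa [MulAut.conj_apply] using h2.trans hyo
    have h3 : g * y ^ k * g⁻¹ = (g * y * g⁻¹) ^ k := (conj_zpow).symm
    rw [h3]
    exact zpow_mem h1 k
  have h30 : 30 ∣ Nat.card (normalizer ((Q3 : Subgroup G) : Set G)) := by
    have h1 := Subgroup.card_dvd_of_le hNN
    rwa [hNP5] at h1
  obtain ⟨-, hd3, hm3, hne3, hf3, hN3, d3, hf1, hf2, hf3', hf4⟩ :=
    sylow_data hG 7980 3 2660 h (by norm_num) (by norm_num) Q3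
  have hn3dvd : Nat.card (Sylow 3 G) ∣ 266 := by
    obtain ⟨k, hk⟩ := h30
    rw [hk] at hN3
    have h1 : 30 * (k * Nat.card (Sylow 3 G)) = 30 * 266 := by
      rw [← mul_assoc]; exact hN3
    exact Dvd.intro_left k (Nat.eq_of_mul_eq_mul_left (by norm_num) h1)
  have hn3 : Nat.card (Sylow 3 G) = 19 ∨ Nat.card (Sylow 3 G) = 133 := by
    have hcases : Nat.card (Sylow 3 G) = 7 ∨ Nat.card (Sylow 3 G) = 19 ∨
        Nat.card (Sylow 3 G) = 133 := by
      generalize Nat.card (Sylow 3 G) = n at hn3dvd hm3 hne3 ⊢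
      have hmem : n ∈ Nat.divisors 266 := Nat.mem_divisors.2 ⟨hn3dvd, by norm_num⟩
      simp only [Nat.divisors_ofNat, Finset.mem_insert, Finset.mem_singleton] at hmem
      omega
    rcases hcases with h7 | h19 | h133
    · exfalso
      rw [h7] at hf3
      revert hf3
      decide
    · exact Or.inl h19
    · exact Or.inr h133
  have hd3le : d3 ≤ 2 := Nat.le_of_dvd (by norm_num) hf2
  have hd3eq : d3 = 2 := by
    interval_cases d3 <;> omega
  rw [hd3eq] at hf4
  -- `P₅ ≤ C(Q₃)`
  have hPC : (P5 : Subgroup G) ≤ centralizer ((Q3 : Subgroup G) : Set G) := by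
    rw [← hQeq, Subgroup.le_centralizer_iff, Subgroup.zpowers_le]
    exact hy
  obtain ⟨n, hn1, hn2⟩ := Cfsg.Agent.H24.O459.card_eq_mul_of_sylow_le 5 P5
    (centralizer ((Q3 : Subgroup G) : Set G)) hPC
  have hm30 : Nat.card ↥(normalizer ((P5 : Subgroup G) : Set G) ⊓
      centralizer ((Q3 : Subgroup G) : Set G)) ∣ 30 := by
    have h1 := Subgroup.card_dvd_of_le (inf_le_left :
      normalizer ((P5 : Subgroup G) : Set G) ⊓ centralizer ((Q3 : Subgroup G) : Set G) ≤
        normalizer ((P5 : Subgroup G) : Set G))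
    rwa [hNP5] at h1
  have hm5' : 5 ∣ Nat.card ↥(normalizer ((P5 : Subgroup G) : Set G) ⊓
      centralizer ((Q3 : Subgroup G) : Set G)) := by
    have h1 := Subgroup.card_dvd_of_le (le_inf Subgroup.le_normalizer hPC :
      (P5 : Subgroup G) ≤ normalizer ((P5 : Subgroup G) : Set G) ⊓
        centralizer ((Q3 : Subgroup G) : Set G))
    rwa [hP5] at h1
  have hm3' : 3 ∣ Nat.card ↥(normalizer ((P5 : Subgroup G) : Set G) ⊓
      centralizer ((Q3 : Subgroup G) : Set G)) := by
    have hle : zpowers y ≤ normalizer ((P5 : Subgroup G) : Set G) ⊓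
        centralizer ((Q3 : Subgroup G) : Set G) := by
      rw [Subgroup.zpowers_le]
      refine mem_inf.2 ⟨Subgroup.centralizer_le_normalizer _ hy, ?_⟩
      rw [← hQeq, mem_centralizer_iff]
      intro w hw
      obtain ⟨k, rfl⟩ := mem_zpowers_iff.1 hw
      exact ((Commute.refl y).zpow_left k).eq
    have h1 := Subgroup.card_dvd_of_le hle
    rwa [Nat.card_zpowers, hyo] at h1
  have hmle : Nat.card ↥(normalizer ((P5 : Subgroup G) : Set G) ⊓
      centralizer ((Q3 : Subgroup G) : Set G)) ≤ 30 := Nat.le_of_dvd (by norm_num) hm30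
  -- the only possibility
  have hfinal : Nat.card (normalizer ((Q3 : Subgroup G) : Set G)) = 60 ∧
      Nat.card ↥(normalizer ((P5 : Subgroup G) : Set G) ⊓
        centralizer ((Q3 : Subgroup G) : Set G)) =
        Nat.card (centralizer ((Q3 : Subgroup G) : Set G)) := by
    generalize Nat.card ↥(normalizer ((P5 : Subgroup G) : Set G) ⊓
      centralizer ((Q3 : Subgroup G) : Set G)) = m at hn2 hm30 hm5' hm3' hmle ⊢
    have hm : m = 15 ∨ m = 30 := by
      interval_cases m <;> omega
    rcases hn3 with h19 | h133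
    · rw [h19] at hN3
      rcases hm with rfl | rfl <;> omega
    · rw [h133] at hN3
      rcases hm with rfl | rfl <;> omega
  obtain ⟨hNQ60, hmC⟩ := hfinal
  have hCle : centralizer ((Q3 : Subgroup G) : Set G) ≤ normalizer ((P5 : Subgroup G) : Set G) := by
    have h1 : normalizer ((P5 : Subgroup G) : Set G) ⊓ centralizer ((Q3 : Subgroup G) : Set G) =
        centralizer ((Q3 : Subgroup G) : Set G) :=
      Subgroup.eq_of_le_of_card_ge inf_le_right (le_of_eq hmC.symm)
    exact inf_eq_right.1 h1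
  -- `N(Q₃) ≤ N(P₅)`
  have hNle : normalizer ((Q3 : Subgroup G) : Set G) ≤ normalizer ((P5 : Subgroup G) : Set G) := by
    apply le_normalizer_of_conj_mem
    intro g hg x hx
    have hR : IsPGroup 5 ((P5 : Subgroup G).map (MulAut.conj g).toMonoidHom) := P5.2.map _
    have hRle : (P5 : Subgroup G).map (MulAut.conj g).toMonoidHom ≤
        normalizer ((P5 : Subgroup G) : Set G) := by
      rintro _ ⟨u, hu, rfl⟩
      exact hCle (conj_mem_centralizer hg (hPC hu))
    have h1 : (P5 : Subgroup G).map (MulAut.conj g).toMonoidHom ⊓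
        normalizer ((P5 : Subgroup G) : Set G) =
        (P5 : Subgroup G).map (MulAut.conj g).toMonoidHom ⊓ (P5 : Subgroup G) :=
      hR.inf_normalizer_sylow P5
    rw [inf_eq_left.2 hRle] at h1
    have h2 : (P5 : Subgroup G).map (MulAut.conj g).toMonoidHom ≤ (P5 : Subgroup G) := by
      rw [h1]; exact inf_le_right
    exact h2 ⟨x, hx, rfl⟩
  have h60 := Subgroup.card_dvd_of_le hNle
  rw [hNQ60, hNP5] at h60
  omega

end Cfsg.Agent.H56.Ord175560
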