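import Mathlib
import Cfsg.Agent.H56.Ord175560Tools
import Cfsg.Agent.H56.InvConj4

set_option autoImplicit false
set_option maxHeartbeats 1600000

/-!
S4274-E (piece of helper26's order `175560` project): no simple group of order `17556`.
-/

namespace Cfsg.Agent.H56.Ord175560

open Cfsg.Agent.H21 Subgroup

/-- conjugate elements have centralizers of the same order -/
theorem card_centralizer_conj {G : Type*} [Group G] (g t : G) :
    Nat.card (centralizer ({g * t * g⁻¹} : Set G)) = Nat.card (centralizer ({t} : Set G)) := by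
  refine (Nat.card_congr (Equiv.subtypeEquiv (MulAut.conj g).toEquiv ?_)).symm
  intro x
  rw [mem_centralizer_singleton_iff, mem_centralizer_singleton_iff]
  show x * t = t * x ↔ (g * x * g⁻¹) * (g * t * g⁻¹) = (g * t * g⁻¹) * (g * x * g⁻¹)
  constructor
  · intro h
    calc g * x * g⁻¹ * (g * t * g⁻¹) = g * (x * t) * g⁻¹ := by group
      _ = g * (t * x) * g⁻¹ := by rw [h]
      _ = g * t * g⁻¹ * (g * x * g⁻¹) := by group
  · intro h
    have h1 : x * t = g⁻¹ * ((g * x * g⁻¹) * (g * t * g⁻¹)) * g := by group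
    rw [h1, h]
    group

/-- a subgroup centralized by `t` has order dividing `|C(t)|` -/
theorem card_dvd_card_centralizer_singleton {G : Type*} [Group G] [Finite G] {P : Subgroup G}
    {t : G} (ht : t ∈ centralizer (P : Set G)) :
    Nat.card P ∣ Nat.card (centralizer ({t} : Set G)) := by
  apply Subgroup.card_dvd_of_le
  intro x hx
  rw [mem_centralizer_singleton_iff]
  exact mem_centralizer_iff.1 ht x hx

/-- There is no simple group of order `17556 = 2² · 3 · 7 · 11 · 19`. -/
theorem no_simple_17556 {G : Type*} [Group G] [Finite G] [IsSimpleGroup G]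
    (h : Nat.card G = 17556) : False := by
  classical
  have hnp : ¬ (Nat.card G).Prime := by rw [h]; norm_num
  have hG : ¬ IsMulCommutative G := not_comm_of_not_prime hnp
  have hp19 : Fact (Nat.Prime 19) := ⟨by norm_num⟩
  have hp11 : Fact (Nat.Prime 11) := ⟨by norm_num⟩
  have hp3 : Fact (Nat.Prime 3) := ⟨by norm_num⟩
  have hc3 : ∀ Q : Sylow 3 G, Nat.card (Q : Subgroup G) = 3 := fun Q =>
    (sylow_data hG 17556 3 5852 h (by norm_num) (by norm_num) Q).1
  have h4 : ∀ S : Sylow 2 G, Nat.card (S : Subgroup G) = 4 := by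
    intro S
    have h0 := sylow_card_of_card_eq (p := 2) (k := 2) (m := 4389) (by rw [h]; norm_num) (by norm_num) S
    rw [h0]
    norm_num
  -- Sylow 11
  obtain ⟨P11⟩ : Nonempty (Sylow 11 G) := inferInstance
  obtain ⟨hP11, hd11, hm11, hne11, hf11, hN11, d11, ha1, ha2, ha3, ha4⟩ :=
    sylow_data hG 17556 11 1596 h (by norm_num) (by norm_num) P11
  have hd11le : d11 ≤ 10 := Nat.le_of_dvd (by norm_num) ha2
  have hn11 : Nat.card (Sylow 11 G) = 133 := by
    have hcases : Nat.card (Sylow 11 G) = 12 ∨ Nat.card (Sylow 11 G) = 133 ∨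
        Nat.card (Sylow 11 G) = 1596 := by
      generalize Nat.card (Sylow 11 G) = n at hd11 hm11 hne11 ⊢
      have hmem : n ∈ Nat.divisors 1596 := Nat.mem_divisors.2 ⟨hd11, by norm_num⟩
      simp only [Nat.divisors_ofNat, Finset.mem_insert, Finset.mem_singleton] at hmem
      omega
    rcases hcases with h12 | h133 | h1596
    · exfalso
      rw [h12] at hf11
      revert hf11
      decide
    · exact h133
    · exfalso
      rw [h1596] at hN11
      have hN : Nat.card (normalizer ((P11 : Subgroup G) : Set G)) = 11 := by omega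
      rw [hN] at ha3
      interval_cases d11 <;> omega
  have hNP11 : Nat.card (normalizer ((P11 : Subgroup G) : Set G)) = 132 := by
    rw [hn11] at hN11
    omega
  have hCP11 : Nat.card (centralizer ((P11 : Subgroup G) : Set G)) = 66 := by
    rw [hNP11] at ha3 ha4
    interval_cases d11 <;> omega
  obtain ⟨t1, ht1C, ht1o⟩ := exists_mem_orderOf_eq_prime
    (centralizer ((P11 : Subgroup G) : Set G)) 2 (by rw [hCP11]; norm_num)
  obtain ⟨y, hyC, hyo⟩ := exists_mem_orderOf_eq_prime
    (centralizer ((P11 : Subgroup G) : Set G)) 3 (by rw [hCP11]; norm_num)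
  have h11 : 11 ∣ Nat.card (centralizer ({t1} : Set G)) := by
    have h0 := card_dvd_card_centralizer_singleton ht1C
    rwa [hP11] at h0
  -- Sylow 19
  obtain ⟨P19⟩ : Nonempty (Sylow 19 G) := inferInstance
  obtain ⟨hP19, hd19, hm19, hne19, -, hN19, d19, hb1, hb2, hb3, hb4⟩ :=
    sylow_data hG 17556 19 924 h (by norm_num) (by norm_num) P19
  have hn19 : Nat.card (Sylow 19 G) = 77 := by
    generalize Nat.card (Sylow 19 G) = n at hd19 hm19 hne19 ⊢
    have hmem : n ∈ Nat.divisors 924 := Nat.mem_divisors.2 ⟨hd19, by norm_num⟩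
    simp only [Nat.divisors_ofNat, Finset.mem_insert, Finset.mem_singleton] at hmem
    omega
  have hNP19 : Nat.card (normalizer ((P19 : Subgroup G) : Set G)) = 228 := by
    rw [hn19] at hN19
    omega
  have hCP19 : 2 ∣ Nat.card (centralizer ((P19 : Subgroup G) : Set G)) := by
    rw [hNP19] at hb3 hb4
    have hd19le : d19 ≤ 18 := Nat.le_of_dvd (by norm_num) hb2
    interval_cases d19 <;> omega
  obtain ⟨t2, ht2C, ht2o⟩ := exists_mem_orderOf_eq_prime
    (centralizer ((P19 : Subgroup G) : Set G)) 2 hCP19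
  have h19 : 19 ∣ Nat.card (centralizer ({t2} : Set G)) := by
    have h0 := card_dvd_card_centralizer_singleton ht2C
    rwa [hP19] at h0
  -- Sylow 3
  have hzp : IsPGroup 3 (zpowers y) :=
    IsPGroup.of_card (n := 1) (by rw [Nat.card_zpowers, hyo, pow_one])
  obtain ⟨Q3, hQ3⟩ := hzp.exists_le_sylow
  have hQeq : zpowers y = (Q3 : Subgroup G) := by
    apply Subgroup.eq_of_le_of_card_ge hQ3
    rw [hc3 Q3, Nat.card_zpowers, hyo]
  have hPN : (P11 : Subgroup G) ≤ normalizer ((Q3 : Subgroup G) : Set G) := by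
    rw [← hQeq]
    refine le_trans ?_ (Subgroup.centralizer_le_normalizer _)
    rw [Subgroup.le_centralizer_iff, Subgroup.zpowers_le]
    exact hyC
  have h11N : 11 ∣ Nat.card (normalizer ((Q3 : Subgroup G) : Set G)) := by
    have h0 := Subgroup.card_dvd_of_le hPN
    rwa [hP11] at h0
  obtain ⟨-, hd3, hm3, hne3, hf3, hN3, d3, hc1, hc2, hc3', hc4⟩ :=
    sylow_data hG 17556 3 5852 h (by norm_num) (by norm_num) Q3
  have hd3le : d3 ≤ 2 := Nat.le_of_dvd (by norm_num) hc2
  have hd3eq : d3 = 2 := by
    interval_cases d3 <;> omega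
  rw [hd3eq] at hc3' hc4
  have h66 : 66 ∣ Nat.card (normalizer ((Q3 : Subgroup G) : Set G)) :=
    Nat.Coprime.mul_dvd_of_dvd_of_dvd (by norm_num : Nat.Coprime 11 6) h11N hc3'
  have hn3dvd : Nat.card (Sylow 3 G) ∣ 266 := by
    obtain ⟨k, hk⟩ := h66
    rw [hk] at hN3
    have h1 : 66 * (k * Nat.card (Sylow 3 G)) = 66 * 266 := by
      rw [← mul_assoc]; exact hN3
    exact Dvd.intro_left k (Nat.eq_of_mul_eq_mul_left (by norm_num) h1)
  have hn3 : Nat.card (Sylow 3 G) = 19 ∨ Nat.card (Sylow 3 G) = 133 := by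
    have hcases : Nat.card (Sylow 3 G) = 7 ∨ Nat.card (Sylow 3 G) = 19 ∨
        Nat.card (Sylow 3 G) = 133 := by
      generalize Nat.card (Sylow 3 G) = n at hn3dvd hm3 hne3 ⊢
      have hmem : n ∈ Nat.divisors 266 := Nat.mem_divisors.2 ⟨hn3dvd, by norm_num⟩
      simp only [Nat.divisors_ofNat, Finset.mem_insert, Finset.mem_singleton] at hmem
      omega
    rcases hcases with h7 | h19' | h133
    · exfalso
      rw [h7] at hf3
      revert hf3
      decide
    · exact Or.inl h19'
    · exact Or.inr h133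
  have hCQ3 : 2 ∣ Nat.card (centralizer ((Q3 : Subgroup G) : Set G)) := by
    rcases hn3 with h19' | h133
    · rw [h19'] at hN3
      omega
    · rw [h133] at hN3
      omega
  obtain ⟨t3, ht3C, ht3o⟩ := exists_mem_orderOf_eq_prime
    (centralizer ((Q3 : Subgroup G) : Set G)) 2 hCQ3
  have h3 : 3 ∣ Nat.card (centralizer ({t3} : Set G)) := by
    have h0 := card_dvd_card_centralizer_singleton ht3C
    rwa [hc3 Q3] at h0
  -- a Sylow 2-subgroup through `t1`
  have h4' : 4 ∣ Nat.card (centralizer ({t1} : Set G)) := by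
    have hpg : IsPGroup 2 (zpowers t1) :=
      IsPGroup.of_card (n := 1) (by rw [Nat.card_zpowers, ht1o, pow_one])
    obtain ⟨S, hS⟩ := hpg.exists_le_sylow
    have hcomm := (IsPGroup.isMulCommutative_of_card_eq_prime_sq (p := 2)
      (G := ↥(S : Subgroup G)) (by rw [h4 S]; norm_num)).is_comm.comm
    have hle : (S : Subgroup G) ≤ centralizer ({t1} : Set G) := by
      intro x hx
      rw [mem_centralizer_singleton_iff]
      exact congrArg Subtype.val (hcomm ⟨x, hx⟩ ⟨t1, hS (mem_zpowers t1)⟩)
    have h0 := Subgroup.card_dvd_of_le hle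
    rwa [h4 S] at h0
  -- all involutions are conjugate
  obtain ⟨g2, hg2⟩ := Cfsg.Agent.H56.InvConj.invol_conj hG h4 ht1o ht2o
  obtain ⟨g3, hg3⟩ := Cfsg.Agent.H56.InvConj.invol_conj hG h4 ht1o ht3o
  rw [← hg2, card_centralizer_conj] at h19
  rw [← hg3, card_centralizer_conj] at h3
  have h2508 : 2508 ∣ Nat.card (centralizer ({t1} : Set G)) := by
    have a := Nat.Coprime.mul_dvd_of_dvd_of_dvd (by norm_num : Nat.Coprime 4 3) h4' h3
    have b := Nat.Coprime.mul_dvd_of_dvd_of_dvd (by norm_num : Nat.Coprime (4 * 3) 11) a h11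
    exact Nat.Coprime.mul_dvd_of_dvd_of_dvd (by norm_num : Nat.Coprime (4 * 3 * 11) 19) b h19
  have hidx := Subgroup.card_mul_index (centralizer ({t1} : Set G))
  rw [h] at hidx
  obtain ⟨k, hk⟩ := h2508
  rw [hk] at hidx
  have hk7 : k * (centralizer ({t1} : Set G)).index = 7 := by
    have h1 : 2508 * (k * (centralizer ({t1} : Set G)).index) = 2508 * 7 := by
      rw [← mul_assoc]; exact hidx
    exact Nat.eq_of_mul_eq_mul_left (by norm_num) h1
  have hidx' : (centralizer ({t1} : Set G)).index = 1 ∨ (centralizer ({t1} : Set G)).index = 7 :=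
    (Nat.dvd_prime (by norm_num)).1 (Dvd.intro_left k hk7)
  rcases hidx' with h1 | h7
  · have htop : centralizer ({t1} : Set G) = ⊤ := Subgroup.index_eq_one.1 h1
    have hcen : t1 ∈ center G := by
      rw [Subgroup.mem_center_iff]
      intro x
      have hx : x ∈ centralizer ({t1} : Set G) := htop ▸ mem_top x
      exact mem_centralizer_singleton_iff.1 hx
    rcases (inferInstance : (center G).Normal).eq_bot_or_eq_top with hb | ht'
    · rw [hb, mem_bot] at hcen
      rw [hcen, orderOf_one] at ht1o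
      omega
    · apply hG
      refine ⟨⟨fun a b => ?_⟩⟩
      have ha : a ∈ center G := ht' ▸ mem_top a
      exact (Subgroup.mem_center_iff.1 ha b).symm
  · have hne : centralizer ({t1} : Set G) ≠ ⊤ := by
      intro htop
      rw [htop, Subgroup.index_top] at h7
      omega
    have h0 := two_mul_card_dvd_factorial_index hG _ hne
    rw [h7, h] at h0
    revert h0
    decide

end Cfsg.Agent.H56.Ord175560
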