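import Cfsg.Agent.H56.OrdDefs

/-!
# S2363 team project: assembly from the family pieces
-/

set_option autoImplicit false

namespace Cfsg.Agent.H56.Ord

open Cfsg

theorem good_of_equiv {p : ℕ} {G X : Type*} [Group G] [Group X] (e : G ≃* X) (h : Good p X) :
    Good p G := by
  unfold Good at h ⊢
  rw [Nat.card_congr e.toEquiv]
  exact h

theorem concl_of_good {p : ℕ} {G : Type*} [Group G] (h : Good p G) :
    Nat.card G < p ^ (3 * (Nat.card G).factorization p) ∧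
      ((¬ ∃ (F : Type) (_ : Field F) (_ : Fintype F), Fintype.card F = p ^ (Nat.card G).factorization p ∧
          Nonempty (G ≃* Matrix.ProjectiveSpecialLinearGroup (Fin 2) F)) →
        Nat.card G ^ 3 < p ^ (8 * (Nat.card G).factorization p)) :=
  ⟨h.1, fun _ => h.2⟩

theorem asm (hPSL : PSLStmt) (hPSL2 : PSL2Stmt) (hPSp : PSpStmt) (hPSU : PSUStmt) (hOdd : POddStmt)
    (hPlus : PPlusStmt) (hMinus : PMinusStmt) (hG2 : G2Stmt) (hF4 : F4Stmt) (hE6 : E6Stmt)
    (hE7 : E7Stmt) (hE8 : E8Stmt) (hTE6 : TwE6Stmt) (hTD4 : TwD4Stmt) (hSz : SzStmt)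
    (hTF4 : TwF4Stmt) (hRee : ReeStmt)
    {G : Type*} [Group G] [Finite G] (p : ℕ) (hp : p.Prime) (hG : Cfsg.IsLieTypeChar p G) :
    Nat.card G < p ^ (3 * (Nat.card G).factorization p) ∧
      ((¬ ∃ (F : Type) (_ : Field F) (_ : Fintype F), Fintype.card F = p ^ (Nat.card G).factorization p ∧
          Nonempty (G ≃* Matrix.ProjectiveSpecialLinearGroup (Fin 2) F)) →
        Nat.card G ^ 3 < p ^ (8 * (Nat.card G).factorization p)) := by
  rcases hG with h | h | h | h | h | h | h | h | ⟨h2, h⟩ | ⟨h2, h⟩ | ⟨h3, h⟩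
  · -- PSL
    obtain ⟨F, iF, iFt, iC, n, hn, hn2, ⟨e⟩⟩ := h
    by_cases h2 : n = 2
    · subst h2
      have hcard : Nat.card G = Nat.card (Matrix.ProjectiveSpecialLinearGroup (Fin 2) F) :=
        Nat.card_congr e.toEquiv
      obtain ⟨ha, hb⟩ := hPSL2 p hp F (hn2 rfl)
      refine ⟨by rw [hcard]; exact ha, fun hne => absurd ⟨F, iF, iFt, by rw [hcard]; exact hb, ⟨e⟩⟩ hne⟩
    · exact concl_of_good (good_of_equiv e (hPSL p hp F n (by omega)))
  · obtain ⟨F, iF, iFt, iC, m, hm, -, ⟨e⟩⟩ := h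
    exact concl_of_good (good_of_equiv e (hPSp p hp F m hm))
  · obtain ⟨F, iF, iFt, iC, n, q, hcard, hn, -, ⟨e⟩⟩ := h
    exact concl_of_good (good_of_equiv e (hPSU p hp F n q hcard hn))
  · obtain ⟨F, iF, iFt, iC, m, hm, hodd, ⟨e⟩⟩ := h
    exact concl_of_good (good_of_equiv e (hOdd p hp F m hm hodd))
  · obtain ⟨F, iF, iFt, iC, m, hm, ⟨e⟩⟩ := h
    exact concl_of_good (good_of_equiv e (hPlus p hp F m hm))
  · obtain ⟨F, iF, iFt, iC, m, a, b, hm, hab, ⟨e⟩⟩ := h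
    exact concl_of_good (good_of_equiv e (hMinus p hp F m a b hm hab))
  · obtain ⟨F, iF, iFt, iC, h | h | h | h | h⟩ := h
    · obtain ⟨h3', ⟨e⟩⟩ := h
      exact concl_of_good (good_of_equiv e (hG2 p hp F h3'))
    · obtain ⟨e⟩ := h
      exact concl_of_good (good_of_equiv e (hF4 p hp F))
    · obtain ⟨e⟩ := h
      exact concl_of_good (good_of_equiv e (hE6 p hp F))
    · obtain ⟨e⟩ := h
      exact concl_of_good (good_of_equiv e (hE7 p hp F))
    · obtain ⟨e⟩ := h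
      exact concl_of_good (good_of_equiv e (hE8 p hp F))
  · obtain ⟨K, iK, iKt, iC, q, hq, h | h⟩ := h
    · obtain ⟨hc, ⟨e⟩⟩ := h
      exact concl_of_good (good_of_equiv e (hTE6 p hp K q hq hc))
    · obtain ⟨hc, ⟨e⟩⟩ := h
      exact concl_of_good (good_of_equiv e (hTD4 p hp K q hq hc))
  · subst h2
    obtain ⟨F, iF, iFt, m, hm, hc, ⟨e⟩⟩ := h
    exact concl_of_good (good_of_equiv e (hSz F m hm hc))
  · subst h2
    obtain ⟨K, iK, iKt, m, hm, hc, ⟨e⟩⟩ := h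
    exact concl_of_good (good_of_equiv e (hTF4 K m hm hc))
  · subst h3
    obtain ⟨K, iK, iKt, m, hm, hc, ⟨e⟩⟩ := h
    exact concl_of_good (good_of_equiv e (hRee K m hm hc))

end Cfsg.Agent.H56.Ord
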