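import Mathlib
import Cfsg.Agent.H56.OrdDefs

/-!
# S2363 team project: the arithmetic cores for `²F₄(q)` and `²G₂(q)`

The order formulas are taken as hypotheses, so that this file stays light.
-/

set_option autoImplicit false

namespace Cfsg.Agent.H56.Ord

theorem sub_one_mul_cube_add_one_lt {q : ℕ} (hq : 1 ≤ q) : (q - 1) * (q ^ 3 + 1) < q ^ 4 := by
  obtain ⟨r, rfl⟩ : ∃ r, q = r + 1 := ⟨q - 1, by omega⟩
  rw [Nat.add_sub_cancel]
  nlinarith [pow_pos (Nat.succ_pos r) 3, sq_nonneg r, pow_pos (Nat.succ_pos r) 2]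

theorem pow4_sub_one_mul_pow6_add_one_lt {q : ℕ} (hq : 2 ≤ q) :
    (q ^ 4 - 1) * (q ^ 6 + 1) < q ^ 10 := by
  have h4 : 1 ≤ q ^ 4 := Nat.one_le_pow _ _ (by omega)
  have h46 : q ^ 4 < q ^ 6 := Nat.pow_lt_pow_right (by omega) (by norm_num)
  have h6 : 1 ≤ q ^ 6 := Nat.one_le_pow _ _ (by omega)
  zify [h4]
  have : ((q : ℤ) ^ 4 - 1) * ((q : ℤ) ^ 6 + 1) = (q : ℤ) ^ 10 - ((q : ℤ) ^ 6 - (q : ℤ) ^ 4 + 1) := by
    ring
  rw [this]
  have : (q : ℤ) ^ 4 < (q : ℤ) ^ 6 := by exact_mod_cast h46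
  linarith

/-- `²F₄(q)`, `q = 2 ^ (2 m + 1)`: the bounds from the order formula. -/
theorem twF4_core {X : Type*} [Group X] (m : ℕ)
    (h : Nat.card X = (2 ^ (2 * m + 1)) ^ 12 * (2 ^ (2 * m + 1) - 1) * ((2 ^ (2 * m + 1)) ^ 3 + 1) *
      ((2 ^ (2 * m + 1)) ^ 4 - 1) * ((2 ^ (2 * m + 1)) ^ 6 + 1)) : Good 2 X := by
  set q : ℕ := 2 ^ (2 * m + 1) with hq
  have hq2 : 2 ≤ q := by
    calc 2 = 2 ^ 1 := by norm_num
      _ ≤ 2 ^ (2 * m + 1) := Nat.pow_le_pow_right (by norm_num) (by omega)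
  have hq0 : q ≠ 0 := by omega
  have hA : (q - 1) * (q ^ 3 + 1) < q ^ 4 := sub_one_mul_cube_add_one_lt (by omega)
  have hB : (q ^ 4 - 1) * (q ^ 6 + 1) < q ^ 10 := pow4_sub_one_mul_pow6_add_one_lt hq2
  have hM : (q - 1) * (q ^ 3 + 1) * ((q ^ 4 - 1) * (q ^ 6 + 1)) < q ^ 14 := by
    calc (q - 1) * (q ^ 3 + 1) * ((q ^ 4 - 1) * (q ^ 6 + 1)) < q ^ 4 * q ^ 10 :=
          Nat.mul_lt_mul'' hA hB
      _ = q ^ 14 := by ring
  refine good_of_eq_q (N := 12) (c := 1)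
    (M := (q - 1) * (q ^ 3 + 1) * ((q ^ 4 - 1) * (q ^ 6 + 1))) Nat.prime_two hq (by omega) ?_
    (Nat.coprime_one_right _) ?_ ?_ ?_
  · rw [one_mul, h]; ring
  · have h1 : Nat.Coprime q (q - 1) := by
      simpa using coprime_pow_sub_one hq0 (d := 1) one_ne_zero
    exact Nat.Coprime.mul_right
      (Nat.Coprime.mul_right h1 (coprime_pow_add_one q (by norm_num)))
      (Nat.Coprime.mul_right (coprime_pow_sub_one hq0 (by norm_num))
        (coprime_pow_add_one q (by norm_num)))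
  · calc (q - 1) * (q ^ 3 + 1) * ((q ^ 4 - 1) * (q ^ 6 + 1)) < q ^ 14 := hM
      _ ≤ q ^ (2 * 12) := Nat.pow_le_pow_right (by omega) (by norm_num)
  · calc ((q - 1) * (q ^ 3 + 1) * ((q ^ 4 - 1) * (q ^ 6 + 1))) ^ 3 < (q ^ 14) ^ 3 :=
          Nat.pow_lt_pow_left hM (by norm_num)
      _ = q ^ 42 := by rw [← pow_mul]
      _ ≤ q ^ (5 * 12) := Nat.pow_le_pow_right (by omega) (by norm_num)

/-- `²G₂(q)`, `q = 3 ^ (2 m + 1)`: the bounds from the order formula. -/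
theorem ree_core {X : Type*} [Group X] (m : ℕ)
    (h : Nat.card X = (3 ^ (2 * m + 1)) ^ 3 * (3 ^ (2 * m + 1) - 1) *
      ((3 ^ (2 * m + 1)) ^ 3 + 1)) : Good 3 X := by
  set q : ℕ := 3 ^ (2 * m + 1) with hq
  have hq2 : 3 ≤ q := by
    calc 3 = 3 ^ 1 := by norm_num
      _ ≤ 3 ^ (2 * m + 1) := Nat.pow_le_pow_right (by norm_num) (by omega)
  have hq0 : q ≠ 0 := by omega
  have hM : (q - 1) * (q ^ 3 + 1) < q ^ 4 := sub_one_mul_cube_add_one_lt (by omega)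
  refine good_of_eq_q (N := 3) (c := 1) (M := (q - 1) * (q ^ 3 + 1)) Nat.prime_three hq (by omega)
    ?_ (Nat.coprime_one_right _) ?_ ?_ ?_
  · rw [one_mul, h]; ring
  · have h1 : Nat.Coprime q (q - 1) := by
      simpa using coprime_pow_sub_one hq0 (d := 1) one_ne_zero
    exact Nat.Coprime.mul_right h1 (coprime_pow_add_one q (by norm_num))
  · calc (q - 1) * (q ^ 3 + 1) < q ^ 4 := hM
      _ ≤ q ^ (2 * 3) := Nat.pow_le_pow_right (by omega) (by norm_num)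
  · calc ((q - 1) * (q ^ 3 + 1)) ^ 3 < (q ^ 4) ^ 3 := Nat.pow_lt_pow_left hM (by norm_num)
      _ = q ^ 12 := by rw [← pow_mul]
      _ ≤ q ^ (5 * 3) := Nat.pow_le_pow_right (by omega) (by norm_num)

end Cfsg.Agent.H56.Ord
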