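import Cfsg.Agent.S1069
import Cfsg.Agent.H56.OrdTwCore

/-!
# S2363 team project: the piece for `²G₂(q)`
-/

set_option autoImplicit false

namespace Cfsg.Agent.H56.Ord

theorem ree : ReeStmt := fun _ _ _ m _ hc => ree_core m (Cfsg.Agent.S1069.result hc)

end Cfsg.Agent.H56.Ord
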