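import Mathlib
import Cfsg.Agent.H26.P2Defs

/-!
# S4705 (helper26's project), piece P2-TRF: transfer into an abelian Sylow subgroup (helper56)

A central element of `G` lying in the commutator subgroup and of order dividing `r` is trivial when the
Sylow `r`-subgroups are abelian: the transfer into a Sylow `r`-subgroup `R` sends a central `z` to
`z ^ [G : R]` and kills the commutator subgroup.
-/

set_option autoImplicit false

namespace Cfsg.Agent.H56.P2

open Cfsg Cfsg.Agent.H26.P2

universe u

theorem trf : StTrf.{u} := by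
  intro G _ _ r _ R hab z hz hzc hzr
  classical
  let _ : CommGroup ↥(R : Subgroup G) :=
    { (inferInstance : Group ↥(R : Subgroup G)) with
      mul_comm := fun a b => Subtype.ext (hab a.1 a.2 b.1 b.2) }
  have hcen : ∀ g : G, g * z = z * g := fun g => Subgroup.mem_center_iff.mp hz g
  have key : ∀ (k : ℕ) (g₀ : G), g₀⁻¹ * z ^ k * g₀ ∈ (R : Subgroup G) → g₀⁻¹ * z ^ k * g₀ = z ^ k := by
    intro k g₀ _
    have h1 : z ^ k * g₀ = g₀ * z ^ k := ((Commute.pow_right (hcen g₀) k)).eq.symm
    rw [mul_assoc, h1, inv_mul_cancel_left]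
  have h1 := MonoidHom.transfer_eq_pow (MonoidHom.id ↥(R : Subgroup G)) z key
  have h2 : MonoidHom.transfer (MonoidHom.id ↥(R : Subgroup G)) z = 1 := by
    have := Abelianization.commutator_subset_ker (MonoidHom.transfer (MonoidHom.id ↥(R : Subgroup G))) hzc
    exact MonoidHom.mem_ker.mp this
  rw [h2] at h1
  have h3 : z ^ (R : Subgroup G).index = 1 := by
    have := congrArg Subtype.val h1
    simpa using this.symm
  have h4 : orderOf z ∣ (R : Subgroup G).index := orderOf_dvd_of_pow_eq_one h3
  have h5 : orderOf z ∣ r := orderOf_dvd_of_pow_eq_one hzr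
  have h6 : ¬ r ∣ (R : Subgroup G).index := R.not_dvd_index
  have hr : r.Prime := Fact.out
  rcases (Nat.dvd_prime hr).mp h5 with h | h
  · exact orderOf_eq_one_iff.mp h
  · exact absurd (h ▸ h4) h6

example : Cfsg.Agent.H26.P2.StTrf.{u} := trf

end Cfsg.Agent.H56.P2
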