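import Cfsg.Agent.H46.SDGlue
import Cfsg.Agent.H78.StbE6Defs
import Cfsg.Agent.H13.StbGE6W0
import Cfsg.Agent.H13.StbGE6Conn
import Cfsg.Agent.H36.StbGE6Syl
import Cfsg.Agent.H56.StbCoordE6
import Cfsg.Agent.H56.StbChain

/-!
# S2156 (helper23's project SD): the instantiation for type `E₆` (helper56)

`sdType_E6 : StType chevE6`: every automorphism of `E₆(F)`, `F` finite, is inner ∘ diagonal ∘ graph ∘ field,
from helper46's generic glue `Cfsg.Agent.H46.SD.sdType_of` and the `E₆` table facts.  Closure: the generic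
engine + the `E₆` tables only.
-/

set_option autoImplicit false
set_option maxRecDepth 100000

namespace Cfsg.Agent.H56.Sd

open Cfsg Cfsg.Lie Cfsg.Agent.H23 Cfsg.Agent.H23.Stb Cfsg.Agent.H23.StbD Cfsg.Agent.H78.StbG

universe u

theorem e6_sig_lt : ∀ i < chevE6.rank, sigE6 i < chevE6.rank := by decide +kernel

theorem e6_sig_sig : ∀ i < chevE6.rank, sigE6 (sigE6 i) = i := by decide +kernel

theorem e6_T1 : ∀ i < chevE6.rank, ∀ j < chevE6.rank, i ≠ j →
    chevE6.commTerms (chevE6.neg (chevE6.simple i)) (chevE6.simple j) = [] := by decide +kernel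

theorem e6_T2 : ∀ i < chevE6.rank, ∀ j < chevE6.rank, i ≠ j →
    zE6 (chevE6.simple j) (chevE6.simple i) = 0 →
    chevE6.commTerms (chevE6.simple i) (chevE6.simple j) = [] := by decide +kernel

theorem e6_T3 : ∀ i < chevE6.rank, ∀ j < chevE6.rank, i ≠ j →
    zE6 (chevE6.simple j) (chevE6.simple i) ≠ 0 →
    chevE6.reflectRoot i (chevE6.simple j) ≠ chevE6.simple j := by decide +kernel

theorem e6_T4 : ∀ i < chevE6.rank, chevE6.reflectRoot i (chevE6.simple i) = chevE6.neg (chevE6.simple i) := by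
  decide +kernel

theorem e6_cz : ∀ i < chevE6.rank, ∀ j < chevE6.rank,
    chevE6.cartan i (chevE6.simple j) = zE6 (chevE6.simple i) (chevE6.simple j) := by decide +kernel

theorem e6_short : ∀ i < chevE6.rank, chevE6.isLong (chevE6.simple i) = false := by decide +kernel

theorem e6_A : ∀ i < chevE6.rank, ∀ j < chevE6.rank, i ≠ j →
    zE6 (chevE6.simple j) (chevE6.simple i) ≠ 0 →
    zE6 (chevE6.simple j) (chevE6.simple i) =
      if chevE6.isLong (chevE6.simple i) && !chevE6.isLong (chevE6.simple j) then -((2 : ℕ) : ℤ) else -1 := by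
  decide +kernel

theorem e6_edge_ne : ∀ i < chevE6.rank, ∀ j < chevE6.rank,
    zE6 (chevE6.simple j) (chevE6.simple i) = -1 → i ≠ j := by decide +kernel

theorem e6_ex : ∃ i < chevE6.rank, ∃ j < chevE6.rank, i ≠ j ∧ zE6 (chevE6.simple j) (chevE6.simple i) = -1 := by
  decide +kernel

/-- **S2156 for `E₆`**: every automorphism of `E₆(F)`, `F` finite, is inner ∘ diagonal ∘ graph ∘ field. -/
theorem sdType_E6 : StType.{u} chevE6 := by
  refine Cfsg.Agent.H46.SD.sdType_of chevE6 zE6 ηE6 rTE6 w0E6 (fun F _ => packS_E6 F) ?_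
    Cfsg.Agent.H56.StbG.m6 Cfsg.Agent.H56.StbG.e6_coord sigE6 e6_sig_lt e6_sig_sig Cfsg.Agent.H13.StbG.e6W0
    e6_T1 e6_T2 e6_T3 e6_T4 2 0 0 e6_cz (Or.inl rfl) e6_A (by decide) (by decide) ?_
    (Or.inr ⟨e6_short, rfl⟩) e6_ex ?_ Cfsg.Agent.H56.StbG.e6_chain
  · intro F _ _ p _ _
    letI : Fintype F := Fintype.ofFinite F
    exact Cfsg.Agent.H36.StbG.e6Syl F p
  · intro P h0 _ hstep
    refine Cfsg.Agent.H13.StbG.e6Conn.2 P h0 ?_
    intro i hi j hj hz hPi
    exact hstep i hi j hj (e6_edge_ne i hi j hj hz) (by rw [hz]; decide)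
      (by rw [e6_short i hi, e6_short j hj]) hPi
  · intro π hπ _ _
    left
    intro i hi
    rw [e6_short i hi, e6_short (π i) (hπ i hi)]

example : Cfsg.Agent.H23.StbD.StType.{u} chevE6 := sdType_E6

end Cfsg.Agent.H56.Sd

#print axioms Cfsg.Agent.H56.Sd.sdType_E6
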