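import Cfsg.Agent.H46.SDGlue
import Cfsg.Agent.H46.OutE7
import Cfsg.Agent.H56.SdE7Tab
import Cfsg.Agent.H56.StbCoordE7
import Cfsg.Agent.H56.StbChain

/-!
# S2156 (helper23's project SD): the instantiation for type `E₇` (helper56)

`sdType_E7 : StType chevE7`: every automorphism of `E₇(F)`, `F` finite, is inner ∘ diagonal ∘ graph ∘ field,
from helper46's generic glue `Cfsg.Agent.H46.SD.sdType_of`, the pack `e7_packS` and `e7_w0` of
`Cfsg/Agent/H46/OutE7.lean`, the Sylow statement of `Cfsg/Agent/H23/SylowU.lean` and the table facts of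
`Cfsg/Agent/H56/SdE7Tab.lean`.
-/

set_option autoImplicit false

namespace Cfsg.Agent.H56.Sd

open Cfsg Cfsg.Lie Cfsg.Agent.H23 Cfsg.Agent.H23.Stb Cfsg.Agent.H23.StbD

universe u

/-- **S2156 for `E₇`**: every automorphism of `E₇(F)`, `F` finite, is inner ∘ diagonal ∘ graph ∘ field. -/
theorem sdType_E7 : StType.{u} chevE7 := by
  refine Cfsg.Agent.H46.SD.sdType_of chevE7 (zR chevE7 ctblE7) Cfsg.Agent.H46.OutE.eta7 rTE7 w0E7
    (fun F _ => Cfsg.Agent.H46.OutE.e7_packS F) ?_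
    Cfsg.Agent.H56.StbG.mCE7 Cfsg.Agent.H56.StbG.e7_coord (fun i => i) (fun _ hi => hi) (fun _ _ => rfl)
    Cfsg.Agent.H46.OutE.e7_w0
    e7_T1 e7_T2 e7_T3 e7_T4 2 0 0 e7_cz (Or.inl rfl) e7_A (by decide) (by decide) e7_conn
    (Or.inr ⟨e7_short, rfl⟩) e7_ex e7_pilen Cfsg.Agent.H56.StbG.e7_chain
  intro F _ _ p _ _
  letI : Fintype F := Fintype.ofFinite F
  exact Cfsg.Agent.H23.exists_sylow_posUnipotent p chevE7 (by simp)

example : Cfsg.Agent.H23.StbD.StType.{u} chevE7 := sdType_E7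

end Cfsg.Agent.H56.Sd

#print axioms Cfsg.Agent.H56.Sd.sdType_E7
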