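import Cfsg.Agent.H46.SDGlue
import Cfsg.Agent.H46.OutE8
import Cfsg.Agent.H56.SdE8Tab
import Cfsg.Agent.H56.StbCoordE8
import Cfsg.Agent.H56.StbChain

/-!
# S2156 (helper23's project SD): the instantiation for type `E₈` (helper56)

`sdType_E8 : StType chevE8`: every automorphism of `E₈(F)`, `F` finite, is inner ∘ diagonal ∘ graph ∘ field,
from helper46's generic glue `Cfsg.Agent.H46.SD.sdType_of`, the pack `e8_packS` and `e8_w0` of
`Cfsg/Agent/H46/OutE8.lean`, the Sylow statement of `Cfsg/Agent/H23/SylowU.lean` and the table facts of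
`Cfsg/Agent/H56/SdE8Tab.lean`.
-/

set_option autoImplicit false

namespace Cfsg.Agent.H56.Sd

open Cfsg Cfsg.Lie Cfsg.Agent.H23 Cfsg.Agent.H23.Stb Cfsg.Agent.H23.StbD

universe u

/-- **S2156 for `E₈`**: every automorphism of `E₈(F)`, `F` finite, is inner ∘ diagonal ∘ graph ∘ field. -/
theorem sdType_E8 : StType.{u} chevE8 := by
  refine Cfsg.Agent.H46.SD.sdType_of chevE8 (zR chevE8 ctblE8) Cfsg.Agent.H46.OutE.eta8 rTE8 w0E8
    (fun F _ => Cfsg.Agent.H46.OutE.e8_packS F) ?_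
    Cfsg.Agent.H56.StbG.mCE8 Cfsg.Agent.H56.StbG.e8_coord (fun i => i) (fun _ hi => hi) (fun _ _ => rfl)
    Cfsg.Agent.H46.OutE.e8_w0
    e8_T1 e8_T2 e8_T3 e8_T4 2 0 0 e8_cz (Or.inl rfl) e8_A (by decide) (by decide) e8_conn
    (Or.inr ⟨e8_short, rfl⟩) e8_ex e8_pilen Cfsg.Agent.H56.StbG.e8_chain
  intro F _ _ p _ _
  letI : Fintype F := Fintype.ofFinite F
  exact Cfsg.Agent.H23.exists_sylow_posUnipotent p chevE8 (by simp)

example : Cfsg.Agent.H23.StbD.StType.{u} chevE8 := sdType_E8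

end Cfsg.Agent.H56.Sd

#print axioms Cfsg.Agent.H56.Sd.sdType_E8
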