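import Cfsg.Agent.H23.Tw3
import Cfsg.Agent.H56.SqDefs

/-!
# S4625 team project: twisted groups in characteristic 2 (generic part)

On top of helper23's twisting engine (`H23.Tw3`): if the block elements are involutions, then the
fixed points of the twisting endomorphism in `U` are generated by involutions (`fix_closure_invol`),
hence a twisted group `K` whose `U ⊓ K` is a 2-group of odd index is `GoodSyl` (`goodSyl_tw`).
-/

set_option autoImplicit false

namespace Cfsg.Agent.H56.Sq

open Cfsg.Lie Cfsg.Agent.H23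

variable {D : ChevalleyDatum} {F : Type*} [Field F] {z η : ℕ → ℕ → ℤ}

/-- `xL` at the zero parameter. -/
theorem xL_zero (hS : Sem D F z) (L : List ℕ) : xL hS L (fun _ => (0 : F)) = 1 := by
  induction L with
  | nil => rfl
  | cons a L ih => rw [xL_cons, ih, xU_zero, mul_one]

/-- A fundamental root element commuting with the root elements of a list commutes with `xL`. -/
theorem xL_comm (hS : Sem D F z) (a : ℕ) (L : List ℕ)
    (hc : ∀ j ∈ L, ∀ t u : F, xU hS (D.simple a) t * xU hS (D.simple j) u =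
      xU hS (D.simple j) u * xU hS (D.simple a) t)
    (t : ℕ → F) (c : F) :
    xU hS (D.simple a) c * xL hS L t = xL hS L t * xU hS (D.simple a) c := by
  induction L with
  | nil => simp [xL]
  | cons b L ih =>
    rw [xL_cons, ← mul_assoc, ih (fun j hj => hc j (List.mem_cons_of_mem _ hj)), mul_assoc,
      hc b (List.mem_cons_self ..), ← mul_assoc]

/-- In characteristic 2, `xL` over pairwise commuting fundamental root subgroups is an
involution. -/
theorem xL_mul_self (hS : Sem D F z) (h2 : (2 : F) = 0) (L : List ℕ)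
    (hc : ∀ j ∈ L, ∀ j' ∈ L, j ≠ j' → ∀ t u : F,
      xU hS (D.simple j) t * xU hS (D.simple j') u = xU hS (D.simple j') u * xU hS (D.simple j) t)
    (hnd : L.Nodup) (t : ℕ → F) : xL hS L t * xL hS L t = 1 := by
  induction L with
  | nil => simp [xL]
  | cons a L ih =>
    have hnd' := List.nodup_cons.mp hnd
    have hca : ∀ j ∈ L, ∀ t u : F, xU hS (D.simple a) t * xU hS (D.simple j) u =
        xU hS (D.simple j) u * xU hS (D.simple a) t := by
      intro j hj
      exact hc a (List.mem_cons_self ..) j (List.mem_cons_of_mem _ hj)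
        (by rintro rfl; exact hnd'.1 hj)
    rw [xL_cons]
    calc xL hS L t * xU hS (D.simple a) (t a) * (xL hS L t * xU hS (D.simple a) (t a))
        = xL hS L t * (xU hS (D.simple a) (t a) * xL hS L t) * xU hS (D.simple a) (t a) := by
          group
      _ = xL hS L t * (xL hS L t * xU hS (D.simple a) (t a)) * xU hS (D.simple a) (t a) := by
          rw [xL_comm hS a L hca]
      _ = (xL hS L t * xL hS L t) * (xU hS (D.simple a) (t a) * xU hS (D.simple a) (t a)) := by
          group
      _ = 1 := by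
          rw [ih (fun j hj j' hj' => hc j (List.mem_cons_of_mem _ hj) j' (List.mem_cons_of_mem _ hj'))
            hnd'.2, xU_mul, ← two_mul, h2, zero_mul, xU_zero, one_mul]

/-- From the orders: `U` is a 2-group of odd index in `K`. -/
theorem pgroup_index_of_card {G : Type*} [Group G] (K U : Subgroup G) [Finite K] (hUK : U ≤ K)
    (a N M c : ℕ) (hU : Nat.card U = (2 ^ a) ^ N) (hK : c * Nat.card K = (2 ^ a) ^ N * M)
    (hM : ¬ 2 ∣ M) : IsPGroup 2 U ∧ ¬ 2 ∣ (U.subgroupOf K).index := by
  have : Fact (Nat.Prime 2) := ⟨Nat.prime_two⟩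
  refine ⟨IsPGroup.of_card (n := a * N) (by rw [hU, pow_mul]), ?_⟩
  intro hdvd
  have h1 : Nat.card (U.subgroupOf K) = (2 ^ a) ^ N := by
    rw [Nat.card_congr (Subgroup.subgroupOfEquivOfLe hUK).toEquiv, hU]
  have h2 := Subgroup.card_mul_index (U.subgroupOf K)
  rw [h1] at h2
  rw [← h2] at hK
  have h3 : (2 ^ a) ^ N * (c * (U.subgroupOf K).index) = (2 ^ a) ^ N * M := by
    rw [← hK]; ring
  have h4 : c * (U.subgroupOf K).index = M :=
    Nat.eq_of_mul_eq_mul_left (pow_pos (pow_pos (by norm_num) a) N) h3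
  exact hM (h4 ▸ Dvd.dvd.mul_left hdvd c)

/-- A prime power `q` with `q ^ e` the order of a field of characteristic 2 is a power of 2. -/
theorem exists_two_pow_of_card {K : Type*} [Field K] [Fintype K] [CharP K 2] {q e : ℕ}
    (hq : IsPrimePow q) (he : e ≠ 0) (hK : Fintype.card K = q ^ e) : ∃ a, 1 ≤ a ∧ q = 2 ^ a := by
  have : Fact (Nat.Prime 2) := ⟨Nat.prime_two⟩
  obtain ⟨n, _, hn⟩ := FiniteField.card K 2
  have h1 : q ∣ 2 ^ (n : ℕ) := by
    rw [← hn, hK]
    exact dvd_pow_self q he
  obtain ⟨a, _, ha⟩ := (Nat.dvd_prime_pow Nat.prime_two).mp h1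
  refine ⟨a, ?_, ha⟩
  rcases Nat.eq_zero_or_pos a with h0 | h0
  · exfalso
    rw [h0, pow_zero] at ha
    exact absurd hq.one_lt (by omega)
  · exact h0

section Fix

variable (hP : PackB D F z η) (hV : SemV D F) {rT : List ℕ} (hTT : TabT D rT) (hTL : TabL D rT)
  {T : TwSys hP.sem} (B : TwBlocks T)
include hV hTT hTL

/-- If the block elements are involutions, the fixed points in `U_n⁻` are generated by the
fixed involutions in `U_n⁻`. -/
theorem fix_closure_invol
    (hinv : ∀ L ∈ B.blocks, ∀ s ∈ B.S L, B.gen L s * B.gen L s = 1) :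
    ∀ N : ℕ, ∀ w : List ℕ, BW B.blocks w → invN D w.reverse < N →
      ∀ u ∈ UmG D F (nWU hP.sem w), T.σ u = u →
        u ∈ Subgroup.closure
          {t : GL D.Idx F | t ∈ UmG D F (nWU hP.sem w) ∧ T.σ t = t ∧ t * t = 1} := by
  have hS := hP.sem
  intro N
  induction N with
  | zero => intro w _ h; omega
  | succ N ih =>
    intro w hw hN u hu hfix
    by_cases h0 : invN D w.reverse = 0
    · rw [UmG_eq_bot hP hV w (hw.lt B) h0, Subgroup.mem_bot] at hu
      rw [hu]; exact Subgroup.one_mem _
    · obtain ⟨L, hL, hneg⟩ := exists_block_neg hP hV hTT hTL B w hw (by omega)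
      obtain ⟨u', hu', hfix', s, hs, rfl⟩ := fix_peel hP hV hTT hTL B w hw L hL hneg u hu hfix
      have hb := B.blk L hL
      have hlen : 0 < L.length := List.length_pos_iff.mpr hb.ne
      have hinvN := invN_block hS hP.tab L hb.ok w (hw.lt B) hneg
      have h1 := ih (w ++ L) (hw.append hL) (by omega) u' hu' hfix'
      have hconj : ∀ x ∈ Subgroup.closure
          {t : GL D.Idx F | t ∈ UmG D F (nWU hP.sem (w ++ L)) ∧ T.σ t = t ∧ t * t = 1},
          nWU hP.sem L * x * (nWU hP.sem L)⁻¹ ∈ Subgroup.closure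
            {t : GL D.Idx F | t ∈ UmG D F (nWU hP.sem w) ∧ T.σ t = t ∧ t * t = 1} := by
        intro x hx
        induction hx using Subgroup.closure_induction with
        | mem x hx =>
          apply Subgroup.subset_closure
          refine ⟨?_, ?_, ?_⟩
          · have h3 := peel_mem hP hV hTT hTL L hb.ok w (hw.lt B) hneg x hx.1 (fun _ => 0)
            rwa [xL_zero, mul_one] at h3
          · rw [map_mul, map_mul, map_inv, hb.nfix, hx.2.1]
          · calc nWU hP.sem L * x * (nWU hP.sem L)⁻¹ * (nWU hP.sem L * x * (nWU hP.sem L)⁻¹)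
                = nWU hP.sem L * (x * x) * (nWU hP.sem L)⁻¹ := by group
              _ = 1 := by rw [hx.2.2]; group
        | one =>
          have e : nWU hP.sem L * 1 * (nWU hP.sem L)⁻¹ = 1 := by group
          rw [e]; exact Subgroup.one_mem _
        | mul x y _ _ ihx ihy =>
          have e : nWU hP.sem L * (x * y) * (nWU hP.sem L)⁻¹ =
              (nWU hP.sem L * x * (nWU hP.sem L)⁻¹) * (nWU hP.sem L * y * (nWU hP.sem L)⁻¹) := by
            group
          rw [e]; exact Subgroup.mul_mem _ ihx ihy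
        | inv x _ ihx =>
          have e : nWU hP.sem L * x⁻¹ * (nWU hP.sem L)⁻¹ =
              (nWU hP.sem L * x * (nWU hP.sem L)⁻¹)⁻¹ := by group
          rw [e]; exact Subgroup.inv_mem _ ihx
      refine Subgroup.mul_mem _ (hconj u' h1)
        (Subgroup.subset_closure ⟨?_, hb.gfix s hs, hinv L hL s hs⟩)
      obtain ⟨t, ht⟩ := hb.gform s hs
      have h3 := peel_mem hP hV hTT hTL L hb.ok w (hw.lt B) hneg 1 (Subgroup.one_mem _) t
      rw [ht]
      have e : nWU hP.sem L * 1 * (nWU hP.sem L)⁻¹ * xL hP.sem L t = xL hP.sem L t := by group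
      rwa [e] at h3

/-- A twisted group `K` (fixed points, containing the block elements) in which `U ⊓ K` is a
2-group of odd index and whose block elements are involutions is `GoodSyl`. -/
theorem goodSyl_tw (K : Subgroup (GL D.Idx F))
    (hfix : ∀ g ∈ K, T.σ g = g)
    (hnmem : ∀ L ∈ B.blocks, nWU hP.sem L ∈ K)
    (hgmem : ∀ L ∈ B.blocks, ∀ s ∈ B.S L, B.gen L s ∈ K)
    (w₀ : List ℕ) (hW : TabW D w₀) (hbw : BW B.blocks w₀)
    (hinv : ∀ L ∈ B.blocks, ∀ s ∈ B.S L, B.gen L s * B.gen L s = 1)
    (hp : IsPGroup 2 ↥(D.posUnipotent F ⊓ K))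
    (hidx : ¬ 2 ∣ ((D.posUnipotent F ⊓ K).subgroupOf K).index) : GoodSyl ↥K := by
  have hUK : D.posUnipotent F ⊓ K ≤ K := inf_le_right
  refine goodSyl_of_invol ((D.posUnipotent F ⊓ K).subgroupOf K)
    (hp.of_equiv (Subgroup.subgroupOfEquivOfLe hUK).symm) hidx ?_
  · intro u hu
    have hu' : (u : GL D.Idx F) ∈ D.posUnipotent F ⊓ K := Subgroup.mem_subgroupOf.mp hu
    have hmem := fix_closure_invol hP hV hTT hTL B hinv (invN D w₀.reverse + 1) w₀ hbw
      (Nat.lt_succ_self _) (u : GL D.Idx F) (pos_le_UmG hP w₀ hW hu'.1) (hfix _ u.2)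
    have key : ∀ x ∈ Subgroup.closure
        {t : GL D.Idx F | t ∈ UmG D F (nWU hP.sem w₀) ∧ T.σ t = t ∧ t * t = 1},
        ∀ hx : x ∈ K, (⟨x, hx⟩ : K) ∈ Subgroup.closure
          {t : K | t ∈ (D.posUnipotent F ⊓ K).subgroupOf K ∧ t ^ 2 = 1} := by
      have hSK : ∀ t ∈ {t : GL D.Idx F | t ∈ UmG D F (nWU hP.sem w₀) ∧ T.σ t = t ∧ t * t = 1},
          t ∈ K := by
        intro t ht
        exact fix_mem hP hV hTT hTL B K hnmem hgmem (invN D w₀.reverse + 1) w₀ hbw
          (Nat.lt_succ_self _) t ht.1 ht.2.1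
      have hcl : Subgroup.closure
          {t : GL D.Idx F | t ∈ UmG D F (nWU hP.sem w₀) ∧ T.σ t = t ∧ t * t = 1} ≤ K :=
        (Subgroup.closure_le K).2 hSK
      intro x hx
      induction hx using Subgroup.closure_induction with
      | mem x hx =>
        intro hxK
        apply Subgroup.subset_closure
        refine ⟨Subgroup.mem_subgroupOf.mpr ⟨UmG_le_pos _ hx.1, hxK⟩, ?_⟩
        apply Subtype.ext
        rw [pow_two]
        exact hx.2.2
      | one =>
        intro _
        exact Subgroup.one_mem _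
      | mul x y hx hy ihx ihy =>
        intro hxy
        exact Subgroup.mul_mem _ (ihx (hcl hx)) (ihy (hcl hy))
      | inv x hx ihx =>
        intro hxi
        exact Subgroup.inv_mem _ (ihx (hcl hx))
    exact key _ hmem u.2

end Fix

end Cfsg.Agent.H56.Sq
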