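import Cfsg.Agent.H23.TwD4g
import Cfsg.Agent.S1088
import Cfsg.Agent.H56.SqTwGen

/-!
# S4625 team project, piece TWD4: `³D₄(q)`, `q` even

`U ⊓ ³D₄(q)` is a 2-group of odd index (H23 `twD4_card`, S1088) generated by involutions
(`H56.Sq.goodSyl_tw`: the block elements are products of commuting root involutions).
-/

set_option autoImplicit false

namespace Cfsg.Agent.H56.Sq

open Cfsg Cfsg.Lie Cfsg.Agent.H23

theorem twD4_odd_sub {Q k : ℕ} (hQ : 2 ∣ Q) (hQ0 : 0 < Q) (hk : k ≠ 0) : ¬ 2 ∣ Q ^ k - 1 := by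
  intro h
  have h1 : 2 ∣ Q ^ k := Dvd.dvd.trans hQ (dvd_pow_self Q hk)
  have h2 : 1 ≤ Q ^ k := Nat.one_le_pow _ _ hQ0
  omega

theorem twD4_odd_add {Q k : ℕ} (hQ : 2 ∣ Q) (hk : k ≠ 0) (c : ℕ) (hc : 2 ∣ c) :
    ¬ 2 ∣ c + Q ^ k + 1 := by
  intro h
  have h1 : 2 ∣ Q ^ k := Dvd.dvd.trans hQ (dvd_pow_self Q hk)
  omega

/-- S4625-TWD4. -/
theorem sqTwD4 : TwD4Stmt := by
  intro K _ _ _ q hq hK _
  have h2 : (2 : K) = 0 := CharTwo.two_eq_zero
  obtain ⟨a, ha1, rfl⟩ := exists_two_pow_of_card (K := K) hq (by norm_num : (3 : ℕ) ≠ 0) hK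
  obtain ⟨T, B, hG, hblk, -, -, -, -, -⟩ := Cfsg.Agent.H23.tw_D4 hq hK
  have hV : SemV chevD4 K := Cfsg.Agent.H23.trin_D4.semV Cfsg.Agent.H23.chk_D4.tblOK K
  have hinv : ∀ L ∈ B.blocks, ∀ s ∈ B.S L, B.gen L s * B.gen L s = 1 := by
    intro L hL s hs
    obtain ⟨t, ht⟩ := (B.blk L hL).gform s hs
    rw [ht]
    refine xL_mul_self (packB_D4 K).sem h2 L ?_ (B.blk L hL).ok.nodup t
    rw [hblk] at hL
    simp only [blkD4, List.mem_cons, List.not_mem_nil, or_false] at hL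
    rcases hL with rfl | rfl
    · intro j hj j' hj' hne
      simp only [List.mem_singleton] at hj hj'
      exact absurd (hj.trans hj'.symm) hne
    · have e0 : chevD4.simple 0 = 18 := (twD4_tab 0 (by decide)).1
      have e2 : chevD4.simple 2 = 13 := (twD4_tab 2 (by decide)).1
      have e3 : chevD4.simple 3 = 12 := (twD4_tab 3 (by decide)).1
      have c1 : ∀ t u : K, xU (packB_D4 K).sem 18 t * xU (packB_D4 K).sem 13 u =
          xU (packB_D4 K).sem 13 u * xU (packB_D4 K).sem 18 t :=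
        fun t u => twD4_comm (F := K) (18, 13) (by decide) t u
      have c2 : ∀ t u : K, xU (packB_D4 K).sem 18 t * xU (packB_D4 K).sem 12 u =
          xU (packB_D4 K).sem 12 u * xU (packB_D4 K).sem 18 t :=
        fun t u => twD4_comm (F := K) (18, 12) (by decide) t u
      have c3 : ∀ t u : K, xU (packB_D4 K).sem 13 t * xU (packB_D4 K).sem 12 u =
          xU (packB_D4 K).sem 12 u * xU (packB_D4 K).sem 13 t :=
        fun t u => twD4_comm (F := K) (13, 12) (by decide) t u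
      intro j hj j' hj' hne t u
      simp only [List.mem_cons, List.not_mem_nil, or_false] at hj hj'
      rcases hj with rfl | rfl | rfl <;> rcases hj' with rfl | rfl | rfl
      · exact absurd rfl hne
      · rw [e0, e2]; exact c1 t u
      · rw [e0, e3]; exact c2 t u
      · rw [e0, e2]; exact (c1 u t).symm
      · exact absurd rfl hne
      · rw [e2, e3]; exact c3 t u
      · rw [e0, e3]; exact (c2 u t).symm
      · rw [e2, e3]; exact (c3 u t).symm
      · exact absurd rfl hne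
  have hcardU : Nat.card ↥(chevD4.posUnipotent K ⊓ twistedD4 K (2 ^ a)) = (2 ^ a) ^ 12 :=
    Cfsg.Agent.S1088.result hq hK
  have hcardK := Cfsg.Agent.H23.twD4_card hq hK
  have hQ : 2 ∣ 2 ^ a := dvd_pow_self 2 (by omega)
  have hQ0 : 0 < 2 ^ a := pow_pos (by norm_num) a
  have hM : ¬ 2 ∣ ((2 ^ a) ^ 2 - 1) * ((2 ^ a) ^ 6 - 1) * ((2 ^ a) ^ 8 + (2 ^ a) ^ 4 + 1) := by
    intro h
    rcases (Nat.Prime.dvd_mul Nat.prime_two).mp h with h | h
    · rcases (Nat.Prime.dvd_mul Nat.prime_two).mp h with h | h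
      · exact twD4_odd_sub hQ hQ0 (by norm_num) h
      · exact twD4_odd_sub hQ hQ0 (by norm_num) h
    · exact twD4_odd_add hQ (by norm_num : (4 : ℕ) ≠ 0) ((2 ^ a) ^ 8)
        (Dvd.dvd.trans hQ (dvd_pow_self _ (by norm_num))) h
  have hfin : Finite ↥(twistedD4 K (2 ^ a)) := inferInstance
  obtain ⟨hp, hidx⟩ := pgroup_index_of_card (twistedD4 K (2 ^ a))
    (chevD4.posUnipotent K ⊓ twistedD4 K (2 ^ a)) inf_le_right a 12
    (((2 ^ a) ^ 2 - 1) * ((2 ^ a) ^ 6 - 1) * ((2 ^ a) ^ 8 + (2 ^ a) ^ 4 + 1)) 1 hcardU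
    (by rw [one_mul, hcardK]; ring) hM
  exact goodSyl_tw (packB_D4 K) hV tabT_D4 tabL_D4 B (twistedD4 K (2 ^ a)) hG.fix hG.nmem hG.gmem
    w0bD4 tabW_D4b (by rw [hblk]; exact twD4_bw) hinv hp hidx

example : TwD4Stmt := sqTwD4

end Cfsg.Agent.H56.Sq
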