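import Cfsg.Agent.H23.TwE6l
import Cfsg.Agent.S1086
import Cfsg.Agent.H56.SqTwGen

/-!
# S4625 team project, piece TWE6: `²E₆(q)`, `q` even

`U ⊓ ²E₆(q)` is a 2-group of odd index (H23 `twE6_card`, S1086) generated by involutions
(`H56.Sq.goodSyl_tw`: the block elements are products of commuting root involutions).
-/

set_option autoImplicit false

namespace Cfsg.Agent.H56.Sq

open Cfsg Cfsg.Lie Cfsg.Agent.H23

theorem twE6_odd_sub {Q k : ℕ} (hQ : 2 ∣ Q) (hQ0 : 0 < Q) (hk : k ≠ 0) : ¬ 2 ∣ Q ^ k - 1 := by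
  intro h
  have h1 : 2 ∣ Q ^ k := Dvd.dvd.trans hQ (dvd_pow_self Q hk)
  have h2 : 1 ≤ Q ^ k := Nat.one_le_pow _ _ hQ0
  omega

theorem twE6_odd_add {Q k : ℕ} (hQ : 2 ∣ Q) (hk : k ≠ 0) : ¬ 2 ∣ Q ^ k + 1 := by
  intro h
  have h1 : 2 ∣ Q ^ k := Dvd.dvd.trans hQ (dvd_pow_self Q hk)
  omega

/-- S4625-TWE6. -/
theorem sqTwE6 : TwE6Stmt := by
  intro K _ _ _ q hq hK _
  have h2 : (2 : K) = 0 := CharTwo.two_eq_zero
  obtain ⟨a, ha1, rfl⟩ := exists_two_pow_of_card (K := K) hq (by norm_num : (2 : ℕ) ≠ 0) hK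
  obtain ⟨T, B, hG, hblk, -, -, -, -, -⟩ := Cfsg.Agent.H23.tw_E6 hq hK
  have hV : SemV chevE6 K := Cfsg.Agent.H23.trin_E6.semV Cfsg.Agent.H23.chk_E6.tblOK K
  have hinv : ∀ L ∈ B.blocks, ∀ s ∈ B.S L, B.gen L s * B.gen L s = 1 := by
    intro L hL s hs
    obtain ⟨t, ht⟩ := (B.blk L hL).gform s hs
    rw [ht]
    refine xL_mul_self (packB_E6 K).sem h2 L ?_ (B.blk L hL).ok.nodup t
    rw [hblk] at hL
    simp only [blkE6, List.mem_cons, List.not_mem_nil, or_false] at hL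
    rcases hL with rfl | rfl | rfl | rfl
    · intro j hj j' hj' hne
      simp only [List.mem_singleton] at hj hj'
      exact absurd (hj.trans hj'.symm) hne
    · intro j hj j' hj' hne
      simp only [List.mem_singleton] at hj hj'
      exact absurd (hj.trans hj'.symm) hne
    · have e0 : chevE6.simple 0 = 56 := (twE6_tab 0 (by decide)).1
      have e5 : chevE6.simple 5 = 36 := (twE6_tab 5 (by decide)).1
      have c1 : ∀ t u : K, xU (packB_E6 K).sem 56 t * xU (packB_E6 K).sem 36 u =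
          xU (packB_E6 K).sem 36 u * xU (packB_E6 K).sem 56 t :=
        fun t u => twE6_comm (F := K) (56, 36) (by decide) t u
      intro j hj j' hj' hne t u
      simp only [List.mem_cons, List.not_mem_nil, or_false] at hj hj'
      rcases hj with rfl | rfl <;> rcases hj' with rfl | rfl
      · exact absurd rfl hne
      · rw [e0, e5]; exact c1 t u
      · rw [e0, e5]; exact (c1 u t).symm
      · exact absurd rfl hne
    · have e2 : chevE6.simple 2 = 42 := (twE6_tab 2 (by decide)).1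
      have e4 : chevE6.simple 4 = 37 := (twE6_tab 4 (by decide)).1
      have c1 : ∀ t u : K, xU (packB_E6 K).sem 42 t * xU (packB_E6 K).sem 37 u =
          xU (packB_E6 K).sem 37 u * xU (packB_E6 K).sem 42 t :=
        fun t u => twE6_comm (F := K) (42, 37) (by decide) t u
      intro j hj j' hj' hne t u
      simp only [List.mem_cons, List.not_mem_nil, or_false] at hj hj'
      rcases hj with rfl | rfl <;> rcases hj' with rfl | rfl
      · exact absurd rfl hne
      · rw [e2, e4]; exact c1 t u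
      · rw [e2, e4]; exact (c1 u t).symm
      · exact absurd rfl hne
  have hcardU : Nat.card ↥(chevE6.posUnipotent K ⊓ twistedE6 K (2 ^ a)) = (2 ^ a) ^ 36 :=
    Cfsg.Agent.S1086.result hq hK
  have hcardK := Cfsg.Agent.H23.twE6_card hq hK
  have hQ : 2 ∣ 2 ^ a := dvd_pow_self 2 (by omega)
  have hQ0 : 0 < 2 ^ a := pow_pos (by norm_num) a
  have hM : ¬ 2 ∣ ((2 ^ a) ^ 2 - 1) * ((2 ^ a) ^ 5 + 1) * ((2 ^ a) ^ 6 - 1) * ((2 ^ a) ^ 8 - 1) *
      ((2 ^ a) ^ 9 + 1) * ((2 ^ a) ^ 12 - 1) := by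
    intro h
    rcases (Nat.Prime.dvd_mul Nat.prime_two).mp h with h | h
    · rcases (Nat.Prime.dvd_mul Nat.prime_two).mp h with h | h
      · rcases (Nat.Prime.dvd_mul Nat.prime_two).mp h with h | h
        · rcases (Nat.Prime.dvd_mul Nat.prime_two).mp h with h | h
          · rcases (Nat.Prime.dvd_mul Nat.prime_two).mp h with h | h
            · exact twE6_odd_sub hQ hQ0 (by norm_num) h
            · exact twE6_odd_add hQ (by norm_num) h
          · exact twE6_odd_sub hQ hQ0 (by norm_num) h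
        · exact twE6_odd_sub hQ hQ0 (by norm_num) h
      · exact twE6_odd_add hQ (by norm_num) h
    · exact twE6_odd_sub hQ hQ0 (by norm_num) h
  have hfin : Finite ↥(twistedE6 K (2 ^ a)) := inferInstance
  obtain ⟨hp, hidx⟩ := pgroup_index_of_card (twistedE6 K (2 ^ a))
    (chevE6.posUnipotent K ⊓ twistedE6 K (2 ^ a)) inf_le_right a 36
    (((2 ^ a) ^ 2 - 1) * ((2 ^ a) ^ 5 + 1) * ((2 ^ a) ^ 6 - 1) * ((2 ^ a) ^ 8 - 1) *
      ((2 ^ a) ^ 9 + 1) * ((2 ^ a) ^ 12 - 1)) (Nat.gcd 3 (2 ^ a + 1)) hcardU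
    (by rw [hcardK]; ring) hM
  exact goodSyl_tw (packB_E6 K) hV tabT_E6 tabL_E6 B (twistedE6 K (2 ^ a)) hG.fix hG.nmem hG.gmem
    w0bE6 tabW_E6b (by rw [hblk]; exact twE6_bw) hinv hp hidx

example : TwE6Stmt := sqTwE6

end Cfsg.Agent.H56.Sq
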