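import Cfsg.Agent.H56.SqDefs
import Cfsg.Agent.H50.AutPSLSylow

/-!
# S4625 team project: the upper unitriangular group in characteristic 2 is generated by involutions

`Uni n F` (helper50) is generated by the row elements `1 + e_k ρᵀ` (`ρ` supported above `k`),
which are involutions in characteristic 2.
-/

set_option autoImplicit false

namespace Cfsg.Agent.H56.Sq

open Matrix Cfsg.Agent.H50.AutPSL Cfsg.Agent.H50.GraphAut

variable {n : ℕ} {F : Type*} [Field F]

/-- The entries of `M * (1 + e_k ρᵀ)`. -/
theorem mul_tvM_bv_apply (M : Matrix (Fin n) (Fin n) F) (k : Fin n) (ρ : Fin n → F)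
    (i j : Fin n) : (M * tvM (bv k) ρ) i j = M i j + M i k * ρ j := by
  rw [tvM, Matrix.mul_add, Matrix.mul_one, Matrix.add_apply, Matrix.mul_apply]
  congr 1
  rw [Finset.sum_eq_single k]
  · rw [Matrix.vecMulVec_apply, bv_same, one_mul]
  · intro l _ hl
    rw [Matrix.vecMulVec_apply, bv_ne hl, zero_mul, mul_zero]
  · intro h
    exact absurd (Finset.mem_univ k) h

/-- The row element `1 + e_k ρᵀ` is upper unitriangular when `ρ` is supported above `k`. -/
theorem isUT_rowElt (k : Fin n) (ρ : Fin n → F) (hρ : ∀ j, j ≤ k → ρ j = 0) :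
    IsUT (tvM (bv k) ρ) := by
  constructor
  · intro i j hji
    rw [tvM_apply, if_neg (ne_of_gt hji), zero_add]
    by_cases hi : i = k
    · rw [hρ j (by rw [← hi]; exact hji.le), mul_zero]
    · rw [bv_ne hi, zero_mul]
  · intro i
    rw [tvM_apply, if_pos rfl]
    by_cases hi : i = k
    · rw [hρ i (by rw [hi]), mul_zero, add_zero]
    · rw [bv_ne hi, zero_mul, add_zero]

/-- In characteristic 2 the row element is an involution. -/
theorem rowElt_mul_self [CharP F 2] (k : Fin n) (ρ : Fin n → F) (hρ : ρ k = 0) :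
    tvM (bv k) ρ * tvM (bv k) ρ = 1 := by
  ext i j
  rw [mul_tvM_bv_apply, tvM_apply, tvM_apply, hρ, mul_zero, add_zero]
  by_cases hi : i = k
  · subst hi
    simp only [if_pos, bv_same, one_mul, add_assoc, CharTwo.add_self_eq_zero, add_zero,
      Matrix.one_apply]
  · simp only [if_neg hi, bv_ne hi, zero_mul, add_zero, Matrix.one_apply]

variable [Fintype F]

/-- In characteristic 2 the upper unitriangular group is generated by involutions. -/
theorem uni_le_closure_invol [CharP F 2] :
    Uni n F ≤ Subgroup.closure {t : Matrix.SpecialLinearGroup (Fin n) F | t ∈ Uni n F ∧ t ^ 2 = 1} := by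
  have key : ∀ d k : ℕ, k + d = n → ∀ s : Matrix.SpecialLinearGroup (Fin n) F, IsUT s.1 →
      (∀ i : Fin n, i.val < k → ∀ j, s.1 i j = (1 : Matrix (Fin n) (Fin n) F) i j) →
      s ∈ Subgroup.closure {t : Matrix.SpecialLinearGroup (Fin n) F | t ∈ Uni n F ∧ t ^ 2 = 1} := by
    intro d
    induction d with
    | zero =>
      intro k hk s _ hrow
      have : s = 1 := by
        apply Subtype.ext
        ext i j
        exact hrow i (by have := i.isLt; omega) j
      rw [this]
      exact Subgroup.one_mem _
    | succ d ih =>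
      intro k hk s hs hrow
      obtain ⟨kk, hkk⟩ : ∃ kk : Fin n, kk.val = k := ⟨⟨k, by omega⟩, rfl⟩
      obtain ⟨ρ, hρdef⟩ : ∃ ρ : Fin n → F, ∀ j, ρ j = if kk < j then s.1 kk j else 0 :=
        ⟨fun j => if kk < j then s.1 kk j else 0, fun j => rfl⟩
      have hρle : ∀ j, j ≤ kk → ρ j = 0 := by
        intro j hj
        rw [hρdef, if_neg (not_lt.2 hj)]
      have hρk : ρ kk = 0 := hρle kk le_rfl
      have hUT : IsUT (tvM (bv kk) ρ) := isUT_rowElt kk ρ hρle
      have hsq : tvM (bv kk) ρ * tvM (bv kk) ρ = 1 := rowElt_mul_self kk ρ hρk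
      obtain ⟨r, hr⟩ : ∃ r : Matrix.SpecialLinearGroup (Fin n) F, r.1 = tvM (bv kk) ρ :=
        ⟨⟨tvM (bv kk) ρ, hUT.det⟩, rfl⟩
      have hr2 : r * r = 1 := by
        apply Subtype.ext
        rw [Matrix.SpecialLinearGroup.coe_mul]
        change r.1 * r.1 = 1
        rw [hr, hsq]
      have hrmem : r ∈ Subgroup.closure
          {t : Matrix.SpecialLinearGroup (Fin n) F | t ∈ Uni n F ∧ t ^ 2 = 1} := by
        apply Subgroup.subset_closure
        refine ⟨?_, by rw [pow_two, hr2]⟩
        rw [mem_Uni, hr]
        exact hUT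
      have hs1 : (s * r).1 = s.1 * tvM (bv kk) ρ := by
        rw [← hr]
        rfl
      have hs1UT : IsUT (s * r).1 := by
        rw [hs1]
        exact hs.mul hUT
      have hs1row : ∀ i : Fin n, i.val < k + 1 → ∀ j,
          (s * r).1 i j = (1 : Matrix (Fin n) (Fin n) F) i j := by
        intro i hi j
        rw [hs1, mul_tvM_bv_apply]
        by_cases hik : i = kk
        · subst hik
          rw [hs.2 i, one_mul, hρdef]
          by_cases hij : i < j
          · rw [if_pos hij, CharTwo.add_self_eq_zero, Matrix.one_apply_ne (ne_of_lt hij)]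
          · rw [if_neg hij, add_zero]
            rcases lt_or_eq_of_le (not_lt.1 hij) with h | h
            · rw [hs.1 i j h, Matrix.one_apply_ne (ne_of_gt h)]
            · subst h
              rw [hs.2 j, Matrix.one_apply_eq]
        · have hik' : i.val < k := by
            have : i.val ≠ kk.val := fun h => hik (Fin.ext h)
            omega
          rw [hrow i hik' kk, Matrix.one_apply_ne hik, zero_mul, add_zero, hrow i hik' j]
      have h1 := ih (k + 1) (by omega) (s * r) hs1UT hs1row
      have : s = s * r * r := by rw [mul_assoc, hr2, mul_one]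
      rw [this]
      exact Subgroup.mul_mem _ h1 hrmem
  intro s hs
  exact key n 0 (by omega) s hs (fun i hi => absurd hi (by omega))

end Cfsg.Agent.H56.Sq
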