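import Cfsg.Agent.H56.StbCoordG2
import Cfsg.Agent.H56.StbCoordB2
import Cfsg.Agent.H56.StbCoordD4
import Cfsg.Agent.H56.StbCoordF4
import Cfsg.Agent.H56.StbCoordE6
import Cfsg.Agent.H56.StbCoordE7
import Cfsg.Agent.H56.StbCoordE8

/-!
# S2156 / S2159: coordinate functions exist for each of the seven tabulated types (helper56)
-/

set_option autoImplicit false

namespace Cfsg.Agent.H56.StbG

open Cfsg.Lie Cfsg.Agent.H23 Cfsg.Agent.H23.Stb

/-- Coordinate functions (coefficients of the fundamental roots) exist for each of the seven types. -/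
theorem coord_seven (D : ChevalleyDatum)
    (hD : D ∈ [chevG2, chevB2, chevD4, chevF4, chevE6, chevE7, chevE8]) : ∃ m : ℕ → ℕ → ℤ, Coord D m := by
  simp only [List.mem_cons, List.not_mem_nil, or_false] at hD
  rcases hD with rfl | rfl | rfl | rfl | rfl | rfl | rfl
  · exact ⟨_, g2_coord⟩
  · exact ⟨_, b2_coord⟩
  · exact ⟨_, d4_coord⟩
  · exact ⟨_, f4_coord⟩
  · exact ⟨_, e6_coord⟩
  · exact ⟨_, e7_coord⟩
  · exact ⟨_, e8_coord⟩

end Cfsg.Agent.H56.StbG

#print axioms Cfsg.Agent.H56.StbG.coord_seven
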