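import Cfsg.Agent.H23.Checks
import Cfsg.Agent.H23.TblE8
import Cfsg.Prelude.Def_ChevE8

/-!
# S2156 / S2159 (projects SD of helper23 and OS of helper46): the coordinate functions of type `E₈`,
definitions (helper56)

`mCE8 i c` is the coefficient of the `i`-th fundamental root in the root of index `c` (zero on the
Cartan indices).
-/

set_option autoImplicit false

namespace Cfsg.Agent.H56.StbG

open Cfsg.Lie Cfsg.Agent.H23

/-- The packed tables (4 bits per root, offset 8) of the coefficients of the fundamental roots. -/
def mTabE8 : List ℕ :=
  [6496876007599999377886028260534772002837552242488121599990276607125491816193754634255175440286491372133608024873191629391125820386602222144936217759214050891639505604683118479947692784763865857198736751934473910392117366186899172861356593158132352618056642668632644257229632946050789959270,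
   7146563605939724417902967878839560522364149115512298647985409302424875252890154923309274833165661469157511533752953370468369903300246033931339994757066236513083639871716768390560535407822712498574303910411232700287218969580477585560927284517115856633048500320294756477450098753051102106965,
   7796251172664608339890441255299627372545706628303578228857510416958425179503347687406400780858226561254411196704619965915547454404167360752786639946511868882981699544164069492774871432082807513489362349701636291718631925209210801747166443850976280207459614796911898700078723581679512077380,
   9095625791040166419343373858912549172488484652109893477212836350952414028362736947504384368447645473843399308192282616533343894801014972581714018094482174639835969311410263184249095747863565850721961548121492049683385247468326347014480171086885854432933567561425607308927428521798071886370,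
   8445928896433351806002506099323488572831429581206912138341556529126452358129358500745338802550616217155162178741720625653160265037436569452750805044154844862226408766222167198070033405957035529084487812567751533293155378897801724382379550417099774449583734411689212649913785932579743216435,
   7796092593983058045974344564350349394254019661257195896267524117826610923589208595819746236386904644102801682285369511796480960766198095533996365618926765493044773330690776715148532763153644916483355427098147747873553618215529632794260942953937242422358821364048658801173097108967127340100,
   7144025766169528276694163657065902522573258785916766787626384311935932609351395023655829438944375063551990562975400635076230121864612320770078191874406868756170527150575194914896512528763571450683799610876233763575751312143236549559978285204288930294968131400103886162608610877611214005845,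
   6456270532552499255490715357415602859380204796264517105978993479234484919711583348832424782709755537563102318229979709981424348821865123351564681329792323385992634277424196071040429132139685262083236533078151359270785973293346686822983637983685419077274087817165053097542429234021921159030]

/-- The coefficient of the `i`-th fundamental root in the weight of the index `c`. -/
def mCE8 (i c : ℕ) : ℤ := zS (mTabE8.getD i 0) chevE8.nroots c

end Cfsg.Agent.H56.StbG
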