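import Cfsg.Agent.H78.StbE6Defs
import Cfsg.Agent.H23.CommAll

/-!
# S2123-E6C2 and S2123-E6ADJ (helper56, for helper78): commutation of the fundamental root
elements of `E₆`, directly from the checked commutator formula `SemC` of the pack
-/

set_option autoImplicit false
set_option maxRecDepth 100000

namespace Cfsg.Agent.H56.StbG

open Cfsg.Lie Cfsg.Agent.H23 Cfsg.Agent.H23.Stb Cfsg.Agent.H78.StbG

universe u

set_option synthInstance.maxSize 4096 in
set_option synthInstance.maxHeartbeats 400000 in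
theorem e6_c2T : ∀ i < chevE6.rank, ∀ j < chevE6.rank, i ≠ j →
    chevE6.commTerms (chevE6.neg (chevE6.simple i)) (chevE6.simple j) = [] ∧
    chevE6.simple j ≠ chevE6.simple i := by
  decide +kernel

set_option synthInstance.maxSize 4096 in
set_option synthInstance.maxHeartbeats 400000 in
theorem e6_nadjT : ∀ i < chevE6.rank, ∀ j < chevE6.rank, i ≠ j →
    ¬ (zE6 (chevE6.simple j) (chevE6.simple i) = -1) →
    chevE6.commTerms (chevE6.simple i) (chevE6.simple j) = [] := by
  decide +kernel

set_option synthInstance.maxSize 4096 in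
set_option synthInstance.maxHeartbeats 400000 in
theorem e6_adjT : ∀ i < chevE6.rank, ∀ j < chevE6.rank, zE6 (chevE6.simple j) (chevE6.simple i) = -1 →
    (chevE6.commTerms (chevE6.simple i) (chevE6.simple j)).length = 1 ∧
    ∀ c ∈ chevE6.commTerms (chevE6.simple i) (chevE6.simple j),
      c.1 < chevE6.nroots ∧ (c.2.1 = 1 ∨ c.2.1 = -1) ∧ c.2.2.1 = 1 ∧ c.2.2.2 = 1 := by
  decide +kernel

/-- **S2123-E6C2**: `x_{α_j}(u)` and `x_{-α_i}(t)` commute for `i ≠ j`. -/
theorem e6C2 : StE6C2.{u} := by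
  intro F _ i hi j hj hij t u
  obtain ⟨hterms, hne⟩ := e6_c2T i hi j hj hij
  have hPc : Pc chevE6 F (chevE6.neg (chevE6.simple i)) (chevE6.simple j) :=
    fun t u => (packS_E6 F).hP.semC.commN i hi (chevE6.simple j) (tab_E6.simple_pos j hj) hne t u
  have h1 := (Pc_iff (packS_E6 F).hP.sem _ _).mp hPc t u
  simp only [ChevalleyDatum.commWord, hterms, List.map_nil, wordU_nil, mul_one] at h1
  exact h1

example : Cfsg.Agent.H78.StbG.StE6C2.{u} := e6C2

/-- **S2123-E6ADJ**: `X_{α_i}` and `X_{α_j}` commute exactly when `i`, `j` are not adjacent. -/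
theorem e6Adj : StE6Adj.{u} := by
  intro F _ i hi j hj hij
  obtain ⟨-, hne⟩ := e6_c2T i hi j hj hij
  have hPc : Pc chevE6 F (chevE6.simple i) (chevE6.simple j) :=
    fun t u => (packS_E6 F).hP.semC.comm i hi (chevE6.simple j) (tab_E6.simple_pos j hj) hne t u
  constructor
  · intro hcomm hadj
    obtain ⟨hlen, hc⟩ := e6_adjT i hi j hj hadj
    obtain ⟨c, hceq⟩ := List.length_eq_one_iff.mp hlen
    obtain ⟨hc1, hc2, hc3, hc4⟩ := hc c (by rw [hceq]; exact List.mem_singleton_self c)
    have h1 := (Pc_iff (packS_E6 F).hP.sem _ _).mp hPc 1 1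
    simp only [ChevalleyDatum.commWord, hceq, List.map_cons, List.map_nil, wordU_cons, wordU_nil, mul_one,
      hc3, hc4, pow_one] at h1
    rw [← hcomm 1 1] at h1
    have h2 : xU (packS_E6 F).hP.sem c.1 ((c.2.1 : F) * -1) = 1 := by
      have := h1.symm
      rwa [mul_eq_left] at this
    have h3 := xU_eq_one_imp (packS_E6 F).hP.sem tab_E6 tab2_E6 c.1 hc1 _ h2
    rcases hc2 with h | h
    · rw [h] at h3; simp at h3
    · rw [h] at h3; simp at h3
  · intro hadj t u
    have hterms := e6_nadjT i hi j hj hij hadj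
    have h1 := (Pc_iff (packS_E6 F).hP.sem _ _).mp hPc t u
    simp only [ChevalleyDatum.commWord, hterms, List.map_nil, wordU_nil, mul_one] at h1
    exact h1.symm

example : Cfsg.Agent.H78.StbG.StE6Adj.{u} := e6Adj

end Cfsg.Agent.H56.StbG
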