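import Cfsg.Agent.H78.StbE6Defs
import Cfsg.Agent.H56.StbCoordE6

/-!
# S2123-E6COORD (helper56, for helper78): coordinate functions for `E₆`
-/

set_option autoImplicit false

namespace Cfsg.Agent.H56.StbG

open Cfsg.Lie Cfsg.Agent.H23 Cfsg.Agent.H23.Stb Cfsg.Agent.H78.StbG

/-- **S2123-E6COORD**. -/
theorem e6Coord : StE6Coord := ⟨m6, e6_coord⟩

example : Cfsg.Agent.H78.StbG.StE6Coord := e6Coord

end Cfsg.Agent.H56.StbG
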