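import Cfsg.Agent.H78.StbE6Defs

/-!
# S2123-E6DIAG (helper56, for helper78): the symmetries of the `E₆` diagram
-/

set_option autoImplicit false
set_option maxRecDepth 100000

namespace Cfsg.Agent.H56.StbG

open Cfsg.Lie Cfsg.Agent.H23 Cfsg.Agent.H23.Stb Cfsg.Agent.H78.StbG

/-- The edges of the Dynkin diagram of type `E₆` (nodes numbered from 0, as in the tables). -/
def adjL6 : List (ℕ × ℕ) :=
  [(0, 2), (2, 0), (1, 3), (3, 1), (2, 3), (3, 2), (3, 4), (4, 3), (4, 5), (5, 4)]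

/-- Adjacency in the Dynkin diagram of type `E₆`, as a list. -/
abbrev adj6 (i j : ℕ) : Prop := (i, j) ∈ adjL6

/-- `adjE6` is the list adjacency. -/
theorem adjE6_iff : ∀ i < chevE6.rank, ∀ j < chevE6.rank,
    (zE6 (chevE6.simple j) (chevE6.simple i) = -1 ↔ adj6 i j) := by
  decide +kernel

set_option synthInstance.maxSize 4096 in
set_option synthInstance.maxHeartbeats 400000 in
/-- The adjacency-preserving injections of the `E₆` diagram, on `Fin 6`: the branch node `3` is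
fixed, its three neighbours `1, 2, 4` are permuted, and the two arms are carried along. -/
theorem e6_diagFin : ∀ p3 : Fin 6, ∀ p1 : Fin 6, adj6 p3.1 p1.1 → ∀ p2 : Fin 6, adj6 p3.1 p2.1 → p1 ≠ p2 →
    ∀ p4 : Fin 6, adj6 p3.1 p4.1 → p1 ≠ p4 → p2 ≠ p4 → ∀ p0 : Fin 6, adj6 p2.1 p0.1 → p0 ≠ p3 →
    ∀ p5 : Fin 6, adj6 p4.1 p5.1 → p5 ≠ p3 →
    (p0.1 = 0 ∧ p1.1 = 1 ∧ p2.1 = 2 ∧ p3.1 = 3 ∧ p4.1 = 4 ∧ p5.1 = 5) ∨
    (p0.1 = 5 ∧ p1.1 = 1 ∧ p2.1 = 4 ∧ p3.1 = 3 ∧ p4.1 = 2 ∧ p5.1 = 0) := by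
  decide +kernel

/-- **S2123-E6DIAG**: the symmetries of the `E₆` diagram are the identity and `σ`. -/
theorem e6Diag : StE6Diag := by
  intro π hlt hinj hadj
  have hr : chevE6.rank = 6 := rfl
  have b : ∀ i, i < 6 → π i < 6 := fun i hi => hlt i (by omega)
  have ne : ∀ i j, ∀ (hi : i < 6) (hj : j < 6), i ≠ j → (⟨π i, b i hi⟩ : Fin 6) ≠ ⟨π j, b j hj⟩ := by
    intro i j hi hj hij h
    exact hij (hinj i (by omega) j (by omega) (congrArg Fin.val h))
  have ad : ∀ i j, i < 6 → j < 6 → i ≠ j → adj6 i j → adj6 (π i) (π j) := by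
    intro i j hi hj hij h
    have h1 : adjE6 i j := (adjE6_iff i (by omega) j (by omega)).mpr h
    have h2 : adjE6 (π i) (π j) := (hadj i (by omega) j (by omega) hij).mpr h1
    exact (adjE6_iff (π i) (hlt i (by omega)) (π j) (hlt j (by omega))).mp h2
  have key := e6_diagFin ⟨π 3, b 3 (by omega)⟩ ⟨π 1, b 1 (by omega)⟩
    (ad 3 1 (by omega) (by omega) (by omega) (by decide)) ⟨π 2, b 2 (by omega)⟩
    (ad 3 2 (by omega) (by omega) (by omega) (by decide)) (ne 1 2 (by omega) (by omega) (by omega))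
    ⟨π 4, b 4 (by omega)⟩ (ad 3 4 (by omega) (by omega) (by omega) (by decide))
    (ne 1 4 (by omega) (by omega) (by omega)) (ne 2 4 (by omega) (by omega) (by omega))
    ⟨π 0, b 0 (by omega)⟩ (ad 2 0 (by omega) (by omega) (by omega) (by decide))
    (ne 0 3 (by omega) (by omega) (by omega))
    ⟨π 5, b 5 (by omega)⟩ (ad 4 5 (by omega) (by omega) (by omega) (by decide))
    (ne 5 3 (by omega) (by omega) (by omega))
  have hs : sigE6 0 = 5 ∧ sigE6 1 = 1 ∧ sigE6 2 = 4 ∧ sigE6 3 = 3 ∧ sigE6 4 = 2 ∧ sigE6 5 = 0 := by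
    unfold sigE6; decide
  obtain ⟨s0, s1, s2, s3, s4, s5⟩ := hs
  rcases key with ⟨k0, k1, k2, k3, k4, k5⟩ | ⟨k0, k1, k2, k3, k4, k5⟩
  · left
    simp only at k0 k1 k2 k3 k4 k5
    intro i hi
    have hi' : i < 6 := hi
    interval_cases i <;> assumption
  · right
    simp only at k0 k1 k2 k3 k4 k5
    intro i hi
    have hi' : i < 6 := hi
    interval_cases i
    · rw [s0]; exact k0
    · rw [s1]; exact k1
    · rw [s2]; exact k2
    · rw [s3]; exact k3
    · rw [s4]; exact k4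
    · rw [s5]; exact k5

example : Cfsg.Agent.H78.StbG.StE6Diag := e6Diag

end Cfsg.Agent.H56.StbG
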