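import Cfsg.Agent.H56.StbGraphAll
import Cfsg.Agent.H23.GraphE6
import Cfsg.Agent.H23.Gen.E6.Tbl0

/-!
# S2123 (helper78's project): the graph automorphism of `E₆(F)` preserves `U` and `V`
-/

set_option autoImplicit false
set_option maxRecDepth 100000

namespace Cfsg.Agent.H56.StbG

open Cfsg.Lie Cfsg.Agent.H23 Cfsg.Agent.H23.Stb

universe u

/-- The permutation of the roots of the graph automorphism of `E₆` preserves positivity. -/
theorem e6_rho_pos : ∀ s < chevE6.nroots, chevE6.IsPosRoot s →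
    chevE6.IsPosRoot (rlk rhoE6a s) ∧ chevE6.IsPosRoot (rlk rhoIE6a s) := by decide +kernel

/-- The permutation of the roots of the graph automorphism of `E₆` preserves negativity. -/
theorem e6_rho_neg : ∀ s < chevE6.nroots, chevE6.IsNegRoot s →
    chevE6.IsNegRoot (rlk rhoE6a s) ∧ chevE6.IsNegRoot (rlk rhoIE6a s) := by decide +kernel

/-- The graph automorphism of `E₆(F)`: it maps `x_{±α_i}(t)` to `x_{±α_{σ i}}(t)`,
`σ = [5, 1, 4, 3, 2, 0]`, preserves `U` and `V`, and acts on every root element through the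
tables `rhoE6a`, `gamE6a`. -/
theorem graphE6 {F : Type u} [Field F] {z : ℕ → ℕ → ℤ} (hS : Sem chevE6 F z) :
    ∃ γ : ↥(chevE6.group F) ≃* ↥(chevE6.group F),
      (∀ i < chevE6.rank, ∀ t : F,
        γ (xG hS (chevE6.simple i) t) = xG hS (chevE6.simple (sigE6a.getD i 0)) t ∧
        γ (xG hS (chevE6.neg (chevE6.simple i)) t) =
          xG hS (chevE6.neg (chevE6.simple (sigE6a.getD i 0))) t) ∧
      Pres γ (chevE6.posUnipotent F) (chevE6.posUnipotent F) ∧
      Pres γ (chevE6.negUnipotent F) (chevE6.negUnipotent F) ∧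
      (∀ s < chevE6.nroots, ∀ t : F,
        γ (xG hS s t) = xG hS (rlk rhoE6a s) (((etaBit gamE6a s : ℤ) : F) * t)) :=
  have hT : TblOK chevE6 tblE6 := all_of_allFrom _ 72 tbl_E6_file0
  graph_aut_pres hT graphOK_E6a hS
    (fun s hs => e6_rho_pos s hs.1 hs) (fun s hs => e6_rho_neg s hs.1 hs)

end Cfsg.Agent.H56.StbG
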