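import Cfsg.Agent.H78.StbE6Defs
import Cfsg.Agent.H56.StbGraphE6

/-!
# S2123-E6GRAPH (helper56, for helper78): the graph automorphism of `E₆`
-/

set_option autoImplicit false

namespace Cfsg.Agent.H56.StbG

open Cfsg.Lie Cfsg.Agent.H23 Cfsg.Agent.H23.Stb Cfsg.Agent.H78.StbG

universe u

theorem e6_sigE6_lt : ∀ i < chevE6.rank, sigE6 i < chevE6.rank := by
  unfold sigE6; decide +kernel

theorem e6_sigE6_sig : ∀ i < chevE6.rank, sigE6 (sigE6 i) = i := by
  unfold sigE6; decide +kernel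

/-- **S2123-E6GRAPH**. -/
theorem e6Graph : StE6Graph.{u} := by
  intro F _
  obtain ⟨γ, h1, h2, h3, -⟩ := graphE6 (packS_E6 F).hP.sem
  exact ⟨γ, ⟨e6_sigE6_lt, e6_sigE6_sig, fun i hi t => (h1 i hi t).1, fun i hi t => (h1 i hi t).2,
    h2, h3⟩⟩

example : Cfsg.Agent.H78.StbG.StE6Graph.{u} := e6Graph

end Cfsg.Agent.H56.StbG
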