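import Cfsg.Agent.H78.StbE6Defs
import Cfsg.Agent.H23.Cell3
import Cfsg.Agent.H18.StbSyl
import Cfsg.Agent.H18.StbW0
import Cfsg.Agent.H61.StbNormU
import Cfsg.Agent.H61.StbPar
import Cfsg.Agent.H13.StbPV
import Cfsg.Agent.H70.StbNeg
import Cfsg.Agent.H13.StbOpp
import Cfsg.Agent.H13.StbRootMap
import Cfsg.Agent.H73.StbGPosG
import Cfsg.Agent.H73.StbGMatchG
import Cfsg.Agent.H35.StbGAsm1G
import Cfsg.Agent.H78.StbRank1
import Cfsg.Agent.H78.StbPsi
import Cfsg.Agent.H13.StbMult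
import Cfsg.Agent.H13.StbHatEx
import Cfsg.Agent.H70.StbHatAut
import Cfsg.Agent.H57.StbAsm2H
import Cfsg.Agent.H70.StbInnH
import Cfsg.Agent.H70.StbField
import Cfsg.Agent.H13.StbGNUV
import Cfsg.Agent.H13.StbGNotGamma
import Cfsg.Agent.H13.StbGTorusPres
import Cfsg.Agent.H13.StbGFieldPres
import Cfsg.Agent.H35.StbGFinalG
import Cfsg.Agent.H13.StbHatCard
import Cfsg.Agent.H27.StbGal
import Cfsg.Agent.H56.StbGE6Graph
import Cfsg.Agent.H56.StbGE6Coord
import Cfsg.Agent.H56.StbGE6W0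
import Cfsg.Agent.H56.StbGE6Diag
import Cfsg.Agent.H56.StbGE6C2

/-!
# S2123 (`|Out(E₆(q))| = 2·gcd(3, q-1)·f`): assembly of the team-project pieces (backup by helper56)

`outE6 hSyl hCardH` derives the count from the landed generic pieces (`H23/StbDefs`, `StbHatDefs`,
`H78/StbGrDefs`) and the `E₆` table pieces; the two pieces needing the heavy closure (`StE6Syl`,
`StE6CardH`) stay hypotheses, so this file has the `E₆`-only closure.
-/

set_option autoImplicit false

namespace Cfsg.Agent.H56.StbAsm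

open Cfsg.Lie Cfsg.Agent.H23 Cfsg.Agent.H23.Stb Cfsg.Agent.H78.StbG

universe u

/-! ## Generation by the fundamental root elements (generic; the argument of `H23/Gens`, copied here so
that this file keeps the `E₆`-only closure) -/

section Gens

variable {D : ChevalleyDatum} {F : Type*} [Field F] {z η : ℕ → ℕ → ℤ}

/-- The subgroup generated by the root elements of the fundamental roots and of their negatives. -/
def fundGenA (D : ChevalleyDatum) (F : Type*) [Field F] : Subgroup (GL D.Idx F) :=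
  Subgroup.closure {g | ∃ (i : ℕ) (t : F), i < D.rank ∧
    ((g : Matrix D.Idx D.Idx F) = D.x F (D.simple i) t ∨
      (g : Matrix D.Idx D.Idx F) = D.x F (D.neg (D.simple i)) t)}

theorem xU_simple_mem_fundGenA (hS : Sem D F z) (i : ℕ) (hi : i < D.rank) (t : F) :
    xU hS (D.simple i) t ∈ fundGenA D F :=
  Subgroup.subset_closure ⟨i, t, hi, Or.inl rfl⟩

theorem xU_neg_simple_mem_fundGenA (hS : Sem D F z) (i : ℕ) (hi : i < D.rank) (t : F) :
    xU hS (D.neg (D.simple i)) t ∈ fundGenA D F :=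
  Subgroup.subset_closure ⟨i, t, hi, Or.inr rfl⟩

theorem nU_simple_mem_fundGenA (hS : Sem D F z) (i : ℕ) (hi : i < D.rank) (a : F) :
    nU hS (D.simple i) a ∈ fundGenA D F := by
  rw [nU_eq]
  exact Subgroup.mul_mem _ (Subgroup.mul_mem _ (xU_simple_mem_fundGenA hS i hi _)
    (xU_neg_simple_mem_fundGenA hS i hi _)) (xU_simple_mem_fundGenA hS i hi _)

theorem nWU_mem_fundGenA (hS : Sem D F z) (w : List ℕ) (hw : ∀ i ∈ w, i < D.rank) :
    nWU hS w ∈ fundGenA D F := by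
  unfold nWU
  apply Subgroup.list_prod_mem
  intro g hg
  simp only [List.mem_map] at hg
  obtain ⟨i, hi, rfl⟩ := hg
  exact nU_simple_mem_fundGenA hS i (hw i hi) 1

theorem xU_mem_fundGenA (hS : Sem D F z) (hN : SemN D F η) (hT : Tab D) (r : ℕ) (hr : r < D.nroots)
    (t : F) : xU hS r t ∈ fundGenA D F := by
  obtain ⟨w, hw, j, hj, e⟩ := exists_word_to_simple hT r hr
  obtain ⟨c, hc, h⟩ := nWU_conj hS hN hT w hw r hr
  have h1 := h t
  rw [e] at h1
  have h2 : xU hS r t = (nWU hS w)⁻¹ * xU hS (D.simple j) (c * t) * nWU hS w := by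
    rw [← h1]; group
  rw [h2]
  have hn := nWU_mem_fundGenA hS w hw
  exact Subgroup.mul_mem _ (Subgroup.mul_mem _ (Subgroup.inv_mem _ hn)
    (xU_simple_mem_fundGenA hS j hj _)) hn

theorem fundGenA_eq_group (hS : Sem D F z) (hN : SemN D F η) (hT : Tab D) :
    fundGenA D F = D.group F := by
  apply le_antisymm
  · unfold fundGenA
    rw [Subgroup.closure_le]
    rintro g ⟨i, t, _, hg | hg⟩
    · rw [eq_xU hS g _ t hg]; exact xU_mem_group hS _ _
    · rw [eq_xU hS g _ t hg]; exact xU_mem_group hS _ _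
  · unfold ChevalleyDatum.group
    rw [Subgroup.closure_le]
    rintro g ⟨r, t, hg⟩
    have : g = xU hS r.val t := eq_xU hS g r.val t (by rw [hg, ChevalleyDatum.x, dif_pos r.isLt])
    rw [this]
    exact xU_mem_fundGenA hS hN hT r.val r.isLt t

/-- Two endomorphisms of the Chevalley group agreeing on the root elements of the fundamental roots
and of their negatives are equal. -/
theorem hom_ext_fundA (hS : Sem D F z) (hN : SemN D F η) (hT : Tab D)
    (a b : ↥(D.group F) →* ↥(D.group F))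
    (h : ∀ i < D.rank, ∀ t : F, a (xG hS (D.simple i) t) = b (xG hS (D.simple i) t) ∧
      a (xG hS (D.neg (D.simple i)) t) = b (xG hS (D.neg (D.simple i)) t)) :
    a = b := by
  have key : fundGenA D F ≤ (a.eqLocus b).map (D.group F).subtype := by
    unfold fundGenA
    rw [Subgroup.closure_le]
    rintro k ⟨i, t, hi, hk⟩
    rcases hk with hk | hk
    · have hk' : k = xU hS (D.simple i) t := eq_xU hS k _ t hk
      exact ⟨xG hS (D.simple i) t, (h i hi t).1, hk'.symm⟩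
    · have hk' : k = xU hS (D.neg (D.simple i)) t := eq_xU hS k _ t hk
      exact ⟨xG hS (D.neg (D.simple i)) t, (h i hi t).2, hk'.symm⟩
  refine MonoidHom.ext fun y => ?_
  obtain ⟨k, hk, e⟩ := key (by rw [fundGenA_eq_group hS hN hT]; exact y.2)
  have : k = y := Subtype.ext e
  rw [← this]; exact hk

end Gens

/-! ## The closed generic pieces -/

theorem cW0 : StW0.{u} := Cfsg.Agent.H18.Stb.w0
theorem cNormU : StNormU.{u} := Cfsg.Agent.H61.Stb.normU
theorem cPar : StPar.{u} := Cfsg.Agent.H61.Stb.par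
theorem cPV : StPV.{u} := Cfsg.Agent.H13.Stb.pv cW0
theorem cNeg : StNeg.{u} := Cfsg.Agent.H70.Stb.neg cNormU cPar cPV
theorem cSyl : StSyl.{u} := Cfsg.Agent.H18.Stb.syl
theorem cOpp : StOpp.{u} := Cfsg.Agent.H13.Stb.opp cW0
theorem cRootMap : StRootMap.{u} := Cfsg.Agent.H13.Stb.rootMap
theorem cPosG : StPosG.{u} := Cfsg.Agent.H73.StbG.posG cNeg cW0
theorem cMatchG : StMatchG.{u} := Cfsg.Agent.H73.StbG.matchG
theorem cAsm1G : StAsm1G.{u} := Cfsg.Agent.H35.StbG.asm1G cSyl cOpp cNeg cPosG cMatchG cRootMap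
theorem cRank1 : StRank1.{u} := Cfsg.Agent.H78.Stb.rank1
theorem cPsi : StPsi.{u} := Cfsg.Agent.H78.Stb.psi cRank1
theorem cMult : StMult.{u} := Cfsg.Agent.H13.Stb.mult
theorem cHatEx : StHatEx.{u} := Cfsg.Agent.H13.Stb.hatEx
theorem cHatAut : StHatAut.{u} := Cfsg.Agent.H70.Stb.hatAut
theorem cAsm2H : StAsm2H.{u} := Cfsg.Agent.H57.Stb.asm2H cHatEx cHatAut cPsi cMult
theorem cInnH : StInnH.{u} := Cfsg.Agent.H70.Stb.innH cNormU cW0
theorem cField : StField.{u} := Cfsg.Agent.H70.Stb.field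
theorem cNUV : StNUV.{u} := Cfsg.Agent.H13.StbG.nuv cNormU cW0
theorem cNotGamma : StNotGamma.{u} := Cfsg.Agent.H13.StbG.notGamma cNUV
theorem cTorusPres : StTorusPres.{u} := Cfsg.Agent.H13.StbG.torusPres
theorem cFieldPres : StFieldPres.{u} := Cfsg.Agent.H13.StbG.fieldPres
theorem cFinalG : StFinalG.{u} :=
  Cfsg.Agent.H35.StbG.finalG cInnH cField cHatAut cNotGamma cTorusPres cFieldPres
theorem cHatCard : StHatCard.{u} := Cfsg.Agent.H13.Stb.hatCard cHatEx
theorem cGal : StGal.{u} := Cfsg.Agent.H27.Stb.gal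

/-! ## The assembly for `E₆` -/

/-- `|Out(E₆(q))| = 2·gcd(3, q-1)·f`, from the pieces; the Sylow piece and the order of `H` (which need the
heavy closure) are hypotheses. -/
theorem outE6 (hSyl : StE6Syl.{u}) (hCardH : StE6CardH.{u}) {F : Type u} [Field F] [Fintype F]
    (p f : ℕ) [Fact p.Prime] [CharP F p] (hF : Fintype.card F = p ^ f) :
    Nat.card (Cfsg.Out ↥(chevE6.group F)) = 2 * Nat.gcd 3 (p ^ f - 1) * f := by
  obtain ⟨γ, hγ⟩ := Cfsg.Agent.H56.StbG.e6Graph.{u} F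
  obtain ⟨m, hm⟩ := Cfsg.Agent.H56.StbG.e6Coord
  have hC := packS_E6 F
  have hrank : 0 < chevE6.rank := by decide
  have hsig : ∃ i < chevE6.rank, sigE6 i ≠ i := ⟨0, by decide, by decide⟩
  have hc2 := Cfsg.Agent.H56.StbG.e6C2.{u} F
  have hadj := Cfsg.Agent.H56.StbG.e6Adj.{u} F
  have hconn := Cfsg.Agent.H56.StbG.e6Conn
  have h1 := cAsm1G.{u} chevE6 F p zE6 ηE6 rTE6 w0E6 hC adjE6 sigE6 sigE6 γ (hSyl F p) hγ.sig_lt
    hγ.sig_sig Cfsg.Agent.H56.StbG.e6W0 hc2 hadj Cfsg.Agent.H56.StbG.e6Diag hγ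
  have hext : ∀ a b : ↥(chevE6.group F) →* ↥(chevE6.group F),
      (∀ i < chevE6.rank, ∀ t : F,
        a (xG hC.hP.sem (chevE6.simple i) t) = b (xG hC.hP.sem (chevE6.simple i) t) ∧
        a (xG hC.hP.sem (chevE6.neg (chevE6.simple i)) t) =
          b (xG hC.hP.sem (chevE6.neg (chevE6.simple i)) t)) → a = b :=
    fun a b h => hom_ext_fundA hC.hP.sem hC.hP.semN hC.hP.tab a b h
  have key : ∀ θ : ↥(chevE6.group F) ≃* ↥(chevE6.group F), ∃ (g : ↥(chevE6.group F)) (b : Bool),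
      ∃ k ∈ torusGroup chevE6 F, ∃ σ : F ≃+* F, ∀ y : ↥(chevE6.group F),
        k * ((gpow γ b (conjL g θ y) : ↥(chevE6.group F)) : GL chevE6.Idx F) * k⁻¹ =
          glMap chevE6 (σ : F →+* F) (y : GL chevE6.Idx F) := by
    intro θ
    obtain ⟨g, b, hgb⟩ := h1 θ
    obtain ⟨k, hk, σ, hkσ⟩ := cAsm2H.{u} chevE6 F zE6 ηE6 rTE6 w0E6 hC m hm hrank hconn.1 hconn.2 hext
      ((conjL g θ).trans (gpow γ b)) hgb
    exact ⟨g, b, k, hk, σ, hkσ⟩
  have h2 := cFinalG.{u} chevE6 F zE6 ηE6 rTE6 w0E6 hC sigE6 γ hrank hγ hsig hc2 key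
  have h3 := cHatCard.{u} chevE6 F zE6 ηE6 hC.hP m hm
  have h4 := cGal.{u} F p f (by rw [Nat.card_eq_fintype_card, hF])
  have h5 := hCardH F
  rw [Nat.card_eq_fintype_card (α := F)] at h3
  rw [h3, h4, ← h5, hF] at h2
  have hq : 2 ≤ p ^ f := by rw [← hF]; exact Fintype.one_lt_card
  have hpos : 0 < Nat.card ↥(chevE6.diagonalSubgroup F) := by
    rcases Nat.eq_zero_or_pos (Nat.card ↥(chevE6.diagonalSubgroup F)) with h0 | h0
    · rw [h0, mul_zero, hF] at h5
      have : 0 < (p ^ f - 1) ^ chevE6.rank := Nat.pow_pos (by omega)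
      omega
    · exact h0
  have h6 : Nat.card (Cfsg.Out ↥(chevE6.group F)) * Nat.card ↥(chevE6.diagonalSubgroup F) =
      (2 * Nat.gcd 3 (p ^ f - 1) * f) * Nat.card ↥(chevE6.diagonalSubgroup F) := by
    rw [h2]; ring
  exact Nat.eq_of_mul_eq_mul_right hpos h6

end Cfsg.Agent.H56.StbAsm
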