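import Cfsg.Agent.H78.StbE6Defs

/-!
# S2123-E6W0 and S2123-E6CONN (helper56, for helper78)
-/

set_option autoImplicit false
set_option maxRecDepth 100000

namespace Cfsg.Agent.H56.StbG

open Cfsg.Lie Cfsg.Agent.H23 Cfsg.Agent.H23.Stb Cfsg.Agent.H78.StbG

/-- **S2123-E6W0**: the longest element maps `-α_i` to `α_{σ i}`. -/
theorem e6W0 : StE6W0 := by
  unfold StE6W0 sigE6
  decide +kernel

example : Cfsg.Agent.H78.StbG.StE6W0 := e6W0

theorem e6Conn_one : ∀ i < chevE6.rank, ∃ j < chevE6.rank,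
    zE6 (chevE6.simple j) (chevE6.simple i) = -1 := by
  decide +kernel

theorem e6Conn_edges : zE6 (chevE6.simple 2) (chevE6.simple 0) = -1 ∧
    zE6 (chevE6.simple 3) (chevE6.simple 2) = -1 ∧
    zE6 (chevE6.simple 1) (chevE6.simple 3) = -1 ∧
    zE6 (chevE6.simple 4) (chevE6.simple 3) = -1 ∧
    zE6 (chevE6.simple 5) (chevE6.simple 4) = -1 := by
  decide +kernel

/-- **S2123-E6CONN**: the `E₆` diagram is connected. -/
theorem e6Conn : StE6Conn := by
  refine ⟨e6Conn_one, ?_⟩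
  intro P h0 hstep i hi
  obtain ⟨e1, e2, e3, e4, e5⟩ := e6Conn_edges
  have hr : chevE6.rank = 6 := rfl
  have h2 : P 2 := hstep 0 (by omega) 2 (by omega) e1 h0
  have h3 : P 3 := hstep 2 (by omega) 3 (by omega) e2 h2
  have h1 : P 1 := hstep 3 (by omega) 1 (by omega) e3 h3
  have h4 : P 4 := hstep 3 (by omega) 4 (by omega) e4 h3
  have h5 : P 5 := hstep 4 (by omega) 5 (by omega) e5 h4
  have hi' : i < 6 := hi
  interval_cases i <;> assumption

example : Cfsg.Agent.H78.StbG.StE6Conn := e6Conn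

end Cfsg.Agent.H56.StbG
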