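import Cfsg.Agent.H78.StbGrDefs

/-!
# S2123-FINALG (helper56, for helper78): the count `|Out| · |H| = 2 · |Ĥ| · |Aut F|`

Adapted from helper53's `Cfsg/Agent/H53/StbFinalH.lean` (S2124-FINALH), with the extra Boolean
factor of the graph automorphism.
-/

set_option autoImplicit false

namespace Cfsg.Agent.H56.StbG

open Cfsg.Lie Cfsg.Agent.H23 Cfsg.Agent.H23.Stb Cfsg.Agent.H78.StbG

universe u

/-- Counting through a surjection with known fibres, with a Boolean factor. -/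
theorem card_of_fibres2 {T S O : Type*} [Group T] (Hs : Subgroup T) (Ψ : (T × S) × Bool → O)
    (hsurj : ∀ o, ∃ p, Ψ p = o)
    (hiff : ∀ k σ b k' σ' b', Ψ ((k, σ), b) = Ψ ((k', σ'), b') ↔
      (b = b' ∧ σ = σ' ∧ k⁻¹ * k' ∈ Hs)) :
    Nat.card O * Nat.card Hs = 2 * (Nat.card T * Nat.card S) := by
  let f : ((T ⧸ Hs) × S) × Bool → O := fun x => Ψ ((x.1.1.out, x.1.2), x.2)
  have hf : Function.Bijective f := by
    constructor
    · rintro ⟨⟨q, σ⟩, b⟩ ⟨⟨q', σ'⟩, b'⟩ h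
      obtain ⟨h0, h1, h2⟩ := (hiff _ _ _ _ _ _).mp h
      have hq : q = q' := by
        rw [← QuotientGroup.out_eq' q, ← QuotientGroup.out_eq' q']
        exact QuotientGroup.eq.mpr h2
      have h1' : σ = σ' := h1
      have h0' : b = b' := h0
      rw [hq, h1', h0']
    · intro o
      obtain ⟨⟨⟨k, σ⟩, b⟩, rfl⟩ := hsurj o
      refine ⟨((QuotientGroup.mk k, σ), b), ?_⟩
      show Ψ (((QuotientGroup.mk k : T ⧸ Hs).out, σ), b) = Ψ ((k, σ), b)
      rw [hiff]
      refine ⟨rfl, rfl, ?_⟩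
      exact QuotientGroup.eq.mp (QuotientGroup.out_eq' (QuotientGroup.mk k : T ⧸ Hs))
  have e1 : Nat.card O = Nat.card (T ⧸ Hs) * Nat.card S * 2 := by
    rw [← Nat.card_congr (Equiv.ofBijective f hf), Nat.card_prod, Nat.card_prod,
      Nat.card_eq_fintype_card (α := Bool), Fintype.card_bool]
  have e2 : Nat.card T = Nat.card (T ⧸ Hs) * Nat.card Hs :=
    Subgroup.card_eq_card_quotient_mul_card_subgroup Hs
  rw [e1, e2]; ring

section Nice

variable {D : ChevalleyDatum} {F : Type u} [Field F] {z : ℕ → ℕ → ℤ}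

theorem pres_mul (K : Subgroup (GL D.Idx F)) (a b : MulAut ↥(D.group F))
    (ha : Pres a K K) (hb : Pres b K K) : Pres (a * b) K K :=
  fun g => (ha (b g)).trans (hb g)

theorem pres_inv (K : Subgroup (GL D.Idx F)) (a : MulAut ↥(D.group F))
    (ha : Pres a K K) : Pres a⁻¹ K K := by
  intro g
  have h := ha (a⁻¹ g)
  rw [MulAut.apply_inv_self] at h
  exact h.symm

theorem rootTo_mul (hS : Sem D F z) (r : ℕ) (a b : MulAut ↥(D.group F))
    (ha : RootTo hS a r r) (hb : RootTo hS b r r) : RootTo hS (a * b) r r := by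
  constructor
  · intro t
    obtain ⟨t1, h1⟩ := hb.1 t
    obtain ⟨t2, h2⟩ := ha.1 t1
    exact ⟨t2, by rw [MulAut.mul_apply, h1, h2]⟩
  · intro t'
    obtain ⟨t1, h1⟩ := ha.2 t'
    obtain ⟨t, h⟩ := hb.2 t1
    exact ⟨t, by rw [MulAut.mul_apply, h, h1]⟩

theorem rootTo_inv (hS : Sem D F z) (r : ℕ) (a : MulAut ↥(D.group F))
    (ha : RootTo hS a r r) : RootTo hS a⁻¹ r r := by
  constructor
  · intro t
    obtain ⟨t0, h0⟩ := ha.2 t
    exact ⟨t0, by rw [← h0, MulAut.inv_apply_self]⟩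
  · intro t'
    obtain ⟨t0, h0⟩ := ha.1 t'
    exact ⟨t0, by rw [← h0, MulAut.inv_apply_self]⟩

end Nice

/-- **S2123-FINALG**. -/
theorem finalG (h1 : StInnH.{u}) (h2 : StField.{u}) (h3 : StHatAut.{u}) (h4 : StNotGamma.{u})
    (h5 : StTorusPres.{u}) (h6 : StFieldPres.{u}) : StFinalG.{u} := by
  intro D F _ _ z η rT w0 hC sig γ hrank hG hne hc2 hθ
  have hS : Sem D F z := hC.hP.sem
  have hT : Tab D := hC.hP.tab
  choose Φ hΦ using fun σ : F ≃+* F => h2 D F z hS σ
  have hδ' : ∀ k : ↥(torusGroup D F), ∃ δ : ↥(D.group F) ≃* ↥(D.group F), ∀ y : ↥(D.group F),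
      ((δ y : ↥(D.group F)) : GL D.Idx F) =
        (k : GL D.Idx F) * (y : GL D.Idx F) * (k : GL D.Idx F)⁻¹ :=
    fun k => h3 D F z hS k.1 k.2
  choose δ hδ using hδ'
  -- the automorphisms `δ k * Φ σ` preserve `U`, `V` and the fundamental root subgroups
  have hPU : ∀ (k : ↥(torusGroup D F)) (σ : F ≃+* F),
      Pres ((δ k : MulAut ↥(D.group F)) * Φ σ) (D.posUnipotent F) (D.posUnipotent F) := by
    intro k σ y
    show (((δ k) ((Φ σ) y) : ↥(D.group F)) : GL D.Idx F) ∈ D.posUnipotent F ↔ _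
    rw [hδ, hΦ, ← (h5 D F z hS k.1 k.2 _).1, ← (h6 D F z hS σ _).1]
  have hPV : ∀ (k : ↥(torusGroup D F)) (σ : F ≃+* F),
      Pres ((δ k : MulAut ↥(D.group F)) * Φ σ) (D.negUnipotent F) (D.negUnipotent F) := by
    intro k σ y
    show (((δ k) ((Φ σ) y) : ↥(D.group F)) : GL D.Idx F) ∈ D.negUnipotent F ↔ _
    rw [hδ, hΦ, ← (h5 D F z hS k.1 k.2 _).2, ← (h6 D F z hS σ _).2]
  have hPR : ∀ (k : ↥(torusGroup D F)) (σ : F ≃+* F), ∀ i < D.rank,
      RootTo hS ((δ k : MulAut ↥(D.group F)) * Φ σ) (D.simple i) (D.simple i) := by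
    intro k σ i hi
    obtain ⟨χ, hχ⟩ := k.2
    have hlt := hT.simple_lt i hi
    have key : ∀ t : F, ((δ k : MulAut ↥(D.group F)) * Φ σ) (xG hS (D.simple i) t) =
        xG hS (D.simple i) (χ (D.simple i) * (σ : F →+* F) t) := by
      intro t
      apply Subtype.ext
      show (((δ k) ((Φ σ) (xG hS (D.simple i) t)) : ↥(D.group F)) : GL D.Idx F) =
        xU hS (D.simple i) (χ (D.simple i) * (σ : F →+* F) t)
      rw [hδ, hΦ]
      have e1 : ((xG hS (D.simple i) t : ↥(D.group F)) : GL D.Idx F) = xU hS (D.simple i) t := rfl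
      rw [e1, glMap_xU hS hS]
      exact isTorus_conj hS χ k.1 hχ (D.simple i) hlt _
    refine ⟨fun t => ⟨_, key t⟩, fun t' => ⟨σ.symm ((χ (D.simple i))⁻¹ * t'), ?_⟩⟩
    rw [key]
    have e2 : (σ : F →+* F) (σ.symm ((χ (D.simple i))⁻¹ * t')) = (χ (D.simple i))⁻¹ * t' :=
      σ.apply_symm_apply _
    rw [e2, mul_inv_cancel_left₀ (hχ.1 _)]
  -- the contradiction from a graph automorphism in the inner-diagonal-field class
  have hNG : ∀ (α : MulAut ↥(D.group F)),
      Pres α (D.posUnipotent F) (D.posUnipotent F) → Pres α (D.negUnipotent F) (D.negUnipotent F) →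
      (∀ i < D.rank, RootTo hS α (D.simple i) (D.simple i)) →
      ∀ x : ↥(D.group F), ¬ (∀ y : ↥(D.group F), α (x * y * x⁻¹) = γ y) :=
    fun α hαU hαV hαR x => h4 D F z η rT w0 hC sig γ hG hne hc2 α hαU hαV hαR x
  let Hs : Subgroup ↥(torusGroup D F) := (D.diagonalSubgroup F).subgroupOf (torusGroup D F)
  let Ψ : (↥(torusGroup D F) × (F ≃+* F)) × Bool → Cfsg.Out ↥(D.group F) :=
    fun p => QuotientGroup.mk ((gpow γ p.2 : MulAut ↥(D.group F))⁻¹ *
      ((δ p.1.1 : MulAut ↥(D.group F)) * (Φ p.1.2 : MulAut ↥(D.group F))))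
  have hcard : Nat.card ↥Hs = Nat.card ↥(D.diagonalSubgroup F) :=
    Nat.card_congr (Subgroup.subgroupOfEquivOfLe (diagonal_le_torus hS hT)).toEquiv
  rw [← hcard]
  refine card_of_fibres2 Hs Ψ ?_ ?_
  · -- surjectivity
    intro o
    obtain ⟨θ, rfl⟩ := QuotientGroup.mk_surjective o
    obtain ⟨g, b, k, hk, σ, hE⟩ := hθ θ
    refine ⟨(((⟨k, hk⟩ : ↥(torusGroup D F))⁻¹, σ), b), ?_⟩
    have e : (θ : MulAut ↥(D.group F)) =
        MulAut.conj g⁻¹ * ((gpow γ b : MulAut ↥(D.group F))⁻¹ *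
          ((δ (⟨k, hk⟩ : ↥(torusGroup D F))⁻¹ : MulAut ↥(D.group F)) * Φ σ)) := by
      apply MulEquiv.ext
      intro y
      have e1 : (δ (⟨k, hk⟩ : ↥(torusGroup D F))⁻¹) ((Φ σ) y) = gpow γ b (conjL g θ y) := by
        apply Subtype.ext
        rw [hδ, hΦ, ← hE y]
        show (k⁻¹ : GL D.Idx F) * (k * ((gpow γ b (conjL g θ y) : ↥(D.group F)) : GL D.Idx F) * k⁻¹) *
          (k⁻¹ : GL D.Idx F)⁻¹ = _
        group
      show θ y = g⁻¹ * ((gpow γ b : MulAut ↥(D.group F))⁻¹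
        ((δ (⟨k, hk⟩ : ↥(torusGroup D F))⁻¹) ((Φ σ) y))) * g⁻¹⁻¹
      rw [e1]
      have e2 : (gpow γ b : MulAut ↥(D.group F))⁻¹ (gpow γ b (conjL g θ y)) = conjL g θ y :=
        MulAut.inv_apply_self _ _ _
      rw [e2, conjL_apply]
      group
    show (QuotientGroup.mk ((gpow γ b : MulAut ↥(D.group F))⁻¹ *
        ((δ (⟨k, hk⟩ : ↥(torusGroup D F))⁻¹ : MulAut ↥(D.group F)) * Φ σ)) :
      Cfsg.Out ↥(D.group F)) = QuotientGroup.mk θ
    have h1' : (QuotientGroup.mk (MulAut.conj g⁻¹ : MulAut ↥(D.group F)) :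
        Cfsg.Out ↥(D.group F)) = 1 :=
      (QuotientGroup.eq_one_iff _).mpr ⟨g⁻¹, rfl⟩
    have e' : (QuotientGroup.mk (MulAut.conj g⁻¹ * ((gpow γ b : MulAut ↥(D.group F))⁻¹ *
        ((δ (⟨k, hk⟩ : ↥(torusGroup D F))⁻¹ : MulAut ↥(D.group F)) * Φ σ))) :
          Cfsg.Out ↥(D.group F)) =
        QuotientGroup.mk ((gpow γ b : MulAut ↥(D.group F))⁻¹ *
          ((δ (⟨k, hk⟩ : ↥(torusGroup D F))⁻¹ : MulAut ↥(D.group F)) * Φ σ)) := by
      rw [QuotientGroup.mk_mul, h1', one_mul]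
    rw [e]; exact e'.symm
  · -- fibres
    intro k σ b k' σ' b'
    -- the case of equal Boolean components (helper53's argument)
    have same : ∀ x : ↥(D.group F),
        ((δ k : MulAut ↥(D.group F)) * Φ σ) * MulAut.conj x =
          (δ k' : MulAut ↥(D.group F)) * Φ σ' → σ = σ' ∧ k⁻¹ * k' ∈ Hs := by
      intro x hx'
      have hgx : glMap D (σ : F →+* F) (x : GL D.Idx F) ∈ D.group F := by
        rw [← hΦ σ x]; exact (Φ σ x).2
      let ρ : F ≃ F := σ.symm.toEquiv.trans σ'.toEquiv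
      have hρ : ∀ t : F, ρ t = σ' (σ.symm t) := fun t => rfl
      have hconj : ∀ r < D.nroots, ∀ t : F,
          glMap D (σ : F →+* F) (x : GL D.Idx F) * xU hC.hP.sem r t *
              (glMap D (σ : F →+* F) (x : GL D.Idx F))⁻¹ =
            ((k : GL D.Idx F)⁻¹ * (k' : GL D.Idx F)) * xU hC.hP.sem r (ρ t) *
              ((k : GL D.Idx F)⁻¹ * (k' : GL D.Idx F))⁻¹ := by
        intro r _ t
        have hy := congrArg (fun a : MulAut ↥(D.group F) =>
          ((a (xG hS r (σ.symm t)) : ↥(D.group F)) : GL D.Idx F)) hx'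
        simp only [MulAut.mul_apply, MulAut.conj_apply, hδ, hΦ, Subgroup.coe_mul,
          InvMemClass.coe_inv, map_mul, map_inv] at hy
        have e1 : ((xG hS r (σ.symm t) : ↥(D.group F)) : GL D.Idx F) = xU hS r (σ.symm t) := rfl
        rw [e1, glMap_xU hS hS, glMap_xU hS hS] at hy
        have e2 : (σ : F →+* F) (σ.symm t) = t := σ.apply_symm_apply t
        have e3 : (σ' : F →+* F) (σ.symm t) = ρ t := rfl
        rw [e2, e3] at hy
        calc glMap D (σ : F →+* F) (x : GL D.Idx F) * xU hS r t *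
              (glMap D (σ : F →+* F) (x : GL D.Idx F))⁻¹
            = (k : GL D.Idx F)⁻¹ * ((k : GL D.Idx F) * glMap D (σ : F →+* F) (x : GL D.Idx F) *
                (k : GL D.Idx F)⁻¹ * ((k : GL D.Idx F) * xU hS r t * (k : GL D.Idx F)⁻¹) *
                ((k : GL D.Idx F) * glMap D (σ : F →+* F) (x : GL D.Idx F) *
                  (k : GL D.Idx F)⁻¹)⁻¹) * (k : GL D.Idx F) := by group
          _ = (k : GL D.Idx F)⁻¹ * ((k' : GL D.Idx F) * xU hS r (ρ t) * (k' : GL D.Idx F)⁻¹) *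
                (k : GL D.Idx F) := by rw [hy]
          _ = _ := by group
      have hmem : (k : GL D.Idx F)⁻¹ * (k' : GL D.Idx F) ∈ torusGroup D F :=
        (torusGroup D F).mul_mem ((torusGroup D F).inv_mem k.2) k'.2
      have hρ1 : ρ 1 = 1 := by rw [hρ, map_one, map_one]
      obtain ⟨hid, hH⟩ := h1 D F z η rT w0 hC _ hgx _ hmem ρ hconj hρ1 hrank
      refine ⟨?_, ?_⟩
      · apply RingEquiv.ext
        intro s
        have := hid (σ s)
        rw [hρ, σ.symm_apply_apply] at this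
        exact this.symm
      · show ((k⁻¹ * k' : ↥(torusGroup D F)) : GL D.Idx F) ∈ D.diagonalSubgroup F
        exact hH
    have e0 : (gpow γ false : MulAut ↥(D.group F)) = 1 := rfl
    have e1 : (gpow γ true : MulAut ↥(D.group F)) = γ := rfl
    constructor
    · intro h
      have h' : ((gpow γ b : MulAut ↥(D.group F))⁻¹ * ((δ k : MulAut ↥(D.group F)) * Φ σ))⁻¹ *
          ((gpow γ b' : MulAut ↥(D.group F))⁻¹ * ((δ k' : MulAut ↥(D.group F)) * Φ σ')) ∈
          Cfsg.Inn ↥(D.group F) := QuotientGroup.eq.mp h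
      obtain ⟨x, hx⟩ := h'
      have hx' : ((gpow γ b : MulAut ↥(D.group F))⁻¹ * ((δ k : MulAut ↥(D.group F)) * Φ σ)) *
          MulAut.conj x =
          (gpow γ b' : MulAut ↥(D.group F))⁻¹ * ((δ k' : MulAut ↥(D.group F)) * Φ σ') := by
        rw [hx, mul_inv_cancel_left]
      cases b <;> cases b'
      · -- false, false
        rw [e0, inv_one, one_mul, one_mul] at hx'
        exact ⟨rfl, same x hx'⟩
      · -- false, true : `γ ∘ β ∘ conj x = β'`
        exfalso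
        rw [e0, e1, inv_one, one_mul] at hx'
        have hy : ∀ y : ↥(D.group F),
            γ (((δ k : MulAut ↥(D.group F)) * Φ σ) (x * y * x⁻¹)) =
              ((δ k' : MulAut ↥(D.group F)) * Φ σ') y := by
          intro y
          have := congrArg (fun a : MulAut ↥(D.group F) => γ (a y)) hx'
          simp only [MulAut.mul_apply, MulAut.conj_apply] at this
          show γ ((δ k) ((Φ σ) (x * y * x⁻¹))) = (δ k') ((Φ σ') y)
          rw [this]
          exact MulAut.apply_inv_self _ γ _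
        refine hNG (((δ k' : MulAut ↥(D.group F)) * Φ σ') * ((δ k : MulAut ↥(D.group F)) * Φ σ)⁻¹)
          (pres_mul _ _ _ (hPU k' σ') (pres_inv _ _ (hPU k σ)))
          (pres_mul _ _ _ (hPV k' σ') (pres_inv _ _ (hPV k σ)))
          (fun i hi => rootTo_mul hS _ _ _ (hPR k' σ' i hi) (rootTo_inv hS _ _ (hPR k σ i hi)))
          ((((δ k : MulAut ↥(D.group F)) * Φ σ) x)⁻¹) ?_
        intro w
        have h3 := hy (x⁻¹ * ((δ k : MulAut ↥(D.group F)) * Φ σ)⁻¹ w * x)
        have e4 : x * (x⁻¹ * ((δ k : MulAut ↥(D.group F)) * Φ σ)⁻¹ w * x) * x⁻¹ =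
            ((δ k : MulAut ↥(D.group F)) * Φ σ)⁻¹ w := by group
        rw [e4, MulAut.apply_inv_self] at h3
        rw [h3]
        show ((δ k' : MulAut ↥(D.group F)) * Φ σ') (((δ k : MulAut ↥(D.group F)) * Φ σ)⁻¹
          ((((δ k : MulAut ↥(D.group F)) * Φ σ) x)⁻¹ * w *
            ((((δ k : MulAut ↥(D.group F)) * Φ σ) x)⁻¹)⁻¹)) =
          ((δ k' : MulAut ↥(D.group F)) * Φ σ')
            (x⁻¹ * ((δ k : MulAut ↥(D.group F)) * Φ σ)⁻¹ w * x)
        congr 1
        rw [inv_inv, map_mul, map_mul, map_inv, MulAut.inv_apply_self]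
      · -- true, false : `γ⁻¹ ∘ β ∘ conj x = β'`
        exfalso
        rw [e0, e1, inv_one, one_mul] at hx'
        have hy : ∀ y : ↥(D.group F),
            ((δ k : MulAut ↥(D.group F)) * Φ σ) (x * y * x⁻¹) =
              γ (((δ k' : MulAut ↥(D.group F)) * Φ σ') y) := by
          intro y
          have := congrArg (fun a : MulAut ↥(D.group F) => γ (a y)) hx'
          simp only [MulAut.mul_apply, MulAut.conj_apply] at this
          show (δ k) ((Φ σ) (x * y * x⁻¹)) = γ ((δ k') ((Φ σ') y))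
          rw [← this]
          exact (MulAut.apply_inv_self _ γ _).symm
        refine hNG (((δ k : MulAut ↥(D.group F)) * Φ σ) * ((δ k' : MulAut ↥(D.group F)) * Φ σ')⁻¹)
          (pres_mul _ _ _ (hPU k σ) (pres_inv _ _ (hPU k' σ')))
          (pres_mul _ _ _ (hPV k σ) (pres_inv _ _ (hPV k' σ')))
          (fun i hi => rootTo_mul hS _ _ _ (hPR k σ i hi) (rootTo_inv hS _ _ (hPR k' σ' i hi)))
          (((δ k' : MulAut ↥(D.group F)) * Φ σ') x) ?_
        intro w
        have h3 := hy (((δ k' : MulAut ↥(D.group F)) * Φ σ')⁻¹ w)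
        rw [MulAut.apply_inv_self] at h3
        rw [← h3]
        show ((δ k : MulAut ↥(D.group F)) * Φ σ) (((δ k' : MulAut ↥(D.group F)) * Φ σ')⁻¹
          ((((δ k' : MulAut ↥(D.group F)) * Φ σ') x) * w *
            (((δ k' : MulAut ↥(D.group F)) * Φ σ') x)⁻¹)) =
          ((δ k : MulAut ↥(D.group F)) * Φ σ)
            (x * ((δ k' : MulAut ↥(D.group F)) * Φ σ')⁻¹ w * x⁻¹)
        congr 1
        rw [map_mul, map_mul, map_inv, MulAut.inv_apply_self]
      · -- true, true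
        have hx'' : ((δ k : MulAut ↥(D.group F)) * Φ σ) * MulAut.conj x =
            (δ k' : MulAut ↥(D.group F)) * Φ σ' := by
          rw [mul_assoc] at hx'
          exact mul_left_cancel hx'
        exact ⟨rfl, same x hx''⟩
    · rintro ⟨rfl, rfl, hH⟩
      have hH' : (k : GL D.Idx F)⁻¹ * (k' : GL D.Idx F) ∈ D.diagonalSubgroup F := hH
      let hG' : ↥(D.group F) := ⟨(k : GL D.Idx F)⁻¹ * (k' : GL D.Idx F), diagonal_le_group hS hH'⟩
      show (QuotientGroup.mk ((gpow γ b : MulAut ↥(D.group F))⁻¹ *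
          ((δ k : MulAut ↥(D.group F)) * Φ σ)) : Cfsg.Out ↥(D.group F)) =
        QuotientGroup.mk ((gpow γ b : MulAut ↥(D.group F))⁻¹ *
          ((δ k' : MulAut ↥(D.group F)) * Φ σ))
      rw [QuotientGroup.eq]
      refine ⟨(Φ σ).symm hG', ?_⟩
      rw [eq_inv_mul_iff_mul_eq]
      apply MulEquiv.ext
      intro y
      have key : ((δ k : MulAut ↥(D.group F)) * Φ σ) (MulAut.conj ((Φ σ).symm hG') y) =
          ((δ k' : MulAut ↥(D.group F)) * Φ σ) y := by
        apply Subtype.ext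
        simp only [MulAut.mul_apply, MulAut.conj_apply, hδ, map_mul, map_inv,
          MulEquiv.apply_symm_apply, Subgroup.coe_mul, InvMemClass.coe_inv]
        have ehG : ((hG' : ↥(D.group F)) : GL D.Idx F) = (k : GL D.Idx F)⁻¹ * (k' : GL D.Idx F) := rfl
        rw [ehG]
        group
      show (gpow γ b : MulAut ↥(D.group F))⁻¹ (((δ k : MulAut ↥(D.group F)) * Φ σ)
        (MulAut.conj ((Φ σ).symm hG') y)) =
        (gpow γ b : MulAut ↥(D.group F))⁻¹ (((δ k' : MulAut ↥(D.group F)) * Φ σ) y)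
      rw [key]

example (h1 : Cfsg.Agent.H23.Stb.StInnH.{u}) (h2 : Cfsg.Agent.H23.Stb.StField.{u})
    (h3 : Cfsg.Agent.H23.Stb.StHatAut.{u}) (h4 : Cfsg.Agent.H78.StbG.StNotGamma.{u})
    (h5 : Cfsg.Agent.H78.StbG.StTorusPres.{u}) (h6 : Cfsg.Agent.H78.StbG.StFieldPres.{u}) :
    Cfsg.Agent.H78.StbG.StFinalG.{u} := finalG h1 h2 h3 h4 h5 h6

end Cfsg.Agent.H56.StbG
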