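import Mathlib
import Cfsg.Agent.H78.SvDefs

set_option autoImplicit false

namespace Cfsg.Agent.H56.Sv

open Cfsg.Agent.H78.Sv
open scoped MatrixGroups

section chain

variable {F : Type*} [Field F] {n : ℕ}

/-- The dimension of an invariant subspace. -/
noncomputable def dm (T : Module.End F (Fin n → F)) (w : ↥(Module.End.invtSubmodule T)) : ℕ :=
  Module.finrank F ↥w.1

theorem dm_strictMono (T : Module.End F (Fin n → F)) : StrictMono (dm T) := by
  intro w w' h
  exact Submodule.finrank_lt_finrank_of_lt (show w.1 < w'.1 from h)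

theorem dm_bot (T : Module.End F (Fin n → F)) : dm T ⊥ = 0 := by
  show Module.finrank F ↥(⊥ : Submodule F (Fin n → F)) = 0
  exact finrank_bot F (Fin n → F)

theorem dm_top (T : Module.End F (Fin n → F)) : dm T ⊤ = n := by
  show Module.finrank F ↥(⊤ : Submodule F (Fin n → F)) = n
  rw [finrank_top]; simp

theorem dm_le (T : Module.End F (Fin n → F)) (w : ↥(Module.End.invtSubmodule T)) :
    dm T w ≤ n := by
  have h := Submodule.finrank_le w.1
  rw [Module.finrank_fin_fun] at h
  exact h

theorem eq_top_of_dm (T : Module.End F (Fin n → F)) (w : ↥(Module.End.invtSubmodule T))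
    (h : dm T w = n) : w = ⊤ := by
  apply Subtype.ext
  show w.1 = ⊤
  apply Submodule.eq_top_of_finrank_eq
  rw [Module.finrank_fin_fun]
  exact h

/-- The index `dim - 1` of an invariant subspace. -/
noncomputable def idx (hn : 0 < n) (T : Module.End F (Fin n → F))
    (w : ↥(Module.End.invtSubmodule T)) : Fin n :=
  ⟨dm T w - 1, by have := dm_le T w; omega⟩

/-- The last index. -/
def lastF (hn : 0 < n) : Fin n := ⟨n - 1, by omega⟩

/-- The chains in the open interval `(⊥, ⊤)`. -/
def Good (T : Module.End F (Fin n → F)) (C : Finset ↥(Module.End.invtSubmodule T)) : Prop :=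
  IsChain (· ≤ ·) (C : Set ↥(Module.End.invtSubmodule T)) ∧ ∀ w ∈ C, ⊥ < w ∧ w < ⊤

/-- The type (set of block ends) of a chain. -/
noncomputable def Dset (hn : 0 < n) (T : Module.End F (Fin n → F))
    (C : Finset ↥(Module.End.invtSubmodule T)) : Finset (Fin n) :=
  insert (lastF hn) (C.image (idx hn T))

theorem good_dm {T : Module.End F (Fin n → F)} {C : Finset ↥(Module.End.invtSubmodule T)}
    (hC : Good T C) {w : ↥(Module.End.invtSubmodule T)} (hw : w ∈ C) :
    1 ≤ dm T w ∧ dm T w + 1 ≤ n := by
  obtain ⟨h1, h2⟩ := hC.2 w hw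
  have a := dm_strictMono T h1
  have b := dm_strictMono T h2
  rw [dm_bot] at a
  rw [dm_top] at b
  omega

theorem good_idx_inj (hn : 0 < n) {T : Module.End F (Fin n → F)}
    {C : Finset ↥(Module.End.invtSubmodule T)} (hC : Good T C)
    {w w' : ↥(Module.End.invtSubmodule T)} (hw : w ∈ C) (hw' : w' ∈ C)
    (h : idx hn T w = idx hn T w') : w = w' := by
  have h1 := good_dm hC hw
  have h2 := good_dm hC hw'
  have h3 : dm T w - 1 = dm T w' - 1 := congrArg Fin.val h
  rcases hC.1.total (Finset.mem_coe.2 hw) (Finset.mem_coe.2 hw') with hle | hle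
  · rcases eq_or_lt_of_le hle with he | hlt
    · exact he
    · have := dm_strictMono T hlt; omega
  · rcases eq_or_lt_of_le hle with he | hlt
    · exact he.symm
    · have := dm_strictMono T hlt; omega

theorem good_idx_ne_last (hn : 0 < n) {T : Module.End F (Fin n → F)}
    {C : Finset ↥(Module.End.invtSubmodule T)} (hC : Good T C)
    {w : ↥(Module.End.invtSubmodule T)} (hw : w ∈ C) : idx hn T w ≠ lastF hn := by
  intro h
  have h1 := good_dm hC hw
  have h3 : dm T w - 1 = n - 1 := congrArg Fin.val h
  omega

theorem dset_mem_ends (hn : 0 < n) (T : Module.End F (Fin n → F))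
    (C : Finset ↥(Module.End.invtSubmodule T)) : Dset hn T C ∈ ends n := by
  unfold ends
  rw [Finset.mem_filter]
  refine ⟨Finset.mem_univ _, ?_⟩
  intro i hi
  have e : i = lastF hn := Fin.ext (by show i.val = n - 1; omega)
  rw [e]
  exact Finset.mem_insert_self _ _

theorem dset_card (hn : 0 < n) {T : Module.End F (Fin n → F)}
    {C : Finset ↥(Module.End.invtSubmodule T)} (hC : Good T C) :
    (Dset hn T C).card = C.card + 1 := by
  unfold Dset
  rw [Finset.card_insert_of_notMem, Finset.card_image_of_injOn]
  · intro w hw w' hw' h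
    exact good_idx_inj hn hC (Finset.mem_coe.1 hw) (Finset.mem_coe.1 hw') h
  · intro hmem
    obtain ⟨w, hw, h⟩ := Finset.mem_image.1 hmem
    exact good_idx_ne_last hn hC hw h

open Classical in
theorem card_fibre (hn : 0 < n) (T : Module.End F (Fin n → F))
    [Fintype ↥(Module.End.invtSubmodule T)] (S : Finset (Fin n)) (hS : S ∈ ends n) :
    ((Finset.univ.filter (Good T)).filter (fun C => Dset hn T C = S)).card =
      Nat.card (Flags T S) := by
  have hlastS : lastF hn ∈ S := by
    have h0 := (Finset.mem_filter.1 hS).2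
    exact h0 (lastF hn) (by show n - 1 + 1 = n; omega)
  -- the forward map
  let f : Flags T S → Finset ↥(Module.End.invtSubmodule T) := fun W =>
    (Finset.univ.filter (fun s : ↥S => s.1 ≠ lastF hn)).image W.1
  have hWd : ∀ (W : Flags T S) (s : ↥S), dm T (W.1 s) = s.1.val + 1 := fun W s => W.2.1 s
  have hWi : ∀ (W : Flags T S) (s : ↥S), idx hn T (W.1 s) = s.1 := by
    intro W s
    apply Fin.ext
    show dm T (W.1 s) - 1 = s.1.val
    rw [hWd]; omega
  have hgood : ∀ W : Flags T S, Good T (f W) := by
    intro W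
    constructor
    · intro a ha b hb _
      obtain ⟨s, -, rfl⟩ := Finset.mem_image.1 (Finset.mem_coe.1 ha)
      obtain ⟨s', -, rfl⟩ := Finset.mem_image.1 (Finset.mem_coe.1 hb)
      rcases le_total s s' with h | h
      · exact Or.inl (W.2.2 h)
      · exact Or.inr (W.2.2 h)
    · intro w hw
      obtain ⟨s, hs, rfl⟩ := Finset.mem_image.1 hw
      have hs' : s.1 ≠ lastF hn := (Finset.mem_filter.1 hs).2
      have hd := hWd W s
      have hsn : s.1.val + 1 < n := by
        have h1 : s.1.val ≠ n - 1 := fun h => hs' (Fin.ext h)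
        have h2 := s.1.2
        omega
      constructor
      · rw [bot_lt_iff_ne_bot]
        intro hbot
        rw [hbot, dm_bot] at hd
        omega
      · rw [lt_top_iff_ne_top]
        intro htop
        rw [htop, dm_top] at hd
        omega
  have hD : ∀ W : Flags T S, Dset hn T (f W) = S := by
    intro W
    ext i
    unfold Dset
    rw [Finset.mem_insert, Finset.mem_image]
    constructor
    · rintro (rfl | ⟨w, hw, rfl⟩)
      · exact hlastS
      · obtain ⟨s, -, rfl⟩ := Finset.mem_image.1 hw
        rw [hWi]; exact s.2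
    · intro hi
      by_cases hil : i = lastF hn
      · exact Or.inl hil
      · exact Or.inr ⟨W.1 ⟨i, hi⟩, Finset.mem_image.2 ⟨⟨i, hi⟩,
          Finset.mem_filter.2 ⟨Finset.mem_univ _, hil⟩, rfl⟩, hWi W ⟨i, hi⟩⟩
  have hmem : ∀ W : Flags T S,
      f W ∈ (Finset.univ.filter (Good T)).filter (fun C => Dset hn T C = S) := by
    intro W
    exact Finset.mem_filter.2 ⟨Finset.mem_filter.2 ⟨Finset.mem_univ _, hgood W⟩, hD W⟩
  have hinj : Function.Injective f := by
    intro W W' h
    apply Subtype.ext
    funext s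
    by_cases hs : s.1 = lastF hn
    · have h1 : dm T (W.1 s) = n := by
        rw [hWd, hs]; show n - 1 + 1 = n; omega
      have h2 : dm T (W'.1 s) = n := by
        rw [hWd, hs]; show n - 1 + 1 = n; omega
      rw [eq_top_of_dm T _ h1, eq_top_of_dm T _ h2]
    · have h1 : W.1 s ∈ f W :=
        Finset.mem_image.2 ⟨s, Finset.mem_filter.2 ⟨Finset.mem_univ _, hs⟩, rfl⟩
      rw [h] at h1
      obtain ⟨s', -, h2⟩ := Finset.mem_image.1 h1
      have h3 : dm T (W'.1 s') = dm T (W.1 s) := by rw [h2]
      rw [hWd, hWd] at h3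
      have h4 : s' = s := Subtype.ext (Fin.ext (by omega))
      rw [← h2, h4]
  have hsurj : ∀ C ∈ (Finset.univ.filter (Good T)).filter (fun C => Dset hn T C = S),
      ∃ W : Flags T S, f W = C := by
    intro C hC
    obtain ⟨hC1, hCD⟩ := Finset.mem_filter.1 hC
    have hCg : Good T C := (Finset.mem_filter.1 hC1).2
    let W0 : ↥S → ↥(Module.End.invtSubmodule T) := fun s =>
      if h : ∃ w ∈ C, idx hn T w = s.1 then Classical.choose h else ⊤
    have hspec : ∀ s : ↥S, s.1 ≠ lastF hn → W0 s ∈ C ∧ idx hn T (W0 s) = s.1 := by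
      intro s hs
      have hsD : s.1 ∈ Dset hn T C := by rw [hCD]; exact s.2
      unfold Dset at hsD
      rcases Finset.mem_insert.1 hsD with h | h
      · exact absurd h hs
      · have hex : ∃ w ∈ C, idx hn T w = s.1 := by
          obtain ⟨w, hw, hw'⟩ := Finset.mem_image.1 h
          exact ⟨w, hw, hw'⟩
        have e : W0 s = Classical.choose hex := dif_pos hex
        rw [e]
        exact Classical.choose_spec hex
    have hlast : ∀ s : ↥S, s.1 = lastF hn → W0 s = ⊤ := by
      intro s hs
      have hno : ¬ ∃ w ∈ C, idx hn T w = s.1 := by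
        rintro ⟨w, hw, h⟩
        exact good_idx_ne_last hn hCg hw (h.trans hs)
      exact dif_neg hno
    have hdim : ∀ s : ↥S, dm T (W0 s) = s.1.val + 1 := by
      intro s
      by_cases hs : s.1 = lastF hn
      · rw [hlast s hs, dm_top, hs]; show n = n - 1 + 1; omega
      · obtain ⟨h1, h2⟩ := hspec s hs
        have h3 := good_dm hCg h1
        have h4 : dm T (W0 s) - 1 = s.1.val := congrArg Fin.val h2
        omega
    have hmono : Monotone W0 := by
      intro s s' hss
      by_cases hs' : s'.1 = lastF hn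
      · rw [hlast s' hs']; exact le_top
      · have hs : s.1 ≠ lastF hn := by
          intro h
          apply hs'
          apply Fin.ext
          have h1 : s.1.val ≤ s'.1.val := hss
          have h2 := s'.1.2
          have h3 : s.1.val = n - 1 := congrArg Fin.val h
          show s'.1.val = n - 1
          omega
        obtain ⟨h1, -⟩ := hspec s hs
        obtain ⟨h1', -⟩ := hspec s' hs'
        rcases hCg.1.total (Finset.mem_coe.2 h1) (Finset.mem_coe.2 h1') with hle | hle
        · exact hle
        · have h5 := (dm_strictMono T).monotone hle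
          rw [hdim, hdim] at h5
          have h6 : s' ≤ s := by
            show s'.1.val ≤ s.1.val
            omega
          have h7 : s = s' := le_antisymm hss h6
          rw [h7]
    refine ⟨⟨W0, hdim, hmono⟩, ?_⟩
    ext w
    constructor
    · intro hw
      obtain ⟨s, hs, rfl⟩ := Finset.mem_image.1 hw
      exact (hspec s (Finset.mem_filter.1 hs).2).1
    · intro hw
      have hiS : idx hn T w ∈ S := by
        rw [← hCD]
        exact Finset.mem_insert_of_mem (Finset.mem_image_of_mem _ hw)
      have hil : idx hn T w ≠ lastF hn := good_idx_ne_last hn hCg hw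
      obtain ⟨h1, h2⟩ := hspec ⟨idx hn T w, hiS⟩ hil
      have h3 : W0 ⟨idx hn T w, hiS⟩ = w := good_idx_inj hn hCg h1 hw h2
      exact Finset.mem_image.2 ⟨⟨idx hn T w, hiS⟩,
        Finset.mem_filter.2 ⟨Finset.mem_univ _, hil⟩, h3⟩
  rw [← Nat.card_eq_finsetCard]
  symm
  exact Nat.card_congr (Equiv.ofBijective
    (fun W => (⟨f W, hmem W⟩ :
      ↥((Finset.univ.filter (Good T)).filter (fun C => Dset hn T C = S))))
    ⟨fun W W' h => hinj (congrArg Subtype.val h), fun ⟨C, hC⟩ => by
      obtain ⟨W, hW⟩ := hsurj C hC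
      exact ⟨W, Subtype.ext hW⟩⟩)

open Classical in
theorem chainSum_top (T : Module.End F (Fin n → F)) [Fintype ↥(Module.End.invtSubmodule T)] :
    chainSum (⊤ : ↥(Module.End.invtSubmodule T)) =
      ∑ C ∈ Finset.univ.filter (Good T), (-1 : ℤ) ^ C.card := by
  unfold chainSum Good
  rw [Finset.sum_filter]
  apply Finset.sum_congr rfl
  intro C _
  split_ifs <;> rfl

end chain

theorem chain_count {F : Type*} [Field F] [Finite F] {n : ℕ} (T : Module.End F (Fin n → F))
    [Fintype ↥(Module.End.invtSubmodule T)] :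
    ∑ S ∈ ends n, (-1 : ℤ) ^ (n - S.card) * (Nat.card (Flags T S) : ℤ) =
      (-1) ^ n * moeb (⊤ : ↥(Module.End.invtSubmodule T)) := by
  classical
  rcases Nat.eq_zero_or_pos n with rfl | hn
  · -- `n = 0`
    have hends : ends 0 = {∅} := by
      ext S
      have hS : S = ∅ := Finset.eq_empty_of_isEmpty S
      subst hS
      constructor
      · intro _
        exact Finset.mem_singleton_self _
      · intro _
        exact Finset.mem_filter.2 ⟨Finset.mem_univ _, fun i => i.elim0⟩
    rw [hends, Finset.sum_singleton]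
    have h1 : Nat.card (Flags T (∅ : Finset (Fin 0))) = 1 := by
      rw [Nat.card_eq_one_iff_unique]
      constructor
      · constructor
        intro a b
        apply Subtype.ext
        funext s
        exact (Finset.notMem_empty _ s.2).elim
      · exact ⟨⟨fun s => (Finset.notMem_empty _ s.2).elim,
          fun s => (Finset.notMem_empty _ s.2).elim,
          fun s _ _ => (Finset.notMem_empty _ s.2).elim⟩⟩
    have h2 : (⊤ : ↥(Module.End.invtSubmodule T)) = ⊥ := by
      apply Subtype.ext
      show (⊤ : Submodule F (Fin 0 → F)) = ⊥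
      exact (Submodule.eq_bot_iff _).2 (fun x _ => Subsingleton.elim x 0)
    rw [h1]
    unfold moeb
    rw [if_pos h2]
    simp
  · have htop : (⊤ : ↥(Module.End.invtSubmodule T)) ≠ ⊥ := by
      intro h
      have h1 := dm_top T
      rw [h, dm_bot] at h1
      omega
    unfold moeb
    rw [if_neg htop, chainSum_top T,
      ← Finset.sum_fiberwise_of_maps_to (g := Dset hn T) (t := ends n)
        (fun C _ => dset_mem_ends hn T C),
      mul_neg, Finset.mul_sum, ← Finset.sum_neg_distrib]
    apply Finset.sum_congr rfl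
    intro S hS
    have hin : ∑ C ∈ (Finset.univ.filter (Good T)).filter (fun C => Dset hn T C = S),
        (-1 : ℤ) ^ C.card = (-1 : ℤ) ^ (S.card - 1) * (Nat.card (Flags T S) : ℤ) := by
      rw [← card_fibre hn T S hS]
      rw [Finset.sum_congr rfl (g := fun _ => (-1 : ℤ) ^ (S.card - 1))]
      · rw [Finset.sum_const, nsmul_eq_mul, mul_comm]
      · intro C hC
        obtain ⟨hC1, hCD⟩ := Finset.mem_filter.1 hC
        have hc := dset_card hn (Finset.mem_filter.1 hC1).2
        rw [hCD] at hc
        have e : C.card = S.card - 1 := by omega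
        rw [e]
    rw [hin]
    have hk1 : 1 ≤ S.card := by
      have h0 := (Finset.mem_filter.1 hS).2 (lastF hn) (by show n - 1 + 1 = n; omega)
      exact Finset.card_pos.2 ⟨_, h0⟩
    have hk2 : S.card ≤ n := by
      have h0 := Finset.card_le_univ S
      rwa [Fintype.card_fin] at h0
    obtain ⟨a, ha⟩ : ∃ a, n - S.card = a := ⟨_, rfl⟩
    obtain ⟨b, hb⟩ : ∃ b, S.card - 1 = b := ⟨_, rfl⟩
    have e4 : (-1 : ℤ) ^ n = (-1) ^ a * (-1) ^ b * (-1) := by
      have e3 : n = a + b + 1 := by omega
      rw [e3, pow_succ, pow_add]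
    have h2 : ((-1 : ℤ) ^ b) * ((-1) ^ b) = 1 := by rw [← mul_pow]; norm_num
    rw [ha, hb, e4]
    linear_combination (-((-1 : ℤ) ^ a * (Nat.card (Flags T S) : ℤ))) * h2

end Cfsg.Agent.H56.Sv
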