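import Mathlib
import Cfsg.Agent.H78.SvDefs

set_option autoImplicit false

namespace Cfsg.Agent.H56.Sv

open Cfsg.Agent.H78.Sv
open scoped MatrixGroups

/-- Telescoping: the block lengths of a set of block ends add up to the largest end plus one. -/
theorem tele_sup {n : ℕ} (T : Finset (Fin n)) :
    ∑ k ∈ T, (k.val + 1 - (T.filter (· < k)).sup (fun s => s.val + 1)) =
      T.sup (fun s => s.val + 1) := by
  refine Finset.induction_on_max T ?_ ?_
  · simp
  · intro a T' h ih
    have ha : a ∉ T' := fun hmem => lt_irrefl a (h a hmem)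
    rw [Finset.sum_insert ha, Finset.sup_insert]
    have e1 : (insert a T').filter (· < a) = T' := by
      ext x
      simp only [Finset.mem_filter, Finset.mem_insert]
      constructor
      · rintro ⟨hx | hx, hlt⟩
        · exact absurd hlt (by rw [hx]; exact lt_irrefl a)
        · exact hx
      · intro hx
        exact ⟨Or.inr hx, h x hx⟩
    have e2 : ∀ k ∈ T', (insert a T').filter (· < k) = T'.filter (· < k) := by
      intro k hk
      ext x
      simp only [Finset.mem_filter, Finset.mem_insert]
      constructor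
      · rintro ⟨hx | hx, hlt⟩
        · exact absurd (hlt.trans (h k hk)) (by rw [hx]; exact lt_irrefl a)
        · exact ⟨hx, hlt⟩
      · rintro ⟨hx, hlt⟩
        exact ⟨Or.inr hx, hlt⟩
    rw [e1, Finset.sum_congr rfl (fun k hk => by rw [e2 k hk]), ih]
    have hle : T'.sup (fun s => s.val + 1) ≤ a.val := by
      apply Finset.sup_le
      intro s hs
      have h1 := Fin.lt_def.1 (h s hs)
      omega
    generalize T'.sup (fun s => s.val + 1) = m at hle ⊢
    rw [sup_eq_left.2 (by omega)]
    omega

/-- The partial sums of `blk S`. -/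
theorem psum_blk {n : ℕ} (S : Finset (Fin n)) (j : Fin n) :
    ∑ k ∈ Finset.univ.filter (fun k : Fin n => k ≤ j), blk S k =
      (S.filter (· ≤ j)).sup (fun s => s.val + 1) := by
  rw [← tele_sup (S.filter (· ≤ j))]
  have e : (Finset.univ.filter (fun k : Fin n => k ≤ j)).filter (· ∈ S) = S.filter (· ≤ j) := by
    ext x
    simp only [Finset.mem_filter, Finset.mem_univ, true_and]
    tauto
  rw [← e, Finset.sum_filter (p := fun k : Fin n => k ∈ S)]
  apply Finset.sum_congr rfl
  intro k hk
  have hkj : k ≤ j := (Finset.mem_filter.1 hk).2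
  unfold blk
  by_cases hkS : k ∈ S
  · rw [if_pos hkS, if_pos hkS]
    have e3 : S.filter (· < k) =
        ((Finset.univ.filter (fun k : Fin n => k ≤ j)).filter (· ∈ S)).filter (· < k) := by
      ext x
      simp only [Finset.mem_filter, Finset.mem_univ, true_and]
      constructor
      · rintro ⟨h1, h2⟩
        exact ⟨⟨le_of_lt (lt_of_lt_of_le h2 hkj), h1⟩, h2⟩
      · rintro ⟨⟨-, h1⟩, h2⟩
        exact ⟨h1, h2⟩
    rw [e3]
  · rw [if_neg hkS, if_neg hkS]

/-- The block label of `i` for `blk S` counts the positions before the first end `≥ i`. -/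
theorem compLabel_blk_eq {n : ℕ} (S : Finset (Fin n)) (i : Fin n) :
    Cfsg.compLabel (blk S) i =
      (Finset.univ.filter (fun x : Fin n => ∀ s ∈ S, s ≤ x → s < i)).card := by
  unfold Cfsg.compLabel
  congr 1
  ext x
  simp only [Finset.mem_filter, Finset.mem_univ, true_and]
  rw [psum_blk, Finset.sup_le_iff]
  constructor
  · intro h s hs hsx
    have h1 := h s (Finset.mem_filter.2 ⟨hs, hsx⟩)
    exact Fin.lt_def.2 (by omega)
  · intro h s hs
    obtain ⟨hs1, hs2⟩ := Finset.mem_filter.1 hs
    have h1 := Fin.lt_def.1 (h s hs1 hs2)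
    omega

theorem compLabel_blk_lt_iff {n : ℕ} (S : Finset (Fin n)) (hS : S ∈ ends n) (i j : Fin n) :
    Cfsg.compLabel (blk S) j < Cfsg.compLabel (blk S) i ↔ ∃ s ∈ S, j ≤ s ∧ s < i := by
  have _ := hS
  rw [compLabel_blk_eq, compLabel_blk_eq]
  constructor
  · intro hlt
    by_contra hno
    push Not at hno
    have hsub : Finset.univ.filter (fun x : Fin n => ∀ s ∈ S, s ≤ x → s < i) ⊆
        Finset.univ.filter (fun x : Fin n => ∀ s ∈ S, s ≤ x → s < j) := by
      intro x hx
      simp only [Finset.mem_filter, Finset.mem_univ, true_and] at hx ⊢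
      intro s hs hsx
      by_contra hsj
      have h1 : j ≤ s := not_lt.1 hsj
      exact absurd (hx s hs hsx) (not_lt.2 (hno s hs h1))
    exact absurd (Finset.card_le_card hsub) (not_le.2 hlt)
  · rintro ⟨s, hs, hjs, hsi⟩
    apply Finset.card_lt_card
    rw [Finset.ssubset_iff_of_subset]
    · refine ⟨s, ?_, ?_⟩
      · simp only [Finset.mem_filter, Finset.mem_univ, true_and]
        intro s' _ hs's
        exact lt_of_le_of_lt hs's hsi
      · simp only [Finset.mem_filter, Finset.mem_univ, true_and]
        intro h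
        exact absurd (h s hs le_rfl) (not_lt.2 hjs)
    · intro x hx
      simp only [Finset.mem_filter, Finset.mem_univ, true_and] at hx ⊢
      intro s' hs' hs'x
      exact lt_of_lt_of_le (hx s' hs' hs'x) (le_of_lt (lt_of_le_of_lt hjs hsi))

end Cfsg.Agent.H56.Sv
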