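import Mathlib
import Cfsg.Agent.H74.W2PDefs

set_option autoImplicit false

/-!
S0720-NS (piece of helper74's Wielandt `2p` project): the normalizer of the Sylow `p`-subgroup.
-/

namespace Cfsg.Agent.H56.W2P

open Cfsg.Agent.H74.W2P Equiv MulAction

variable {Ω : Type*} [Fintype Ω] [DecidableEq Ω]

omit [DecidableEq Ω] in
/-- orbit-stabilizer with `Nat.card` -/
theorem card_orbit_mul' (M : Type*) [Group M] [Finite M] [MulAction M Ω] (b : Ω) :
    Nat.card (orbit M b) * Nat.card (stabilizer M b) = Nat.card M := by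
  classical
  have := Fintype.ofFinite M
  have : Fintype (orbit M b) := Fintype.ofFinite _
  have : Fintype (stabilizer M b) := Fintype.ofFinite _
  simp only [Nat.card_eq_fintype_card]
  exact MulAction.card_orbit_mul_card_stabilizer_eq_card_group M b

section cyc

variable {p : ℕ} {x : Perm Ω}

theorem pow_apply_eq_self_iff (hp : p.Prime) (hxord : orderOf x = p) (hxfix : ∀ ω, x ω ≠ ω)
    (k : ℕ) (ω : Ω) : (x ^ k) ω = ω ↔ p ∣ k := by
  constructor
  · intro h
    by_contra hk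
    have hcop : Nat.Coprime k p := ((Nat.Prime.coprime_iff_not_dvd hp).2 hk).symm
    obtain ⟨m, -, hm⟩ := Nat.exists_mul_mod_eq_one_of_coprime hcop hp.one_lt
    have h1 : x ^ (k * m) = x ^ 1 := by
      rw [pow_eq_pow_iff_modEq, hxord]
      show k * m % p = 1 % p
      rw [hm, Nat.mod_eq_of_lt hp.one_lt]
    have h2 : (x ^ (k * m)) ω = ω := by
      rw [pow_mul]
      exact Perm.pow_apply_eq_self_of_apply_eq_self h m
    rw [h1, pow_one] at h2
    exact hxfix ω h2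
  · rintro ⟨m, rfl⟩
    rw [pow_mul, ← hxord, pow_orderOf_eq_one, one_pow]; rfl

/-- the `x`-cycle of `ω` as a finset -/
def cyc (x : Perm Ω) (p : ℕ) (ω : Ω) : Finset Ω := (Finset.range p).image (fun i => (x ^ i) ω)

theorem mem_cyc_iff (hp : p.Prime) (hxord : orderOf x = p) (ω ω' : Ω) :
    ω' ∈ cyc x p ω ↔ x.SameCycle ω ω' := by
  unfold cyc
  rw [Finset.mem_image]
  constructor
  · rintro ⟨i, -, rfl⟩
    exact ⟨(i : ℤ), by simp⟩
  · intro h
    obtain ⟨i, rfl⟩ := h.exists_nat_pow_eq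
    refine ⟨i % p, Finset.mem_range.2 (Nat.mod_lt _ hp.pos), ?_⟩
    have : x ^ (i % p) = x ^ i := by
      rw [pow_eq_pow_iff_modEq, hxord]
      exact Nat.mod_modEq i p
    show (x ^ (i % p)) ω = (x ^ i) ω
    rw [this]

theorem card_cyc (hp : p.Prime) (hxord : orderOf x = p) (hxfix : ∀ ω, x ω ≠ ω) (ω : Ω) :
    (cyc x p ω).card = p := by
  unfold cyc
  rw [Finset.card_image_of_injOn, Finset.card_range]
  intro i hi j hj hij
  have hi' : i < p := Finset.mem_range.1 hi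
  have hj' : j < p := Finset.mem_range.1 hj
  have key : ∀ i j : ℕ, i ≤ j → j < p → (x ^ i) ω = (x ^ j) ω → i = j := by
    intro i j hij hj h
    have h1 : (x ^ (j - i)) ω = ω := by
      have : x ^ j = x ^ i * x ^ (j - i) := by rw [← pow_add]; congr 1; omega
      rw [this, Perm.mul_apply] at h
      exact ((x ^ i).injective h).symm
    have h2 := (pow_apply_eq_self_iff hp hxord hxfix _ _).1 h1
    have h3 : j - i = 0 := Nat.eq_zero_of_dvd_of_lt h2 (by omega)
    omega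
  rcases le_total i j with h | h
  · exact key i j h hj' hij
  · exact (key j i h hi' hij.symm).symm

/-- two points outside the cycle of `a₀` lie in the same cycle -/
theorem sameCycle_of_not (hp : p.Prime) (hcard : Fintype.card Ω = 2 * p) (hxord : orderOf x = p)
    (hxfix : ∀ ω, x ω ≠ ω) {a₀ β β' : Ω} (hβ : ¬ x.SameCycle a₀ β) (hβ' : ¬ x.SameCycle a₀ β') :
    x.SameCycle β β' := by
  have hdisj : Disjoint (cyc x p a₀) (cyc x p β) := by
    rw [Finset.disjoint_left]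
    intro ω h1 h2
    rw [mem_cyc_iff hp hxord] at h1 h2
    exact hβ (h1.trans h2.symm)
  have hun : cyc x p a₀ ∪ cyc x p β = Finset.univ := by
    apply Finset.eq_univ_of_card
    rw [Finset.card_union_of_disjoint hdisj, card_cyc hp hxord hxfix, card_cyc hp hxord hxfix,
      hcard]
    ring
  have h : β' ∈ cyc x p a₀ ∪ cyc x p β := by rw [hun]; exact Finset.mem_univ _
  rcases Finset.mem_union.1 h with h | h
  · exact absurd ((mem_cyc_iff hp hxord _ _).1 h) hβ'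
  · exact (mem_cyc_iff hp hxord _ _).1 h

theorem exists_not_sameCycle (hp : p.Prime) (hcard : Fintype.card Ω = 2 * p)
    (hxord : orderOf x = p) (hxfix : ∀ ω, x ω ≠ ω) (a₀ : Ω) : ∃ β, ¬ x.SameCycle a₀ β := by
  by_contra hcon
  push Not at hcon
  have : cyc x p a₀ = Finset.univ := by
    rw [Finset.eq_univ_iff_forall]
    intro ω
    exact (mem_cyc_iff hp hxord _ _).2 (hcon ω)
  have h1 := card_cyc hp hxord hxfix a₀
  rw [this, Finset.card_univ, hcard] at h1
  have := hp.pos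
  omega

end cyc

section main

variable {G : Subgroup (Perm Ω)} {p : ℕ} {x : Perm Ω}

omit [Fintype Ω] [DecidableEq Ω] in
/-- a conjugation relation propagates to powers -/
theorem conj_pow_apply {g : Perm Ω} {a : ℕ} (h : g * x * g⁻¹ = x ^ a) (i : ℕ) (ω : Ω) :
    g ((x ^ i) ω) = (x ^ (a * i)) (g ω) := by
  have h1 : g * x ^ i * g⁻¹ = x ^ (a * i) := by
    rw [pow_mul, ← h, conj_pow]
  have h2 : g * x ^ i = x ^ (a * i) * g := by
    rw [← h1]; group
  have := congrArg (fun f : Perm Ω => f ω) h2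
  simpa [Perm.mul_apply] using this

theorem exists_pow_of_mem_normalizer (hyp : Hyp G p x) {n : ↥G}
    (hn : n ∈ Subgroup.normalizer (Subgroup.zpowers (⟨x, hyp.hxG⟩ : G) : Set G)) :
    ∃ a : ℕ, (n : Perm Ω) * x * (n : Perm Ω)⁻¹ = x ^ a := by
  have h1 : n * ⟨x, hyp.hxG⟩ * n⁻¹ ∈ Subgroup.zpowers (⟨x, hyp.hxG⟩ : G) :=
    (Subgroup.mem_normalizer_iff.1 hn _).1 (Subgroup.mem_zpowers _)
  rw [← mem_powers_iff_mem_zpowers] at h1
  obtain ⟨a, ha⟩ := h1
  refine ⟨a, ?_⟩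
  have := congrArg (Subtype.val) ha
  simpa using this.symm

/-- `C_G(P) ∩ G_{a₀} = 1` -/
theorem eq_one_of_centralizer_fix (hyp : Hyp G p x) (a₀ : Ω) {c : ↥G}
    (hc : c ∈ Subgroup.centralizer (Subgroup.zpowers (⟨x, hyp.hxG⟩ : G) : Set G))
    (hfix : (c : Perm Ω) a₀ = a₀) : c = 1 := by
  have hp := hyp.hp
  have hpF : Fact p.Prime := ⟨hp⟩
  have hcomm : (c : Perm Ω) * x = x * (c : Perm Ω) := by
    have := (Subgroup.mem_centralizer_iff.1 hc) ⟨x, hyp.hxG⟩ (Subgroup.mem_zpowers _)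
    exact (congrArg Subtype.val this).symm
  have hcpow : ∀ (i : ℕ) (ω : Ω), (c : Perm Ω) ((x ^ i) ω) = (x ^ i) ((c : Perm Ω) ω) := by
    intro i ω
    have h1 : (c : Perm Ω) * x ^ i = x ^ i * (c : Perm Ω) :=
      (Commute.pow_right (show Commute (c : Perm Ω) x from hcomm) i).eq
    have := congrArg (fun f : Perm Ω => f ω) h1
    simpa [Perm.mul_apply] using this
  have hfix1 : ∀ ω, x.SameCycle a₀ ω → (c : Perm Ω) ω = ω := by
    intro ω hω
    obtain ⟨i, rfl⟩ := hω.exists_nat_pow_eq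
    rw [hcpow, hfix]
  obtain ⟨β, hβ⟩ := exists_not_sameCycle hp hyp.hcard hyp.hxord hyp.hxfix a₀
  have hcβ : ¬ x.SameCycle a₀ ((c : Perm Ω) β) := by
    intro h
    apply hβ
    have h1 := hfix1 _ h
    have h2 : (c : Perm Ω) β = β := (c : Perm Ω).injective h1
    rwa [h2] at h
  obtain ⟨j, hj⟩ := (sameCycle_of_not hp hyp.hcard hyp.hxord hyp.hxfix hβ hcβ).exists_nat_pow_eq
  have hfix2 : ∀ ω, ¬ x.SameCycle a₀ ω → (c : Perm Ω) ω = (x ^ j) ω := by
    intro ω hω
    obtain ⟨i, rfl⟩ :=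
      (sameCycle_of_not hp hyp.hcard hyp.hxord hyp.hxfix hβ hω).exists_nat_pow_eq
    rw [hcpow, ← hj, ← Perm.mul_apply, ← Perm.mul_apply, ← pow_add, ← pow_add, add_comm]
  have hpow2 : ∀ (n : ℕ) (ω : Ω), ¬ x.SameCycle a₀ ω →
      ((c : Perm Ω) ^ n) ω = (x ^ (j * n)) ω := by
    intro n
    induction n with
    | zero => intro ω _; simp
    | succ n ih =>
      intro ω hω
      rw [pow_succ, Perm.mul_apply, hfix2 ω hω, ih _ (by rwa [Perm.sameCycle_pow_right]),
        ← Perm.mul_apply, ← pow_add]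
      congr 2
  have hcp : (c : Perm Ω) ^ p = 1 := by
    ext ω
    by_cases hω : x.SameCycle a₀ ω
    · rw [Perm.pow_apply_eq_self_of_apply_eq_self (hfix1 ω hω)]; rfl
    · rw [hpow2 p ω hω, pow_mul', ← hyp.hxord, pow_orderOf_eq_one, one_pow]
  have hcp' : c ^ p = 1 := by
    apply Subtype.ext
    rw [Subgroup.coe_pow, hcp]; rfl
  -- Sylow
  have hcardP : Nat.card (Subgroup.zpowers (⟨x, hyp.hxG⟩ : G)) = p := by
    rw [Nat.card_zpowers, ← Subgroup.orderOf_coe]
    exact hyp.hxord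
  have hfact : (Nat.card G).factorization p = 1 := by
    have h0 : Nat.card G ≠ 0 := Nat.card_pos.ne'
    have h1 : 1 ≤ (Nat.card G).factorization p := by
      rw [← Nat.Prime.pow_dvd_iff_le_factorization hp h0, pow_one, ← hcardP]
      exact Subgroup.card_subgroup_dvd_card _
    have h2 : ¬ 2 ≤ (Nat.card G).factorization p := by
      rw [← Nat.Prime.pow_dvd_iff_le_factorization hp h0]
      exact hyp.hsyl
    omega
  let Q : Sylow p ↥G := Sylow.ofCard (Subgroup.zpowers (⟨x, hyp.hxG⟩ : G))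
    (by rw [hcardP, hfact, pow_one])
  have hH : IsPGroup p ↥(Subgroup.zpowers c) := by
    rintro ⟨g, hg⟩
    obtain ⟨n, rfl⟩ := Subgroup.mem_zpowers_iff.1 hg
    refine ⟨1, ?_⟩
    apply Subtype.ext
    show (c ^ n) ^ p ^ 1 = 1
    rw [pow_one, ← zpow_natCast, ← zpow_mul, mul_comm, zpow_mul, zpow_natCast, hcp', one_zpow]
  have hcN : c ∈ Subgroup.normalizer ((Q : Subgroup ↥G) : Set ↥G) :=
    Subgroup.centralizer_le_normalizer _ hc
  have hcQ : c ∈ Subgroup.zpowers c ⊓ (Q : Subgroup ↥G) := by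
    rw [← IsPGroup.inf_normalizer_sylow hH Q]
    exact Subgroup.mem_inf.2 ⟨Subgroup.mem_zpowers c, hcN⟩
  have hcP : c ∈ Subgroup.zpowers (⟨x, hyp.hxG⟩ : G) := (Subgroup.mem_inf.1 hcQ).2
  rw [← mem_powers_iff_mem_zpowers] at hcP
  obtain ⟨n, hn⟩ := hcP
  have hn' : (c : Perm Ω) = x ^ n := by
    have := congrArg Subtype.val hn
    simpa using this.symm
  rw [hn'] at hfix
  have hdvd := (pow_apply_eq_self_iff hp hyp.hxord hyp.hxfix n a₀).1 hfix
  apply Subtype.ext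
  rw [hn']
  obtain ⟨m, rfl⟩ := hdvd
  rw [pow_mul, ← hyp.hxord, pow_orderOf_eq_one, one_pow]; rfl

/-- the exponent of the conjugation action of a normalizer element -/
noncomputable def expo (hyp : Hyp G p x)
    (n : ↥(Subgroup.normalizer (Subgroup.zpowers (⟨x, hyp.hxG⟩ : G) : Set G))) : ℕ :=
  Classical.choose (exists_pow_of_mem_normalizer hyp n.2)

theorem expo_spec (hyp : Hyp G p x)
    (n : ↥(Subgroup.normalizer (Subgroup.zpowers (⟨x, hyp.hxG⟩ : G) : Set G))) :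
    ((n : ↥G) : Perm Ω) * x * ((n : ↥G) : Perm Ω)⁻¹ = x ^ expo hyp n :=
  Classical.choose_spec (exists_pow_of_mem_normalizer hyp n.2)

/-- the exponent as a monoid homomorphism to `ZMod p` -/
noncomputable def uhom (hyp : Hyp G p x) :
    ↥(Subgroup.normalizer (Subgroup.zpowers (⟨x, hyp.hxG⟩ : G) : Set G)) →* ZMod p where
  toFun n := (expo hyp n : ZMod p)
  map_one' := by
    have h := expo_spec hyp 1
    have h' : x ^ expo hyp 1 = x ^ 1 := by
      rw [pow_one, ← h]; simp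
    rw [pow_eq_pow_iff_modEq, hyp.hxord] at h'
    have := (ZMod.natCast_eq_natCast_iff _ _ p).2 h'
    simpa using this
  map_mul' m n := by
    have h1 := expo_spec hyp m
    have h2 := expo_spec hyp n
    have h3 := expo_spec hyp (m * n)
    have h4 : x ^ expo hyp (m * n) = x ^ (expo hyp m * expo hyp n) := by
      rw [← h3, pow_mul, ← h1, conj_pow, ← h2]
      simp [mul_assoc]
    rw [pow_eq_pow_iff_modEq, hyp.hxord] at h4
    have := (ZMod.natCast_eq_natCast_iff _ _ p).2 h4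
    simpa using this

theorem card_orbit_cases (hyp : Hyp G p x) (a₀ : Ω) (M : Subgroup ↥G)
    (hXM : (⟨x, hyp.hxG⟩ : ↥G) ∈ M) :
    ((∀ m ∈ M, x.SameCycle a₀ ((m : Perm Ω) a₀)) → Nat.card (orbit ↥M a₀) = p) ∧
    ((∃ m ∈ M, ¬ x.SameCycle a₀ ((m : Perm Ω) a₀)) → Nat.card (orbit ↥M a₀) = 2 * p) := by
  have hp := hyp.hp
  have hpowmem : ∀ (i : ℕ) (ω : Ω), ω ∈ orbit ↥M a₀ → (x ^ i) ω ∈ orbit ↥M a₀ := by
    rintro i ω ⟨m, rfl⟩
    refine ⟨⟨(⟨x, hyp.hxG⟩ : ↥G) ^ i, M.pow_mem hXM i⟩ * m, ?_⟩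
    show ((((⟨x, hyp.hxG⟩ : ↥G) ^ i * (m : ↥G) : ↥G)) : Perm Ω) a₀ = (x ^ i) (((m : ↥G) : Perm Ω) a₀)
    rw [Subgroup.coe_mul, Subgroup.coe_pow, Perm.mul_apply]
  have hself : a₀ ∈ orbit ↥M a₀ := mem_orbit_self a₀
  constructor
  · intro hgood
    have horb : orbit ↥M a₀ = ((cyc x p a₀ : Finset Ω) : Set Ω) := by
      ext ω
      rw [Finset.mem_coe, mem_cyc_iff hp hyp.hxord]
      constructor
      · rintro ⟨m, rfl⟩
        exact hgood (m : ↥G) m.2
      · intro h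
        obtain ⟨i, rfl⟩ := h.exists_nat_pow_eq
        exact hpowmem i a₀ hself
    rw [horb, Nat.card_coe_set_eq, Set.ncard_coe_finset, card_cyc hp hyp.hxord hyp.hxfix]
  · rintro ⟨m, hm, hbad⟩
    have horb : orbit ↥M a₀ = Set.univ := by
      rw [Set.eq_univ_iff_forall]
      intro ω
      by_cases hω : x.SameCycle a₀ ω
      · obtain ⟨i, rfl⟩ := hω.exists_nat_pow_eq
        exact hpowmem i a₀ hself
      · obtain ⟨i, rfl⟩ :=
          (sameCycle_of_not hp hyp.hcard hyp.hxord hyp.hxfix hbad hω).exists_nat_pow_eq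
        exact hpowmem i _ ⟨⟨m, hm⟩, rfl⟩
    rw [horb, Nat.card_coe_set_eq, Set.ncard_univ, Nat.card_eq_fintype_card, hyp.hcard]

theorem ns {G : Subgroup (Perm Ω)} {p : ℕ} {x : Perm Ω} (hyp : Hyp G p x) (a₀ : Ω) :
    ∃ (g₀ : Perm Ω) (a : ℕ), g₀ ∈ G ∧ g₀ a₀ = a₀ ∧ g₀ * x * g₀⁻¹ = x ^ a ∧
      ((Subgroup.centralizer (Subgroup.zpowers (⟨x, hyp.hxG⟩ : G) : Set G)).relIndex
          (Subgroup.normalizer (Subgroup.zpowers (⟨x, hyp.hxG⟩ : G) : Set G)) =
            orderOf (a : ZMod p) ∨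
        (Subgroup.centralizer (Subgroup.zpowers (⟨x, hyp.hxG⟩ : G) : Set G)).relIndex
          (Subgroup.normalizer (Subgroup.zpowers (⟨x, hyp.hxG⟩ : G) : Set G)) =
            2 * orderOf (a : ZMod p)) ∧
      (2 ≤ orderOf (a : ZMod p) → ∃ β : Ω, ¬ x.SameCycle a₀ β ∧ g₀ β = β) := by
  have hp := hyp.hp
  have hpF : Fact p.Prime := ⟨hp⟩
  have hCN : Subgroup.centralizer (Subgroup.zpowers (⟨x, hyp.hxG⟩ : G) : Set G) ≤
      Subgroup.normalizer (Subgroup.zpowers (⟨x, hyp.hxG⟩ : G) : Set G) :=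
    Subgroup.centralizer_le_normalizer _
  have hu : Function.Injective ((uhom hyp).comp
      (stabilizer ↥(Subgroup.normalizer (Subgroup.zpowers (⟨x, hyp.hxG⟩ : G) : Set G)) a₀).subtype) := by
    rw [injective_iff_map_eq_one]
    intro k hk
    have hk' : ((expo hyp (k : ↥(Subgroup.normalizer
        (Subgroup.zpowers (⟨x, hyp.hxG⟩ : G) : Set G))) : ℕ) : ZMod p) = 1 := hk
    have h1 := expo_spec hyp (k : ↥(Subgroup.normalizer
        (Subgroup.zpowers (⟨x, hyp.hxG⟩ : G) : Set G)))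
    have h2 : x ^ expo hyp (k : ↥(Subgroup.normalizer
        (Subgroup.zpowers (⟨x, hyp.hxG⟩ : G) : Set G))) = x ^ 1 := by
      rw [pow_eq_pow_iff_modEq, hyp.hxord]
      exact (ZMod.natCast_eq_natCast_iff _ _ p).1 (by simpa using hk')
    rw [h2, pow_one] at h1
    have hkC : ((k : ↥(Subgroup.normalizer (Subgroup.zpowers (⟨x, hyp.hxG⟩ : G) : Set G))) : ↥G) ∈
        Subgroup.centralizer (Subgroup.zpowers (⟨x, hyp.hxG⟩ : G) : Set G) := by
      rw [Subgroup.mem_centralizer_iff]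
      intro h hh
      obtain ⟨i, rfl⟩ := Subgroup.mem_zpowers_iff.1 hh
      have hcomm : (⟨x, hyp.hxG⟩ : ↥G) * ((k : ↥(Subgroup.normalizer
          (Subgroup.zpowers (⟨x, hyp.hxG⟩ : G) : Set G))) : ↥G) =
          ((k : ↥(Subgroup.normalizer (Subgroup.zpowers (⟨x, hyp.hxG⟩ : G) : Set G))) : ↥G) *
            ⟨x, hyp.hxG⟩ := by
        apply Subtype.ext
        rw [Subgroup.coe_mul, Subgroup.coe_mul]
        show x * _ = _ * x
        nth_rewrite 1 [← h1]
        group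
      exact (Commute.zpow_left (show Commute _ _ from hcomm) i).eq
    have hkfix : (((k : ↥(Subgroup.normalizer (Subgroup.zpowers (⟨x, hyp.hxG⟩ : G) : Set G))) : ↥G)
        : Perm Ω) a₀ = a₀ := k.2
    have := eq_one_of_centralizer_fix hyp a₀ hkC hkfix
    apply Subtype.ext
    apply Subtype.ext
    exact this
  have hcyc : IsCyclic ↥(stabilizer ↥(Subgroup.normalizer
      (Subgroup.zpowers (⟨x, hyp.hxG⟩ : G) : Set G)) a₀) := isCyclic_of_subgroup_isDomain _ hu
  obtain ⟨k₀, hk₀⟩ := IsCyclic.exists_generator (α := ↥(stabilizer ↥(Subgroup.normalizer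
      (Subgroup.zpowers (⟨x, hyp.hxG⟩ : G) : Set G)) a₀))
  have hord : orderOf ((expo hyp (k₀ : ↥(Subgroup.normalizer
      (Subgroup.zpowers (⟨x, hyp.hxG⟩ : G) : Set G))) : ℕ) : ZMod p) =
      Nat.card ↥(stabilizer ↥(Subgroup.normalizer
        (Subgroup.zpowers (⟨x, hyp.hxG⟩ : G) : Set G)) a₀) := by
    have := orderOf_injective _ hu k₀
    rw [orderOf_eq_card_of_forall_mem_zpowers hk₀] at this
    exact this
  have hconj := expo_spec hyp (k₀ : ↥(Subgroup.normalizer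
      (Subgroup.zpowers (⟨x, hyp.hxG⟩ : G) : Set G)))
  have hfix : (((k₀ : ↥(Subgroup.normalizer (Subgroup.zpowers (⟨x, hyp.hxG⟩ : G) : Set G))) : ↥G)
      : Perm Ω) a₀ = a₀ := k₀.2
  refine ⟨_, expo hyp (k₀ : ↥(Subgroup.normalizer
      (Subgroup.zpowers (⟨x, hyp.hxG⟩ : G) : Set G))), Subtype.prop _, hfix, hconj, ?_, ?_⟩
  · -- the index
    rw [hord]
    have hN1 := card_orbit_mul' ↥(Subgroup.normalizer
      (Subgroup.zpowers (⟨x, hyp.hxG⟩ : G) : Set G)) a₀
    have hC1 := card_orbit_mul' ↥(Subgroup.centralizer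
      (Subgroup.zpowers (⟨x, hyp.hxG⟩ : G) : Set G)) a₀
    have hstabC : Nat.card (stabilizer ↥(Subgroup.centralizer
        (Subgroup.zpowers (⟨x, hyp.hxG⟩ : G) : Set G)) a₀) = 1 := by
      rw [Subgroup.card_eq_one, eq_bot_iff]
      intro c hc
      rw [Subgroup.mem_bot]
      apply Subtype.ext
      exact eq_one_of_centralizer_fix hyp a₀ c.2 hc
    rw [hstabC, mul_one] at hC1
    have hrel : (Subgroup.centralizer (Subgroup.zpowers (⟨x, hyp.hxG⟩ : G) : Set G)).relIndex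
        (Subgroup.normalizer (Subgroup.zpowers (⟨x, hyp.hxG⟩ : G) : Set G)) *
        Nat.card ↥(Subgroup.centralizer (Subgroup.zpowers (⟨x, hyp.hxG⟩ : G) : Set G)) =
        Nat.card ↥(Subgroup.normalizer (Subgroup.zpowers (⟨x, hyp.hxG⟩ : G) : Set G)) := by
      have h1 := Subgroup.index_mul_card ((Subgroup.centralizer
        (Subgroup.zpowers (⟨x, hyp.hxG⟩ : G) : Set G)).subgroupOf
        (Subgroup.normalizer (Subgroup.zpowers (⟨x, hyp.hxG⟩ : G) : Set G)))
      rw [Nat.card_congr (Subgroup.subgroupOfEquivOfLe hCN).toEquiv] at h1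
      exact h1
    have hXC : (⟨x, hyp.hxG⟩ : ↥G) ∈ Subgroup.centralizer
        (Subgroup.zpowers (⟨x, hyp.hxG⟩ : G) : Set G) := by
      rw [Subgroup.mem_centralizer_iff]
      intro h hh
      obtain ⟨i, rfl⟩ := Subgroup.mem_zpowers_iff.1 hh
      exact (Commute.zpow_left (Commute.refl _) i).eq
    have hcC := card_orbit_cases hyp a₀ _ hXC
    have hcN := card_orbit_cases hyp a₀ _ (hCN hXC)
    have hppos : 0 < p := hp.pos
    by_cases hCbad : ∃ m ∈ Subgroup.centralizer (Subgroup.zpowers (⟨x, hyp.hxG⟩ : G) : Set G),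
        ¬ x.SameCycle a₀ ((m : Perm Ω) a₀)
    · have hNbad : ∃ m ∈ Subgroup.normalizer (Subgroup.zpowers (⟨x, hyp.hxG⟩ : G) : Set G),
          ¬ x.SameCycle a₀ ((m : Perm Ω) a₀) := by
        obtain ⟨m, hm, h⟩ := hCbad
        exact ⟨m, hCN hm, h⟩
      rw [hcC.2 hCbad] at hC1
      rw [hcN.2 hNbad] at hN1
      left
      rw [← hC1, ← hN1] at hrel
      exact Nat.eq_of_mul_eq_mul_right (show 0 < 2 * p by omega) (by rw [hrel, mul_comm])
    · push Not at hCbad
      rw [hcC.1 hCbad] at hC1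
      by_cases hNbad : ∃ m ∈ Subgroup.normalizer (Subgroup.zpowers (⟨x, hyp.hxG⟩ : G) : Set G),
          ¬ x.SameCycle a₀ ((m : Perm Ω) a₀)
      · rw [hcN.2 hNbad] at hN1
        right
        rw [← hC1, ← hN1] at hrel
        exact Nat.eq_of_mul_eq_mul_right hppos (by rw [hrel]; ring)
      · push Not at hNbad
        rw [hcN.1 hNbad] at hN1
        left
        rw [← hC1, ← hN1] at hrel
        exact Nat.eq_of_mul_eq_mul_right hppos (by rw [hrel, mul_comm])
  · intro h2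
    have ha1 : ((expo hyp (k₀ : ↥(Subgroup.normalizer
        (Subgroup.zpowers (⟨x, hyp.hxG⟩ : G) : Set G))) : ℕ) : ZMod p) ≠ 1 := by
      intro h
      rw [h, orderOf_one] at h2
      omega
    obtain ⟨β₀, hβ₀⟩ := exists_not_sameCycle hp hyp.hcard hyp.hxord hyp.hxfix a₀
    have hgβ : ¬ x.SameCycle a₀ ((((k₀ : ↥(Subgroup.normalizer
        (Subgroup.zpowers (⟨x, hyp.hxG⟩ : G) : Set G))) : ↥G) : Perm Ω) β₀) := by
      intro h
      have hinv := expo_spec hyp (k₀ : ↥(Subgroup.normalizer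
        (Subgroup.zpowers (⟨x, hyp.hxG⟩ : G) : Set G)))⁻¹
      obtain ⟨i, hi⟩ := h.exists_nat_pow_eq
      have h3 := conj_pow_apply hinv i a₀
      rw [hi] at h3
      apply hβ₀
      have e1 : ((((k₀ : ↥(Subgroup.normalizer (Subgroup.zpowers (⟨x, hyp.hxG⟩ : G) : Set G)))⁻¹ :
          ↥(Subgroup.normalizer (Subgroup.zpowers (⟨x, hyp.hxG⟩ : G) : Set G))) : ↥G) : Perm Ω)
          = ((((k₀ : ↥(Subgroup.normalizer (Subgroup.zpowers (⟨x, hyp.hxG⟩ : G) : Set G))) : ↥G)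
            : Perm Ω))⁻¹ := by
        simp
      rw [e1] at h3
      have e3 : ((((k₀ : ↥(Subgroup.normalizer (Subgroup.zpowers (⟨x, hyp.hxG⟩ : G) : Set G))) : ↥G)
            : Perm Ω))⁻¹ ((((k₀ : ↥(Subgroup.normalizer
              (Subgroup.zpowers (⟨x, hyp.hxG⟩ : G) : Set G))) : ↥G) : Perm Ω) β₀) = β₀ := by
        simp
      rw [e3] at h3
      have e2 : ((((k₀ : ↥(Subgroup.normalizer (Subgroup.zpowers (⟨x, hyp.hxG⟩ : G) : Set G))) : ↥G)
            : Perm Ω))⁻¹ a₀ = a₀ := by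
        rw [Perm.inv_eq_iff_eq]; exact hfix.symm
      rw [e2] at h3
      rw [h3, Perm.sameCycle_pow_right]
    obtain ⟨c, hc⟩ :=
      (sameCycle_of_not hp hyp.hcard hyp.hxord hyp.hxfix hβ₀ hgβ).exists_nat_pow_eq
    refine ⟨(x ^ ((c : ZMod p) * (1 - ((expo hyp (k₀ : ↥(Subgroup.normalizer
        (Subgroup.zpowers (⟨x, hyp.hxG⟩ : G) : Set G))) : ℕ) : ZMod p))⁻¹).val) β₀, ?_, ?_⟩
    · rw [Perm.sameCycle_pow_right]; exact hβ₀
    · rw [conj_pow_apply hconj, ← hc, ← Perm.mul_apply, ← pow_add]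
      have hne : (1 - ((expo hyp (k₀ : ↥(Subgroup.normalizer
          (Subgroup.zpowers (⟨x, hyp.hxG⟩ : G) : Set G))) : ℕ) : ZMod p)) ≠ 0 :=
        sub_ne_zero.2 (Ne.symm ha1)
      have : x ^ (expo hyp (k₀ : ↥(Subgroup.normalizer
          (Subgroup.zpowers (⟨x, hyp.hxG⟩ : G) : Set G))) *
            ((c : ZMod p) * (1 - ((expo hyp (k₀ : ↥(Subgroup.normalizer
              (Subgroup.zpowers (⟨x, hyp.hxG⟩ : G) : Set G))) : ℕ) : ZMod p))⁻¹).val + c)
          = x ^ ((c : ZMod p) * (1 - ((expo hyp (k₀ : ↥(Subgroup.normalizer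
              (Subgroup.zpowers (⟨x, hyp.hxG⟩ : G) : Set G))) : ℕ) : ZMod p))⁻¹).val := by
        rw [pow_eq_pow_iff_modEq, hyp.hxord, ← ZMod.natCast_eq_natCast_iff]
        push_cast
        rw [ZMod.natCast_zmod_val]
        field_simp
        ring
      rw [this]

end main

end Cfsg.Agent.H56.W2P
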