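import Mathlib
import Cfsg.Agent.H74.W2PDefs
import Cfsg.Agent.H56.W2PNS

set_option autoImplicit false
set_option linter.unusedSectionVars false

/-!
S0720-FV (piece of helper74's Wielandt `2p` project): the fixed-vector argument.
-/

namespace Cfsg.Agent.H56.W2P

open Cfsg.Agent.H74.W2P Equiv MulAction

variable {Ω : Type*} [Fintype Ω] [DecidableEq Ω]

section pw

variable {M : Type*} [Monoid M] {p : ℕ} {g : M}

theorem pow_mod_of (hg : g ^ p = 1) (k : ℕ) : g ^ (k % p) = g ^ k := by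
  conv_rhs => rw [← Nat.mod_add_div k p, pow_add, pow_mul, hg, one_pow, mul_one]

theorem pow_val_add [NeZero p] (hg : g ^ p = 1) (m n : ZMod p) :
    g ^ (m + n).val = g ^ m.val * g ^ n.val := by
  rw [ZMod.val_add, pow_mod_of hg, pow_add]

theorem pow_val_mul (hg : g ^ p = 1) (m n : ZMod p) :
    g ^ (m * n).val = g ^ (m.val * n.val) := by
  rw [ZMod.val_mul, pow_mod_of hg]

theorem pow_val_natCast (hg : g ^ p = 1) (n : ℕ) :
    g ^ ((n : ZMod p)).val = g ^ n := by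
  rw [ZMod.val_natCast, pow_mod_of hg]

end pw

section zsum

variable {p : ℕ}

theorem zeta_pow (hp : p.Prime) : zeta p ^ p = 1 :=
  (Complex.isPrimitiveRoot_exp p hp.ne_zero).pow_eq_one

theorem sum_zeta_val [Fact p.Prime] : ∑ k : ZMod p, zeta p ^ k.val = 0 := by
  have hp : p.Prime := Fact.out
  have h1 : ∑ k : ZMod p, zeta p ^ k.val = ∑ i ∈ Finset.range p, zeta p ^ i := by
    refine Finset.sum_bij' (fun k _ => k.val) (fun i _ => (i : ZMod p)) ?_ ?_ ?_ ?_ ?_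
    · intro k _; exact Finset.mem_range.2 (ZMod.val_lt k)
    · intro i _; exact Finset.mem_univ _
    · intro k _; exact ZMod.natCast_zmod_val k
    · intro i hi; exact ZMod.val_cast_of_lt (Finset.mem_range.1 hi)
    · intro k _; rfl
  rw [h1]
  exact (Complex.isPrimitiveRoot_exp p hp.ne_zero).geom_sum_eq_zero hp.one_lt

theorem sum_zeta_mul [Fact p.Prime] (j : ZMod p) :
    ∑ k : ZMod p, zeta p ^ (-(k * j)).val = if j = 0 then (p : ℂ) else 0 := by
  by_cases hj : j = 0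
  · subst hj
    simp
  · rw [if_neg hj]
    have hj' : -j ≠ 0 := neg_ne_zero.2 hj
    have h1 : ∑ k : ZMod p, zeta p ^ (-(k * j)).val = ∑ k : ZMod p, zeta p ^ k.val := by
      refine Fintype.sum_equiv (Equiv.mulRight₀ (-j) hj') _ _ ?_
      intro k
      simp
    rw [h1, sum_zeta_val]

end zsum

section proj

variable {p : ℕ} [NeZero p]

/-- the projection onto `Vh x p k` -/
noncomputable def proj (x : Perm Ω) (p : ℕ) [NeZero p] (k : ZMod p) : (Ω → ℂ) →ₗ[ℂ] (Ω → ℂ) :=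
  (p : ℂ)⁻¹ • ∑ j : ZMod p,
    (zeta p ^ (-(k * j)).val) • LinearMap.funLeft ℂ ℂ (fun ω => (x ^ j.val) ω)

theorem proj_apply (x : Perm Ω) (k : ZMod p) (f : Ω → ℂ) (ω : Ω) :
    proj x p k f ω = (p : ℂ)⁻¹ * ∑ j : ZMod p, zeta p ^ (-(k * j)).val * f ((x ^ j.val) ω) := by
  simp [proj, LinearMap.funLeft_apply, Finset.sum_apply]

end proj

section projlemmas

variable {p : ℕ} [Fact p.Prime] {x : Perm Ω}

theorem proj_mem_Vh (hx : x ^ p = 1) (k : ZMod p) (f : Ω → ℂ) : proj x p k f ∈ Vh x p k := by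
  have hp : p.Prime := Fact.out
  have h1p : Fact (1 < p) := ⟨hp.one_lt⟩
  show ∀ ω, proj x p k f (x ω) = zeta p ^ k.val * proj x p k f ω
  intro ω
  rw [proj_apply, proj_apply, mul_left_comm]
  congr 1
  rw [Finset.mul_sum]
  refine Fintype.sum_equiv (Equiv.addRight 1) _ _ ?_
  intro j
  show zeta p ^ (-(k * j)).val * f ((x ^ j.val) (x ω)) =
    zeta p ^ k.val * (zeta p ^ (-(k * (j + 1))).val * f ((x ^ (j + 1).val) ω))
  rw [← mul_assoc, ← pow_val_add (zeta_pow hp), pow_val_add hx j 1, ZMod.val_one, pow_one,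
    Perm.mul_apply]
  congr 3
  ring

theorem sum_proj (f : Ω → ℂ) : ∑ k : ZMod p, proj x p k f = f := by
  have hp : p.Prime := Fact.out
  have hp0 : (p : ℂ) ≠ 0 := Nat.cast_ne_zero.2 hp.ne_zero
  funext ω
  rw [Finset.sum_apply]
  simp only [proj_apply]
  rw [← Finset.mul_sum, Finset.sum_comm]
  simp only [← Finset.sum_mul, sum_zeta_mul]
  rw [Finset.sum_eq_single 0]
  · rw [if_pos rfl, ZMod.val_zero, pow_zero, Perm.one_apply, inv_mul_cancel_left₀ hp0]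
  · intro j _ hj
    rw [if_neg hj, zero_mul]
  · intro h
    exact absurd (Finset.mem_univ _) h

theorem proj_mem {G : Subgroup (Perm Ω)} {W : Submodule ℂ (Ω → ℂ)} (hinv : Inv G W)
    (hxG : x ∈ G) (k : ZMod p) {f : Ω → ℂ} (hf : f ∈ W) : proj x p k f ∈ W := by
  unfold proj
  rw [LinearMap.smul_apply, LinearMap.sum_apply]
  refine W.smul_mem _ (W.sum_mem ?_)
  intro j _
  rw [LinearMap.smul_apply]
  refine W.smul_mem _ ?_
  exact hinv _ (G.pow_mem hxG _) f hf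

theorem proj_comp {g₀ : Perm Ω} {a : ℕ} (hx : x ^ p = 1) (hconj : g₀ * x * g₀⁻¹ = x ^ a)
    (ha : (a : ZMod p) ≠ 0) (h : ZMod p) (f : Ω → ℂ) :
    proj x p (h * a) (fun ω => f (g₀ ω)) = fun ω => proj x p h f (g₀ ω) := by
  funext ω
  rw [proj_apply, proj_apply]
  congr 1
  refine Fintype.sum_equiv (Equiv.mulLeft₀ (a : ZMod p) ha) _ _ ?_
  intro j
  show zeta p ^ (-(h * a * j)).val * f (g₀ ((x ^ j.val) ω)) =
    zeta p ^ (-(h * ((a : ZMod p) * j))).val * f ((x ^ ((a : ZMod p) * j).val) (g₀ ω))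
  have hpow : x ^ ((a : ZMod p) * j).val = x ^ (a * j.val) := by
    rw [pow_val_mul hx, pow_mul, pow_val_natCast hx, ← pow_mul]
  rw [conj_pow_apply hconj, mul_assoc, hpow]

theorem Vh_pow {h : ZMod p} {f : Ω → ℂ} (hf : f ∈ Vh x p h) (n : ℕ) (ω : Ω) :
    f ((x ^ n) ω) = zeta p ^ (h.val * n) * f ω := by
  induction n with
  | zero => simp
  | succ n ih =>
    rw [pow_succ', Perm.mul_apply, hf ((x ^ n) ω), ih, ← mul_assoc, ← pow_add]
    congr 2
    ring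

theorem Vh_comp {g₀ : Perm Ω} {a : ℕ} (hconj : g₀ * x * g₀⁻¹ = x ^ a)
    {h : ZMod p} {f : Ω → ℂ} (hf : f ∈ Vh x p h) :
    (fun ω => f (g₀ ω)) ∈ Vh x p (h * a) := by
  have hp : p.Prime := Fact.out
  show ∀ ω, f (g₀ (x ω)) = zeta p ^ (h * (a : ZMod p)).val * f (g₀ ω)
  intro ω
  have h1 := conj_pow_apply hconj 1 ω
  rw [pow_one, mul_one] at h1
  have hz : (zeta p ^ h.val) ^ p = 1 := by
    rw [← pow_mul, mul_comm, pow_mul, zeta_pow hp, one_pow]
  rw [h1, Vh_pow hf, pow_val_mul (zeta_pow hp), pow_mul, pow_mul, pow_val_natCast hz]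

end projlemmas

section main

theorem comp_ne_zero {f : Ω → ℂ} (hf : f ≠ 0) (g : Perm Ω) : (fun ω => f (g ω)) ≠ 0 := by
  intro h
  apply hf
  funext ω
  have := congrFun h (g⁻¹ ω)
  simpa using this

/-- S0720-FV: the fixed-vector argument -/
theorem fv {G : Subgroup (Perm Ω)} {p : ℕ} {x : Perm Ω} (hyp : Hyp G p x) {a₀ β : Ω}
    {W : Submodule ℂ (Ω → ℂ)} {Λ : Finset (ZMod p)} (hW : WData G p x a₀ W Λ)
    (hbot : ∀ h : ZMod p, h ∉ Λ → W ⊓ Vh x p h = ⊥) (hsum : ∀ f ∈ W, ∑ ω, f ω = 0)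
    (g₀ : Perm Ω) (hg₀ : g₀ ∈ G) (hga : g₀ a₀ = a₀) (hgβ : g₀ β = β) (hβ : β ≠ a₀)
    (a : ℕ) (hconj : g₀ * x * g₀⁻¹ = x ^ a) (hord : orderOf (a : ZMod p) = Λ.card) : False := by
  have hp := hyp.hp
  have hpF : Fact p.Prime := ⟨hp⟩
  have hx : x ^ p = 1 := by rw [← hyp.hxord]; exact pow_orderOf_eq_one x
  -- ā ≠ 0
  have ha : (a : ZMod p) ≠ 0 := by
    intro h0
    have hdvd : p ∣ a := (ZMod.natCast_eq_zero_iff a p).1 h0
    obtain ⟨m, rfl⟩ := hdvd
    rw [pow_mul, hx, one_pow] at hconj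
    have h1 : x = 1 := by
      have h2 : x = g₀⁻¹ * (g₀ * x * g₀⁻¹) * g₀ := by group
      rw [h2, hconj]; group
    exact hyp.hxfix a₀ (by rw [h1]; rfl)
  -- Λ nonempty
  have hΛ : Λ.Nonempty := by
    rw [Finset.nonempty_iff_ne_empty]
    intro h0
    apply hW.irr.1
    rw [hW.sup, h0]
    simp
  obtain ⟨h₀, hh₀⟩ := hΛ
  -- Λ is stable under multiplication by ā
  have hmul : ∀ h ∈ Λ, h * a ∈ Λ := by
    intro h hh
    by_contra hnot
    have hfr := hW.eig h hh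
    have hne : W ⊓ Vh x p h ≠ ⊥ := by
      intro hb
      rw [hb, finrank_bot] at hfr
      exact zero_ne_one hfr
    obtain ⟨f, hf, hf0⟩ := (Submodule.ne_bot_iff _).1 hne
    have hmem : (fun ω => f (g₀ ω)) ∈ W ⊓ Vh x p (h * a) :=
      Submodule.mem_inf.2 ⟨hW.inv g₀ hg₀ f (Submodule.mem_inf.1 hf).1,
        Vh_comp hconj (Submodule.mem_inf.1 hf).2⟩
    rw [hbot _ hnot, Submodule.mem_bot] at hmem
    exact comp_ne_zero hf0 g₀ hmem
  have hpow : ∀ i : ℕ, h₀ * (a : ZMod p) ^ i ∈ Λ := by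
    intro i
    induction i with
    | zero => simpa using hh₀
    | succ i ih => rw [pow_succ, ← mul_assoc]; exact hmul _ ih
  have horb : ∀ h ∈ Λ, ∃ i : ℕ, h = h₀ * (a : ZMod p) ^ i := by
    have hh₀0 : h₀ ≠ 0 := fun h => hW.zero_not_mem (h ▸ hh₀)
    have hsub : (Finset.range (orderOf (a : ZMod p))).image
        (fun i => h₀ * (a : ZMod p) ^ i) ⊆ Λ := by
      intro h hh
      obtain ⟨i, -, rfl⟩ := Finset.mem_image.1 hh
      exact hpow i
    have hcard : ((Finset.range (orderOf (a : ZMod p))).image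
        (fun i => h₀ * (a : ZMod p) ^ i)).card = Λ.card := by
      rw [Finset.card_image_of_injOn, Finset.card_range, hord]
      intro i hi j hj hij
      have hi' : i < orderOf (a : ZMod p) := Finset.mem_range.1 hi
      have hj' : j < orderOf (a : ZMod p) := Finset.mem_range.1 hj
      have h1 : (a : ZMod p) ^ i = (a : ZMod p) ^ j := mul_left_cancel₀ hh₀0 hij
      exact pow_injOn_Iio_orderOf (Set.mem_Iio.2 hi') (Set.mem_Iio.2 hj') h1
    have heq := Finset.eq_of_subset_of_card_le hsub (le_of_eq hcard.symm)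
    intro h hh
    rw [← heq] at hh
    obtain ⟨i, -, rfl⟩ := Finset.mem_image.1 hh
    exact ⟨i, rfl⟩
  -- zero lemma
  have hzero : ∀ F ∈ W, (∀ ω, F (g₀ ω) = F ω) → proj x p h₀ F = 0 → F = 0 := by
    intro F hF hfix h0
    have hFg : (fun ω => F (g₀ ω)) = F := funext hfix
    have hstep : ∀ h : ZMod p, proj x p h F = 0 → proj x p (h * a) F = 0 := by
      intro h hh
      have h1 := proj_comp hx hconj ha h F
      rw [hFg, hh] at h1
      rw [h1]; rfl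
    have hall : ∀ i : ℕ, proj x p (h₀ * (a : ZMod p) ^ i) F = 0 := by
      intro i
      induction i with
      | zero => simpa using h0
      | succ i ih => rw [pow_succ, ← mul_assoc]; exact hstep _ ih
    rw [← sum_proj (x := x) (p := p) F]
    refine Finset.sum_eq_zero ?_
    intro h _
    by_cases hh : h ∈ Λ
    · obtain ⟨i, rfl⟩ := horb h hh
      exact hall i
    · have hmem : proj x p h F ∈ W ⊓ Vh x p h :=
        Submodule.mem_inf.2 ⟨proj_mem hW.inv hyp.hxG h hF, proj_mem_Vh hx h F⟩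
      rw [hbot h hh, Submodule.mem_bot] at hmem
      exact hmem
  -- the two fixed vectors
  obtain ⟨F₁, hF₁W, hF₁0, hF₁fix, -⟩ := hW.rat
  have hprim : IsPreprimitive ↥G Ω := hyp.hprim
  have hpt : IsPretransitive ↥G Ω := hprim.toIsPretransitive
  obtain ⟨g₁, hg₁⟩ := MulAction.exists_smul_eq ↥G β a₀
  have hg₁' : (g₁ : Perm Ω) β = a₀ := hg₁
  have hF₂W : (fun ω => F₁ ((g₁ : Perm Ω) ω)) ∈ W := hW.inv _ g₁.2 F₁ hF₁W
  have hF₂0 : (fun ω => F₁ ((g₁ : Perm Ω) ω)) ≠ 0 := comp_ne_zero hF₁0 _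
  have hF₂fix : ∀ g ∈ G, g β = β → ∀ ω, F₁ ((g₁ : Perm Ω) (g ω)) = F₁ ((g₁ : Perm Ω) ω) := by
    intro g hg hgβ' ω
    have h1 := hF₁fix ((g₁ : Perm Ω) * g * (g₁ : Perm Ω)⁻¹)
      (G.mul_mem (G.mul_mem g₁.2 hg) (G.inv_mem g₁.2)) (by
        rw [Perm.mul_apply, Perm.mul_apply, ← hg₁']
        simp [hgβ'])
      ((g₁ : Perm Ω) ω)
    simpa [Perm.mul_apply] using h1
  have hpF₂ : proj x p h₀ (fun ω => F₁ ((g₁ : Perm Ω) ω)) ≠ 0 :=
    fun h => hF₂0 (hzero _ hF₂W (hF₂fix g₀ hg₀ hgβ) h)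
  have hm₁ : proj x p h₀ F₁ ∈ W ⊓ Vh x p h₀ :=
    Submodule.mem_inf.2 ⟨proj_mem hW.inv hyp.hxG h₀ hF₁W, proj_mem_Vh hx h₀ F₁⟩
  have hm₂ : proj x p h₀ (fun ω => F₁ ((g₁ : Perm Ω) ω)) ∈ W ⊓ Vh x p h₀ :=
    Submodule.mem_inf.2 ⟨proj_mem hW.inv hyp.hxG h₀ hF₂W, proj_mem_Vh hx h₀ _⟩
  obtain ⟨c, hc⟩ := (finrank_eq_one_iff_of_nonzero'
    (⟨_, hm₂⟩ : ↥(W ⊓ Vh x p h₀)) (fun h => hpF₂ (congrArg Subtype.val h))).1
      (hW.eig h₀ hh₀) ⟨_, hm₁⟩
  have hc' : c • proj x p h₀ (fun ω => F₁ ((g₁ : Perm Ω) ω)) = proj x p h₀ F₁ :=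
    congrArg Subtype.val hc
  have hF : F₁ - c • (fun ω => F₁ ((g₁ : Perm Ω) ω)) = 0 := by
    apply hzero _ (W.sub_mem hF₁W (W.smul_mem c hF₂W))
    · intro ω
      simp only [Pi.sub_apply, Pi.smul_apply, hF₁fix g₀ hg₀ hga ω, hF₂fix g₀ hg₀ hgβ ω]
    · rw [map_sub, map_smul, hc', sub_self]
  have hF₁eq : F₁ = c • (fun ω => F₁ ((g₁ : Perm Ω) ω)) := sub_eq_zero.1 hF
  have hF₁fixβ : ∀ g ∈ G, g β = β → ∀ ω, F₁ (g ω) = F₁ ω := by
    intro g hg hgβ' ω
    have h1 := congrFun hF₁eq (g ω)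
    have h2 := congrFun hF₁eq ω
    simp only [Pi.smul_apply] at h1 h2
    rw [h1, h2, hF₂fix g hg hgβ' ω]
  -- the subgroup of `G` fixing `F₁`
  let S : Subgroup ↥G :=
    { carrier := {g | ∀ ω, F₁ ((g : Perm Ω) ω) = F₁ ω}
      mul_mem' := by
        intro g h hg hh ω
        show F₁ (((g * h : ↥G) : Perm Ω) ω) = F₁ ω
        rw [Subgroup.coe_mul, Perm.mul_apply, hg, hh]
      one_mem' := by
        intro ω
        rfl
      inv_mem' := by
        intro g hg ω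
        have h1 := hg ((g : Perm Ω)⁻¹ ω)
        have h2 : (g : Perm Ω) ((g : Perm Ω)⁻¹ ω) = ω := by simp
        rw [h2] at h1
        show F₁ (((g⁻¹ : ↥G) : Perm Ω) ω) = F₁ ω
        rw [Subgroup.coe_inv]
        exact h1.symm }
  have hSa : stabilizer ↥G a₀ ≤ S := fun g hg ω => hF₁fix g g.2 (mem_stabilizer_iff.1 hg) ω
  have hSβ : stabilizer ↥G β ≤ S := fun g hg ω => hF₁fixβ g g.2 (mem_stabilizer_iff.1 hg) ω
  have hnt : Nontrivial Ω := ⟨⟨β, a₀, hβ⟩⟩
  have hcoa : IsCoatom (stabilizer ↥G a₀) := (isCoatom_stabilizer_iff_preprimitive (G := ↥G) a₀).2 hprim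
  have hcoβ : IsCoatom (stabilizer ↥G β) := (isCoatom_stabilizer_iff_preprimitive (G := ↥G) β).2 hprim
  have hStop : S ≠ ⊤ := by
    intro hS
    apply hF₁0
    have hconst : ∀ ω, F₁ ω = F₁ a₀ := by
      intro ω
      obtain ⟨g, hg⟩ := MulAction.exists_smul_eq ↥G a₀ ω
      have hgS : g ∈ S := hS ▸ Subgroup.mem_top g
      rw [← hg]
      exact hgS a₀
    have hs := hsum F₁ hF₁W
    rw [Finset.sum_congr rfl (fun ω _ => hconst ω), Finset.sum_const, Finset.card_univ,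
      hyp.hcard, nsmul_eq_mul] at hs
    have h2p : ((2 * p : ℕ) : ℂ) ≠ 0 := Nat.cast_ne_zero.2 (by have := hp.pos; omega)
    have hz : F₁ a₀ = 0 := (mul_eq_zero.1 hs).resolve_left h2p
    funext ω
    rw [hconst ω, hz]
    rfl
  have hSeq : S = stabilizer ↥G a₀ := by
    by_contra hne
    exact hStop (hcoa.2 S (lt_of_le_of_ne hSa (Ne.symm hne)))
  have hβa : stabilizer ↥G β = stabilizer ↥G a₀ := by
    have hle : stabilizer ↥G β ≤ stabilizer ↥G a₀ := hSeq ▸ hSβ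
    by_contra hne
    exact hcoa.1 (hcoβ.2 _ (lt_of_le_of_ne hle hne))
  -- the stabilizer is normal, hence trivial
  obtain ⟨g₂, hg₂⟩ := MulAction.exists_smul_eq ↥G a₀ β
  have hg₂N : g₂ ∈ Subgroup.normalizer ((stabilizer ↥G a₀ : Subgroup ↥G) : Set ↥G) := by
    rw [Subgroup.mem_normalizer_iff]
    intro h
    constructor
    · intro hh
      rw [← hβa, mem_stabilizer_iff, mul_smul, mul_smul, ← hg₂, inv_smul_smul,
        mem_stabilizer_iff.1 hh]
    · intro hh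
      rw [← hβa, mem_stabilizer_iff, mul_smul, mul_smul, ← hg₂, inv_smul_smul] at hh
      exact mem_stabilizer_iff.2 (smul_left_cancel g₂ hh)
  have hg₂H : g₂ ∉ stabilizer ↥G a₀ := by
    intro h
    exact hβ (by rw [← hg₂, mem_stabilizer_iff.1 h])
  have hNtop : Subgroup.normalizer ((stabilizer ↥G a₀ : Subgroup ↥G) : Set ↥G) = ⊤ := by
    apply hcoa.2
    refine lt_of_le_of_ne Subgroup.le_normalizer ?_
    intro heq
    exact hg₂H (heq ▸ hg₂N)
  have hnormal : (stabilizer ↥G a₀).Normal := Subgroup.normalizer_eq_top_iff.1 hNtop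
  have hHbot : stabilizer ↥G a₀ = ⊥ := by
    rw [Subgroup.eq_bot_iff_forall]
    intro h hh
    apply Subtype.ext
    ext ω
    obtain ⟨g, hg⟩ := MulAction.exists_smul_eq ↥G a₀ ω
    have h1 : g⁻¹ * h * g ∈ stabilizer ↥G a₀ := by
      have h0 := hnormal.conj_mem h hh g⁻¹
      simpa using h0
    have h2 : (g⁻¹ * h * g) • a₀ = a₀ := mem_stabilizer_iff.1 h1
    have h3 : h • ω = ω := by
      rw [← hg]
      calc h • g • a₀ = g • (g⁻¹ * h * g) • a₀ := by simp [mul_smul]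
        _ = g • a₀ := by rw [h2]
    exact h3
  -- so `G` is cyclic of order `p`, which is absurd
  have hxne : (⟨x, hyp.hxG⟩ : ↥G) ≠ 1 := by
    intro h
    have h1 : x = 1 := congrArg Subtype.val h
    exact hyp.hxfix a₀ (by rw [h1]; rfl)
  have hzp : Subgroup.zpowers (⟨x, hyp.hxG⟩ : ↥G) = ⊤ := by
    rw [hHbot] at hcoa
    apply hcoa.2
    rw [bot_lt_iff_ne_bot]
    intro h
    exact hxne (Subgroup.zpowers_eq_bot.1 h)
  have hcardG : Nat.card ↥G = p := by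
    rw [← Subgroup.card_top (G := ↥G), ← hzp, Nat.card_zpowers, ← Subgroup.orderOf_coe]
    exact hyp.hxord
  have horbit := card_orbit_mul' ↥G a₀
  rw [hHbot, Subgroup.card_bot, mul_one, hcardG, MulAction.orbit_eq_univ, Nat.card_coe_set_eq,
    Set.ncard_univ, Nat.card_eq_fintype_card, hyp.hcard] at horbit
  have := hp.pos
  omega

end main

end Cfsg.Agent.H56.W2P
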